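/-
Centralisers of unipotent elements of unitary groups.
-/
import Cfsg.Agent.Cls.KO2
import Cfsg.Agent.Cls.Cnt

set_option autoImplicit false

namespace CF.Cls

open Polynomial Module CF.Geom

theorem card_mul_range {G X : Type*} [Group G] (S : Subgroup G) (φ : G → X)
    (h : ∀ a b, φ a = φ b ↔ a⁻¹ * b ∈ S) : Nat.card S * Nat.card (Set.range φ) = Nat.card G := by
  rw [← S.card_mul_index, Subgroup.index]
  congr 1
  exact (Nat.card_congr ((Quotient.congrRight fun a b =>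
    QuotientGroup.leftRel_apply.trans (h a b).symm).trans (Setoid.quotientKerEquivRange φ))).symm

variable {F : Type*} [Field F] {σ : F →+* F} {V W : Type*} [AddCommGroup V] [Module F V]
  [AddCommGroup W] [Module F W]

theorem exists_skew_of_ne (hσ : σ ≠ RingHom.id F) (hσ2 : ∀ x, σ (σ x) = x) :
    ∃ κ θ : F, κ ≠ 0 ∧ σ κ = -κ ∧ θ + σ θ = 1 := by
  obtain ⟨a, ha⟩ := DFunLike.ne_iff.1 hσ
  have h1 : a - σ a ≠ 0 := sub_ne_zero.2 (Ne.symm ha)
  have h2 : σ a - a ≠ 0 := sub_ne_zero.2 ha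
  refine ⟨a - σ a, a / (a - σ a), h1, by simp [hσ2], ?_⟩
  rw [map_div₀, map_sub, hσ2]
  field_simp
  ring

section Fix

variable (hσ : σ ≠ RingHom.id F) (hσ2 : ∀ x, σ (σ x) = x) {τ : V → V}
  (h1 : ∀ x y, τ (x + y) = τ x + τ y) (h2 : ∀ (c : F) x, τ (c • x) = σ c • τ x)
  (h3 : ∀ x, τ (τ x) = x)
include hσ hσ2 h1 h2 h3

theorem card_fix_sub (U : Submodule F V) (hU : ∀ x ∈ U, τ x ∈ U) :
    Nat.card {x // τ x = x ∧ x ∈ U} ^ 2 = Nat.card U := by
  rw [← card_fix_sq hσ hσ2 (fun x : U => ⟨τ x, hU _ x.2⟩) (fun _ _ => Subtype.ext (h1 _ _))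
    (fun _ _ => Subtype.ext (h2 _ _)) fun _ => Subtype.ext (h3 _)]
  exact congrArg (· ^ 2) (Nat.card_congr ⟨fun x => ⟨⟨x, x.2.2⟩, Subtype.ext x.2.1⟩,
    fun x => ⟨x.1, congrArg Subtype.val x.2, x.1.2⟩, fun _ => rfl, fun _ => rfl⟩)

theorem card_fix_preimage {τ' : W → W} (π : V →ₗ[F] W) (hπ : Function.Surjective π)
    (h4 : ∀ x, π (τ x) = τ' (π x)) (P : W → Prop) :
    Nat.card {x // τ x = x ∧ P (π x)} =
      Nat.card {y // τ' y = y ∧ P y} * Nat.card {x // τ x = x ∧ x ∈ LinearMap.ker π} := by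
  obtain ⟨-, θ, -, -, a3⟩ := exists_skew_of_ne hσ hσ2
  have h5 : ∀ y, τ' y = y → ∃ x, τ x = x ∧ π x = y := fun y hy => by
    obtain ⟨x, rfl⟩ := hπ y
    refine ⟨θ • x + τ (θ • x), by rw [h1, h3, add_comm], ?_⟩
    rw [h2, map_add, map_smul, map_smul, h4, hy, ← add_smul, a3, one_smul]
  choose s s1 s2 using h5
  have h6 : ∀ x y, τ (x - y) = τ x - τ y := fun x y => by rw [eq_sub_iff_add_eq, ← h1]; simp
  rw [← Nat.card_prod]
  refine (Nat.card_congr (Equiv.ofBijective (fun x => ⟨s x.1.1 x.1.2.1 + x.2.1, by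
    rw [h1, s1, x.2.2.1], by rw [map_add, s2, x.2.2.2, add_zero]; exact x.1.2.2⟩)
      ⟨fun x y h => ?_, fun x => ?_⟩)).symm
  · have h7 := congrArg Subtype.val h
    have h8 : x.1 = y.1 := Subtype.ext (by
      simpa [s2, LinearMap.mem_ker.1 x.2.2.2, LinearMap.mem_ker.1 y.2.2.2] using congrArg π h7)
    exact Prod.ext h8 (Subtype.ext (by simpa [h8] using h7))
  · have h7 : τ' (π x.1) = π x.1 := by rw [← h4, x.2.1]
    exact ⟨⟨⟨_, h7, x.2.2⟩, ⟨x.1 - s _ h7, by rw [h6, s1, x.2.1], by simp [s2]⟩⟩,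
      Subtype.ext (add_sub_cancel _ _)⟩

end Fix

variable [FiniteDimensional F V] [FiniteDimensional F W] {B : V →ₛₗ[σ] V →ₗ[F] F} {ε : F}

theorem EH.mem_range_adj (h : EH σ ε B) (φ : End F V) {w : V} (hw : ∀ u, φ u = 0 → B u w = 0) :
    w ∈ LinearMap.range (h.adj φ) := by
  rw [Submodule.eq_of_le_of_finrank_eq (S₁ := LinearMap.range (h.adj φ))
    (S₂ := perp B (LinearMap.ker φ)) (by
    rintro _ ⟨y, rfl⟩ u hu
    rw [h.adj_right, hu]; simp) (by
    have h1 := finrank_perp_add h.surj B h.nondeg (LinearMap.ker φ)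
    have h2 := LinearMap.finrank_range_add_finrank_ker (h.adj φ)
    rw [h.finrank_ker_adj] at h2
    omega)]
  exact hw

omit [FiniteDimensional F V] in
theorem Pres.sub_one_pow' {f : End F V} (h : Pres B f) (k : ℕ) (u v : V) :
    B (((f - 1) ^ k) u) ((f ^ k) v) = (-1) ^ k * B u (((f - 1) ^ k) v) := by
  induction k generalizing u v with
  | zero => simp
  | succ k ih =>
    have h1 : ∀ u v, B ((f - 1) u) (f v) = - B u ((f - 1) v) := fun u v => by simp [h u v]
    have h2 : (f - 1) ^ k * f = f * (f - 1) ^ k :=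
      (((Commute.refl f).sub_left (Commute.one_left f)).pow_left k)
    rw [pow_succ, pow_succ, End.mul_apply, End.mul_apply, ih, ← End.mul_apply ((f - 1) ^ k), h2,
      End.mul_apply, h1, ← End.mul_apply, ← pow_succ', pow_succ (-1 : F), pow_succ]
    ring

theorem EH.adj_comm (h : EH σ ε B) {f φ : End F V} (hf : Pres B f) (hφ : φ * f = f * φ) :
    h.adj φ * f = f * h.adj φ := by
  have h1 := congrArg h.adj hφ
  rw [h.isAnti_adj.mul, h.isAnti_adj.mul] at h1
  rw [← one_mul (h.adj φ * f), ← h.mul_adj hf, mul_assoc, ← mul_assoc _ _ f, h1, mul_assoc,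
    h.pres_iff.1 hf, mul_one]

variable [Finite F]

theorem EH.card_cent (h : EH σ ε B) (hσ : σ ≠ RingHom.id F) {f : End F V} (hf : Pres B f) :
    Nat.card ↥(UG B ⊓ CG f) * Nat.card {S : End F V // h.adj S = S ∧ S * f = f * S ∧ IsUnit S} =
      Nat.card (CG f) := by
  have h0 := h.isAnti_adj
  rw [← card_mul_range ((UG B).subgroupOf (CG f))
    (fun a => h.adj a.1.symm.toLinearMap * a.1.symm.toLinearMap) fun a b => ?_,
    ← Subgroup.inf_subgroupOf_right, Nat.card_congr (Subgroup.subgroupOfEquivOfLe inf_le_right).toEquiv]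
  · congr 1
    refine Nat.card_congr (Equiv.subtypeEquivRight fun S => ⟨fun ⟨a1, a2, a3⟩ => ?_, ?_⟩)
    · have a4 : ∀ u v, B (S u) v = B u (S v) := fun u v => by rw [← h.adj_left, a1]
      have a5 : EH σ ε (B.compl₂ S) := ⟨h.invol, fun x hx => h.nondeg x fun y => by
        obtain ⟨y, rfl⟩ := ((End.isUnit_iff _).1 a3).2 y
        exact hx y, fun x y => (h.symm _ _).trans (congrArg (ε * σ ·) (a4 y x))⟩
      obtain ⟨Z, z1, z2⟩ := a5.exists_isom_of_sim h hσ (f := f) (fun u v => by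
        simpa [← End.mul_apply S, a2] using hf u (S v)) hf ⟨.refl F V, fun _ => rfl⟩
      refine ⟨⟨Z.symm, mem_CG.2 fun v => Z.injective (by simp [z2])⟩, LinearMap.ext fun v =>
        h.ext_right fun u => ?_⟩
      simpa [h.adj_right] using z1 u v
    · rintro ⟨a, rfl⟩
      have a1 : a.1.symm.toLinearMap * f = f * a.1.symm.toLinearMap :=
        LinearMap.ext (mem_CG.1 (a⁻¹).2)
      have a2 : IsUnit (a.1.symm.toLinearMap : End F V) := (End.isUnit_iff _).2 a.1.symm.bijective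
      refine ⟨by rw [h0.mul, h.adj_adj], by
        rw [mul_assoc, a1, ← mul_assoc, h.adj_comm hf a1, mul_assoc], IsUnit.mul ?_ a2⟩
      obtain ⟨y, hy⟩ := a2.exists_right_inv
      exact IsUnit.of_mul_eq_one_right (h.adj y) (by rw [← h0.mul, hy, h0.one])
  · rw [Subgroup.mem_subgroupOf, mem_UG, b.1.symm.surjective.forall₂, LinearMap.ext_iff]
    refine ⟨fun H u v => ?_, fun H v => h.ext_right fun u => ?_⟩
    · simpa [h.adj_right] using congrArg (B u) (H v)
    · simpa [h.adj_right] using H u v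

theorem EH.card_cent_congr {B' : W →ₛₗ[σ] W →ₗ[F] F} (h : EH σ ε B) (h' : EH σ ε B')
    (hσ : σ ≠ RingHom.id F) {f : End F V} {g : End F W} (hf : Pres B f) (hg : Pres B' g)
    (hs : Sim f g) : Nat.card ↥(UG B ⊓ CG f) = Nat.card ↥(UG B' ⊓ CG g) := by
  obtain ⟨Z, z1, z2⟩ := h.exists_isom_of_sim h' hσ hf hg hs
  refine Nat.card_congr ((conjLE Z).toEquiv.subtypeEquiv fun a => ?_)
  simp only [Subgroup.mem_inf, mem_UG, mem_CG, Z.surjective.forall, ← z2, z1]
  simp [conjLE, ← z2, z1]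

theorem EH.card_UG (h : EH σ 1 B) {q : ℕ} (hσ : ∀ x, σ x = x ^ q) (hσ1 : σ ≠ RingHom.id F) :
    Nat.card ↥(UG B ⊓ CG 1) = Nat.card (Cfsg.GU (finrank F V) F q) := by
  rw [h.card_cent_congr (eh_hermSesq h.invol (Fin (finrank F V))) hσ1 (g := 1) (fun _ _ => rfl)
    (fun _ _ => rfl) ⟨(finBasis F V).equivFun, fun _ => rfl⟩,
    inf_eq_left.2 fun _ _ => mem_CG.2 (by simp), Nat.card_congr (guEquiv _ hσ).toEquiv]

section Top

variable {κ : Type*} [Fintype κ] [DecidableEq κ] {d : κ → ℕ} (hd : ∀ k, 0 < d k) {j : ℕ}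

variable (F d j) in
/-- The generators of the blocks of size `j`. -/
noncomputable def io : ({k // d k = j} → F) →ₗ[F] UM F d :=
  Fintype.linearCombination F fun k => Pi.single k.1 1

variable (j) in
/-- The coordinates of the blocks of size `j`. -/
noncomputable def rho : UM F d →ₗ[F] ({k // d k = j} → F) :=
  LinearMap.funLeft F F Subtype.val ∘ₗ evM hd

omit [Finite F]

theorem evM_io (x : {k // d k = j} → F) (k : κ) :
    evM hd (io F d j x) k = if h : d k = j then x ⟨k, h⟩ else 0 := by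
  simp only [io, Fintype.linearCombination_apply, map_sum, map_smul, evM_single, Finset.sum_apply,
    Pi.smul_apply, Pi.single_apply, smul_eq_mul, mul_ite, mul_one, mul_zero]
  split_ifs with h
  · rw [Finset.sum_eq_single ⟨k, h⟩] <;> simp +contextual [Subtype.ext_iff, eq_comm]
  · exact Finset.sum_eq_zero fun l _ => if_neg fun e : k = l.1 => h (e ▸ l.2)

omit hd in
theorem pow_uE_apply (i : ℕ) (m : UM F d) (k : κ) :
    ((uE F d - 1) ^ i) m k = AdjoinRoot.mk _ ((X - 1) ^ i) * m k := by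
  rw [← aeval_X_sub_one_pow (F := F) (uE F d), aeval_blk_apply]

omit hd in
theorem pow_io (x : {k // d k = j} → F) : ((uE F d - 1) ^ j) (io F d j x) = 0 := by
  simp only [io, Fintype.linearCombination_apply, map_sum, map_smul]
  refine Finset.sum_eq_zero fun l _ => ?_
  rw [← aeval_X_sub_one_pow (F := F), aeval_blk_single,
    AdjoinRoot.mk_eq_zero.2 (pow_dvd_pow _ l.2.le)]
  simp

theorem evM_eq_zero {i : ℕ} {m : UM F d} {k : κ} (h : ((uE F d - 1) ^ i) m k = 0) (hk : i < d k) :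
    evM hd m k = 0 := by
  obtain ⟨p, hp⟩ := AdjoinRoot.mk_surjective (m k)
  rw [pow_uE_apply, ← hp, ← map_mul, AdjoinRoot.mk_eq_zero] at h
  obtain ⟨e, he⟩ := Nat.exists_eq_add_of_lt hk
  rw [he, add_assoc, pow_add, mul_dvd_mul_iff_left (pow_ne_zero _ monic_X_sub_one.ne_zero)] at h
  rw [evM_apply, ← hp, ev1_mk]
  exact dvd_iff_isRoot.1 ((dvd_pow_self _ e.succ_ne_zero).trans h)

theorem dl_eq (D : ℕ) (φ : CA F d) (j : Fin D) :
    Matrix.toLin' (dl hd D φ j) = rho hd j ∘ₗ φ.1 ∘ₗ io F d j :=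
  (Pi.basisFun F _).ext fun l => by
    ext k
    simp [io, rho, dl_apply, evM_apply]

variable {B : UM F d →ₛₗ[σ] UM F d →ₗ[F] F} (h : EH σ 1 B) (hf : Pres B (uE F d))
include h hf

omit hd h in
theorem fix_pow {i : ℕ} {v : UM F d} (hv : ((uE F d - 1) ^ (i + 1)) v = 0) (n : ℕ) :
    (uE F d ^ n) (((uE F d - 1) ^ i) v) = ((uE F d - 1) ^ i) v := by
  rw [pow_succ', End.mul_apply, LinearMap.sub_apply, sub_eq_zero] at hv
  induction n with
  | zero => rfl
  | succ n ih => rw [pow_succ', End.mul_apply, ih, hv]; rfl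

omit hd in
theorem top_symm {i : ℕ} {v : UM F d} (hv : ((uE F d - 1) ^ (i + 1)) v = 0) (u : UM F d) :
    B u (((uE F d - 1) ^ i) v) = (-1) ^ i * σ (B v (((uE F d - 1) ^ i) u)) := by
  have h1 : ∀ n u v, B ((uE F d ^ n) u) ((uE F d ^ n) v) = B u v := fun n => by
    induction n with
    | zero => exact fun _ _ => rfl
    | succ k ih => exact fun u v => by rw [pow_succ', End.mul_apply, End.mul_apply, hf, ih]
  rw [h.symm, ← h1 i, fix_pow hf hv, hf.sub_one_pow']
  simp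

theorem top_io {i : ℕ} {u v : UM F d} (hu : ((uE F d - 1) ^ (i + 1)) u = 0)
    (hv : ((uE F d - 1) ^ (i + 1)) v = 0) : B (io F d (i + 1) (rho hd (i + 1) u))
      (((uE F d - 1) ^ i) v) = B u (((uE F d - 1) ^ i) v) := by
  let z : UM F d := fun k => if d k ≤ i then u k else 0
  obtain ⟨y, hy⟩ := exists_of_evM_eq_zero hd (m := u - io F d (i + 1) (rho hd (i + 1) u) - z) (by
    ext k
    rw [map_sub, map_sub, Pi.sub_apply, Pi.sub_apply, evM_io, evM_apply hd z]
    rcases lt_trichotomy (d k) (i + 1) with h1 | h1 | h1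
    · simp [z, h1.ne, Nat.le_of_lt_succ h1, evM_apply]
    · simp [z, h1, rho]
    · simp [z, h1.ne', show ¬ d k ≤ i by omega, evM_eq_zero hd (congrFun hu k) h1])
  have h1 : ((uE F d - 1) ^ i) z = 0 := funext fun k => by
    rw [pow_uE_apply]
    by_cases h1 : d k ≤ i
    · rw [AdjoinRoot.mk_eq_zero.2 (pow_dvd_pow _ h1), zero_mul]; rfl
    · simp [z, h1]
  have h2 := hf y (((uE F d - 1) ^ i) v)
  have h3 := fix_pow hf hv 1
  rw [pow_one] at h3
  have h4 := congrArg (B · (((uE F d - 1) ^ i) v)) hy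
  simp only [map_sub, LinearMap.sub_apply, top_symm h hf hv z, h1, End.one_apply] at h4
  rw [h3] at h2
  simpa [h2, sub_eq_zero, eq_comm (a := B u _)] using h4

theorem exists_top (hσ : σ ≠ RingHom.id F) (j : ℕ) :
    ∃ (B' : ({k // d k = j} → F) →ₛₗ[σ] ({k // d k = j} → F) →ₗ[F] F) (h' : EH σ 1 B'),
      ∀ φ ∈ CA F d, h'.adj (rho hd j ∘ₗ φ ∘ₗ io F d j) = rho hd j ∘ₗ h.adj φ ∘ₗ io F d j := by
  rcases j with _ | i
  · have : IsEmpty {k // d k = 0} := ⟨fun k => (hd k).ne' k.2⟩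
    exact (exists_eh_one h.invol _).imp fun _ h => ⟨h, fun _ _ => Subsingleton.elim _ _⟩
  obtain ⟨c, -, c1, c2, -⟩ := exists_skew_of_ne hσ h.invol
  let B' : ({k // d k = i + 1} → F) →ₛₗ[σ] ({k // d k = i + 1} → F) →ₗ[F] F :=
    c ^ i • pull (B.compl₂ ((uE F d - 1) ^ i : End F _)) (io F d (i + 1))
  have h0 : ∀ x y, B' x y = c ^ i * B (io F d _ x) (((uE F d - 1) ^ i) (io F d _ y)) :=
    fun _ _ => rfl
  have h1 : ∀ x y, B' x y = 1 * σ (B' y x) := fun x y => by
    rw [h0, h0, top_symm h hf (pow_io _), map_mul, map_pow, c2, neg_pow c]; ring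
  have h2 : ∀ φ ∈ CA F d, ∀ (n : ℕ) v, ((uE F d - 1) ^ n) (φ v) = φ (((uE F d - 1) ^ n) v) :=
    fun φ hφ n v => (sub_one_pow_intertwine φ (mem_CA.1 hφ) n v).symm
  have h3 : EH σ 1 B' := ⟨h.invol, fun x hx => funext fun l => by
    obtain ⟨y, hy⟩ := h.mem_range_adj ((uE F d - 1) ^ (i + 1))
      (w := ((uE F d - 1) ^ i) (io F d _ x)) fun u hu => by
        have := (h1 _ _).trans (by rw [hx, map_zero, mul_zero] : 1 * σ (B' x (rho hd _ u)) = 0)
        rwa [h0, top_io hd h hf hu (pow_io _), mul_eq_zero, or_iff_right (pow_ne_zero _ c1)] at this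
    obtain ⟨y, rfl⟩ := ((End.isUnit_iff _).1 ((h.pres_isUnit hf).pow (i + 1))).2 y
    have h3 : ((uE F d - 1) ^ i) (io F d _ x) = (-1 : F) ^ (i + 1) • ((uE F d - 1) ^ (i + 1)) y :=
      h.ext_right fun v => by rw [← hy, h.adj_right, hf.sub_one_pow']; simp
    have h4 := evM_eq_zero hd (i := i) (m := io F d _ x) (k := l.1) (by
      rw [h3, Pi.smul_apply, pow_uE_apply, AdjoinRoot.mk_eq_zero.2 (pow_dvd_pow _ l.2.le)]; simp) (by omega)
    rwa [evM_io, dif_pos l.2] at h4, h1⟩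
  refine ⟨B', h3, fun φ hφ => h3.adj_eq fun x y => ?_⟩
  have h4 : h.adj φ ∈ CA F d := mem_CA.2 (LinearMap.congr_fun (h.adj_comm hf
    (LinearMap.ext (mem_CA.1 hφ))))
  rw [h1 x, h0, h0]
  simp only [LinearMap.comp_apply]
  rw [top_io hd h hf (by rw [h2 _ h4, pow_io, map_zero]) (pow_io _),
    top_io hd h hf (by rw [h2 _ hφ, pow_io, map_zero]) (pow_io _), h.adj_left, ← h2 _ hφ,
    top_symm h hf (by rw [h2 _ hφ, pow_io, map_zero]), map_mul, map_pow, c2, neg_pow c]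
  ring

theorem card_cent_uE [Fintype F] {q : ℕ} (hF : Fintype.card F = q ^ 2) (hσ : ∀ x, σ x = x ^ q)
    (hσ1 : σ ≠ RingHom.id F) {D : ℕ} (hD : ∀ k, d k < D) {γ : ℕ}
    (hγ : Nat.card {x // dl (F := F) hd D x = 0} = Nat.card F ^ γ) :
    Nat.card ↥(UG B ⊓ CG (uE F d)) =
      q ^ γ * ∏ j : Fin D, Nat.card (Cfsg.GU (Fintype.card {k // d k = j}) F q) := by
  choose B' h' h1 using exists_top hd h hf hσ1
  have h0 := h.isAnti_adj
  let τ : CA F d → CA F d := fun φ => ⟨h.adj φ, mem_CA.2 (LinearMap.congr_fun (h.adj_comm hf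
    (LinearMap.ext (mem_CA.1 φ.2))))⟩
  let π : CA F d →ₗ[F] ∀ j : Fin D, End F ({k // d k = j} → F) :=
    ⟨⟨fun φ j => rho hd j ∘ₗ φ.1 ∘ₗ io F d j, fun _ _ => by ext; simp⟩, fun _ _ => by ext; simp⟩
  have h2 : ∀ φ j, π φ j = Matrix.toLin' (dl hd D φ j) := fun φ j => (dl_eq hd D φ j).symm
  have a1 : ∀ x y, τ (x + y) = τ x + τ y := fun x y => Subtype.ext (h0.add _ _)
  have a2 : ∀ (c : F) x, τ (c • x) = σ c • τ x := fun c x => Subtype.ext (h.adj_smul _ _)
  have a3 : ∀ x, τ (τ x) = x := fun x => Subtype.ext (h.adj_adj _)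
  have a4 : ∀ x, π (τ x) = fun j : Fin D => (h' j).adj (π x j) := fun x =>
    funext fun j => (h1 j _ x.2).symm
  have h3 := card_fix_preimage hσ1 h.invol a1 a2 a3 (τ' := fun X (j : Fin D) => (h' j).adj (X j)) π
    (fun X => by
      obtain ⟨φ, hφ⟩ := dl_surjective hd D fun j => LinearMap.toMatrix' (X j)
      exact ⟨φ, funext fun j => by rw [h2, hφ, Matrix.toLin'_toMatrix']⟩) a4 fun X => ∀ j, IsUnit (X j)
  have h4 := card_fix_sub hσ1 h.invol a1 a2 a3 (LinearMap.ker π) fun x hx => by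
    rw [LinearMap.mem_ker, a4, hx]
    exact funext fun j => (h' j).adj_eq (by simp)
  have h5 : Nat.card (LinearMap.ker π) = Nat.card {x // dl (F := F) hd D x = 0} :=
    Nat.card_congr (Equiv.subtypeEquivRight fun x => by simp [funext_iff, h2])
  rw [h5, hγ, Nat.card_eq_fintype_card (α := F), hF, ← pow_mul, mul_comm, pow_mul,
    Nat.pow_left_inj two_ne_zero] at h4
  have h6 := h.card_cent hσ1 hf
  have h7 : ∀ j : Fin D, Nat.card (Cfsg.GU (Fintype.card {k // d k = j}) F q) *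
      Nat.card {S // (h' j).adj S = S ∧ IsUnit S} = ∏ i : Fin (Fintype.card {k // d k = j}),
        (Fintype.card F ^ Fintype.card {k // d k = j} - Fintype.card F ^ (i : ℕ)) := fun j => by
    have := (h' j).card_cent hσ1 (f := 1) fun _ _ => rfl
    rw [(h' j).card_UG hσ hσ1, card_CG_eq, finrank_fintype_fun_eq_card] at this
    simp only [mul_one, one_mul, true_and] at this
    rw [this, ← card_GL_eq]
    exact Nat.card_congr (LinearMap.toMatrixAlgEquiv'.toEquiv.subtypeEquiv fun x => by simp)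
  have h8 : Nat.card {S : End F (UM F d) // h.adj S = S ∧ S * uE F d = uE F d * S ∧ IsUnit S} =
      Nat.card {x // τ x = x ∧ ∀ j, IsUnit (π x j)} := Nat.card_congr
    ⟨fun S => ⟨⟨S, mem_CA.2 (LinearMap.congr_fun S.2.2.1)⟩, Subtype.ext S.2.1, fun j => by
      rw [h2, Matrix.isUnit_toLin'_iff]
      exact (isUnit_iff_dl hd hD _).1 S.2.2.2 j⟩, fun x => ⟨x.1, congrArg Subtype.val x.2.1,
        LinearMap.ext (mem_CA.1 x.1.2), (isUnit_iff_dl hd hD _).2 fun j => by
          rw [← Matrix.isUnit_toLin'_iff, ← h2]; exact x.2.2 j⟩, fun _ => rfl, fun _ => rfl⟩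
  have h9 : Nat.card {X : ∀ j : Fin D, End F ({k // d k = j} → F) //
      (fun j : Fin D => (h' j).adj (X j)) = X ∧ ∀ j, IsUnit (X j)} =
      ∏ j : Fin D, Nat.card {S // (h' j).adj S = S ∧ IsUnit S} := by
    rw [← Nat.card_pi]
    exact Nat.card_congr ((Equiv.subtypeEquivRight fun X => by
      simp [funext_iff, forall_and]).trans Equiv.subtypePiEquivPi)
  rw [h8, h3, h4, h9, card_CG_uE hd hD, hγ, Nat.card_eq_fintype_card (α := F),
    ← Finset.prod_congr rfl fun j _ => h7 j, Finset.prod_mul_distrib, hF] at h6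
  refine Nat.eq_of_mul_eq_mul_right (mul_pos (Finset.prod_pos fun j _ => ?_) (pow_pos
    (by have := two_le_of_card_eq_sq hF; omega) γ)) (h6.trans (by ring))
  have : Finite (End F ({k // d k = j} → F)) := Module.finite_of_finite F
  have : Nonempty {S // (h' j).adj S = S ∧ IsUnit S} := ⟨⟨1, (h' j).isAnti_adj.one, isUnit_one⟩⟩
  exact Nat.card_pos

end Top

end CF.Cls
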