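/-
Invariant subspaces of elements of odd prime order of symplectic and orthogonal groups.
-/
import Cfsg.Agent.Cls.El4

set_option autoImplicit false

namespace CF.Cls

open Polynomial Module CF.Geom CF.Classical QuadraticMap

section Arith

variable {i n k m : ℕ} {b : Prop}

/-- The number of irreducible constituents of a minimal block. -/
def ww (i : ℕ) : ℕ := if Even i then 1 else 2

/-- The dimension of a minimal block. -/
def cc (i : ℕ) : ℕ := if Even i then i else 2 * i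

/-- Half the dimension of a minimal block. -/
def ch (i : ℕ) : ℕ := if Even i then i / 2 else i

/-- The factors of the order of a symplectic group. -/
def aq (q j : ℕ) : ℕ := q ^ (2 * (j + 1)) - 1

open scoped _root_.Classical in
/-- The largest number of blocks in an orthogonal group. -/
noncomputable def kO (n i : ℕ) (b : Prop) : ℕ :=
  n / cc i - if n % cc i = 0 ∧ ¬ (b ↔ i % 2 = 1 ∨ n / i % 2 = 0) then 1 else 0

theorem cc_eq (i : ℕ) : cc i = ww i * i := by unfold cc ww; split_ifs <;> simp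

theorem cc_eq' (i : ℕ) : cc i = 2 * ch i := by
  unfold cc ch; split_ifs with h
  exacts [(Nat.two_mul_div_two_of_even h).symm, rfl]

theorem cc_pos (hi : 0 < i) : 0 < cc i := by unfold cc; split_ifs <;> omega

theorem cc_even (h : Even i) : cc i = i := if_pos h

theorem cc_odd (h : Odd i) : cc i = 2 * i := if_neg (Nat.not_even_iff_odd.2 h)

theorem ww_even (h : Even i) : ww i = 1 := if_pos h

theorem ww_odd (h : Odd i) : ww i = 2 := if_neg (Nat.not_even_iff_odd.2 h)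

theorem ch_dvd_iff : ch i ∣ k ↔ i ∣ 2 * k := by
  unfold ch; split_ifs with h
  · obtain ⟨j, rfl⟩ := h
    rw [← two_mul, Nat.mul_div_cancel_left _ two_pos, Nat.mul_dvd_mul_iff_left two_pos]
  · exact (Nat.coprime_two_right.2 (Nat.not_even_iff_odd.1 h)).dvd_mul_left.symm

theorem mod_cc (n i : ℕ) : n % cc i % 2 = n % 2 := Nat.mod_mod_of_dvd n ⟨_, cc_eq' i⟩

theorem kO_congr {b' : Prop} (h : b ↔ b') : kO n i b = kO n i b' := by rw [propext h]

theorem kO_odd (h : Odd n) : kO n i b = n / cc i := by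
  have := mod_cc n i
  rw [kO, if_neg (by rw [Nat.odd_iff] at h; omega), Nat.sub_zero]

theorem le_kO_iff (hi : 0 < i) (h0 : n = 0 → b) : k ≤ kO n i b ↔
    ww i * k * i ≤ n ∧ (ww i * k * i = n → (b ↔ Odd i ∨ Even (ww i * k))) := by
  have h1 := cc_pos hi
  have h2 : ww i * k * i = k * cc i := by rw [cc_eq]; ring
  have h3 : k * cc i = n → n / i = ww i * k := fun h => by
    rw [← h, ← h2, Nat.mul_div_cancel _ hi]
  rw [h2, ← Nat.le_div_iff_mul_le h1, kO, Nat.odd_iff, Nat.even_iff]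
  split_ifs with h
  · obtain ⟨l, rfl⟩ := Nat.dvd_of_mod_eq_zero h.1
    have h4 : l ≠ 0 := by rintro rfl; simp [h0] at h
    rw [Nat.mul_div_cancel_left _ h1]
    refine ⟨fun h5 => ⟨by omega, fun h6 => ?_⟩, fun h5 => Nat.le_sub_one_of_lt
      (h5.1.lt_of_ne fun h6 => h.2 ?_)⟩
    · rw [mul_comm, Nat.mul_right_inj h1.ne'] at h6; omega
    · rw [h3 (by rw [h6, mul_comm])]; exact h5.2 (by rw [h6, mul_comm])
  · refine (and_iff_left_of_imp fun _ h5 => ?_).symm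
    rw [← h3 h5]
    exact not_not.1 fun h6 => h ⟨by rw [← h5, Nat.mul_mod_left], h6⟩

open scoped _root_.Classical in
theorem kO_two_mul (hi : 0 < i) : kO (2 * k) i b =
    k / ch i - if i ∣ 2 * k ∧ ¬ (b ↔ i ∣ k) then 1 else 0 := by
  have h1 : 2 * k % cc i = 0 ↔ i ∣ 2 * k := by
    rw [← Nat.dvd_iff_mod_eq_zero, cc_eq', Nat.mul_dvd_mul_iff_left two_pos, ch_dvd_iff]
  simp only [kO, h1]
  rw [cc_eq', Nat.mul_div_mul_left _ _ two_pos]
  refine congrArg _ (if_congr (and_congr_right fun ⟨l, hl⟩ => not_congr (iff_congr Iff.rfl ?_))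
    rfl rfl)
  rw [hl, Nat.mul_div_cancel_left _ hi, ← Nat.mul_dvd_mul_iff_left two_pos, hl, mul_comm 2 i,
    Nat.mul_dvd_mul_iff_left hi, Nat.dvd_iff_mod_eq_zero, or_iff_right_iff_imp, ← Nat.odd_iff,
    ← Nat.even_iff]
  exact fun h => ((Nat.even_mul.1 (hl ▸ even_two_mul k)).resolve_left (Nat.not_even_iff_odd.2 h))

theorem mod_of_div_eq_zero (h : n / k = 0) : n % k = n := by
  simpa [h] using Nat.div_add_mod n k

theorem carry_ts {c μ : ℕ} (hi : 0 < i) (h : 2 * m ≤ n)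
    (hc : (c = i ∧ μ = 2 * (m / i)) ∨ (c = 2 * i ∧ μ = m / i)) :
    (i ≤ m ↔ 0 < m / i) ∧ n % c < c ∧ m % i < i ∧ (n - 2 * m) % c < c ∧ 0 ≤ m / i ∧
    0 ≤ (n - 2 * m) / c ∧ ((n - 2 * m) / c = 0 → (n - 2 * m) % c = n - 2 * m) ∧
    (((n - 2 * m) / c + μ = n / c ∧ (n - 2 * m) % c + 2 * (m % i) = n % c) ∨
    ((n - 2 * m) / c + μ + 1 = n / c ∧ (n - 2 * m) % c + 2 * (m % i) = n % c + c) ∨
    ((n - 2 * m) / c + μ + 2 = n / c ∧ (n - 2 * m) % c + 2 * (m % i) = n % c + 2 * c)) := by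
  have h1 := Nat.mod_lt m hi
  have h2 := Nat.div_add_mod m i
  have h3 : 0 < c := by omega
  have h4 : c * μ + 2 * (m % i) = 2 * m := by
    rcases hc with ⟨rfl, rfl⟩ | ⟨rfl, rfl⟩
    · rw [mul_left_comm]; omega
    · rw [mul_assoc]; omega
  have h5 := carry (h4 ▸ h) (by omega)
  rw [h4] at h5
  exact ⟨by simp [Nat.div_pos_iff, hi], Nat.mod_lt _ h3, h1, Nat.mod_lt _ h3, Nat.zero_le _,
    Nat.zero_le _, mod_of_div_eq_zero, h5⟩

/-- The arithmetic of a non-degenerate subspace. -/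
theorem carry_nd {c : ℕ} (hc : 0 < c) (h : m ≤ n) : (c ≤ m ↔ 0 < m / c) ∧ n % c < c ∧ m % c < c ∧
    (n - m) % c < c ∧ (n % c = m % c → (n + m - 2 * (n % c)) / c = n / c + m / c) ∧ 0 ≤ m / c ∧
    0 ≤ (n - m) / c ∧ ((n - m) / c = 0 → (n - m) % c = n - m) ∧ (m / c = 0 → m % c = m) ∧
    (((n - m) / c + m / c = n / c ∧ (n - m) % c + m % c = n % c) ∨
    ((n - m) / c + m / c + 1 = n / c ∧ (n - m) % c + m % c = n % c + c)) := by
  have h1 := Nat.mod_lt m hc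
  have h2 := Nat.div_add_mod m c
  have h3 := Nat.div_add_mod n c
  have h4 := Nat.mod_lt (n - m) hc
  have h5 := carry (h2 ▸ h) (by omega)
  rw [h2] at h5
  refine ⟨by simp [Nat.div_pos_iff, hc], Nat.mod_lt _ hc, h1, h4, fun h6 => ?_, Nat.zero_le _,
    Nat.zero_le _, mod_of_div_eq_zero, mod_of_div_eq_zero, by omega⟩
  rw [show n + m - 2 * (n % c) = c * (n / c + m / c) by rw [mul_add]; omega,
    Nat.mul_div_cancel_left _ hc]

open scoped _root_.Classical in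
theorem kO_of_odd (h : Odd i) :
    kO n i b = n / (2 * i) - if n % (2 * i) = 0 ∧ ¬ b then 1 else 0 := by
  simp only [kO, cc_odd h, Nat.odd_iff.1 h, true_or, iff_true]

open scoped _root_.Classical in
theorem kO_of_even (h : Even i) :
    kO n i b = n / i - if n % i = 0 ∧ ¬ (b ↔ n / i % 2 = 0) then 1 else 0 := by
  simp only [kO, cc_even h, Nat.even_iff.1 h, zero_ne_one, false_or]

theorem mod_two_mul (n i : ℕ) : n % (2 * i) % 2 = n % 2 := Nat.mod_mod_of_dvd n ⟨_, rfl⟩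

theorem mod_even (n : ℕ) (h : Even i) : n % i % 2 = n % 2 := Nat.mod_mod_of_dvd n h.two_dvd

end Arith

universe u

variable {F : Type u} {V : Type*} [Field F] [Fintype F] [AddCommGroup V] [Module F V]
  [FiniteDimensional F V] (p : ℕ) [Fact p.Prime] [CharP F p] {r : ℕ} [hr : Fact r.Prime]
  (hr2 : r ≠ 2) (hrp : r ≠ p) {m n : ℕ}

local notation "𝐢" => orderOf (Fintype.card F : ZMod r)

omit [Field F] in
theorem dvd_pow_sub_one_iff {q : ℕ} (hq : 0 < q) (k : ℕ) :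
    r ∣ q ^ k - 1 ↔ orderOf (q : ZMod r) ∣ k := by
  rw [orderOf_dvd_iff_pow_eq_one, ← ZMod.natCast_eq_zero_iff,
    Nat.cast_sub (Nat.one_le_pow _ _ hq), sub_eq_zero]
  simp

theorem aq_ne_zero {q : ℕ} (hq : 1 < q) (j : ℕ) : aq q j ≠ 0 :=
  Nat.sub_ne_zero_of_lt (Nat.one_lt_pow (by omega) hq)

theorem vs_aq (n : ℕ) : vs r (aq (Fintype.card F)) n =
    vs r (aq (Fintype.card F)) (ch 𝐢 * (n / ch 𝐢)) :=
  vs_eq (fun _ h => ch_dvd_iff.2 ((dvd_pow_sub_one_iff Fintype.card_pos _).1 h)) n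

include hrp in
theorem val_card_pow (k : ℕ) : padicValNat r (Fintype.card F ^ k) = 0 :=
  padicValNat.eq_zero_of_not_dvd fun h => by
    obtain ⟨n, hp, h1⟩ := FiniteField.card F p
    rw [h1, ← pow_mul] at h
    exact hrp ((Nat.prime_dvd_prime_iff_eq hr.out hp).1 (hr.out.dvd_of_dvd_pow h))

include hr2 hrp

theorem cb_id : CB (facs F r) (cr (RingHom.id F)) (ww 𝐢) (if Even 𝐢 then (r - 1) / 𝐢 else 1) where
  mem a ha := cr_mem_facs (fun _ => rfl) hr.out p hrp ha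
  inv a ha := cr_cr (fun _ => rfl) (mem_facs.1 ha).1 (coeff_ne_zero_of_facs hr.out ha)
  ne := facs_nonempty p hrp
  cs := by
    unfold ww
    split_ifs with h
    · exact .inr ⟨rfl, by rw [← (facs_spec (F := F) p hr.out hrp).2, Nat.mul_div_cancel _
        (orderOf_card_pos p hr.out hrp)], fun a ha => (cr_id_eq_iff p hr.out hr2 hrp ha).2 h⟩
    · exact .inl ⟨rfl, rfl, fun a ha h1 => h ((cr_id_eq_iff p hr.out hr2 hrp ha).1 h1)⟩

theorem rk_sp {B : LinearMap.BilinForm F V} (hB : B.Nondegenerate) (hA : B.IsAlt)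
    (hn : finrank F V = n) : RK (RingHom.id F) (SpG B) r (ww 𝐢) (aq (Fintype.card F)) (ch 𝐢)
      (n / cc 𝐢) := by
  have h0 := orderOf_card_pos (F := F) p hr.out hrp
  refine ⟨fun s => ?_, ?_⟩
  · rw [nt_SpG_iff p hr.out hr2 hrp hB hA, ← and_assoc, hn]
    refine and_congr_right fun hs => ?_
    obtain ⟨k, hk⟩ := (cb_id p hr2 hrp).dvd hs
    rw [hk, Nat.mul_le_mul_left_iff (cb_id (F := F) p hr2 hrp).w_pos,
      Nat.le_div_iff_mul_le (cc_pos h0), cc_eq, mul_right_comm, mul_comm]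
  · obtain ⟨d, hd⟩ := even_finrank_of_alt hB hA
    have h1 := Finset.prod_ne_zero_iff.2 fun j (_ : j ∈ Finset.range d) =>
      aq_ne_zero Fintype.one_lt_card (q := Fintype.card F) j
    unfold aq at h1
    rw [card_SpG hB hA (m := d) (by omega), Nat.card_eq_fintype_card, padicValNat.mul
      (by positivity) h1, val_card_pow p hrp, zero_add, ← hn, hd, ← two_mul, cc_eq', Nat.mul_div_mul_left _ _ two_pos,
      ← vs_aq]
    exact val_prod (aq_ne_zero Fintype.one_lt_card) d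

omit hrp in
theorem val_step {e e' : ℕ} (he : e * e' = aq (Fintype.card F) m) (h : r ∣ e → r ∣ e' → r ∣ 2)
    {b : Prop} [Decidable b] (hb : r ∣ e' ↔ b) :
    padicValNat r e + vs r (aq (Fintype.card F)) m =
      vs r (aq (Fintype.card F)) (ch 𝐢 * ((m + 1) / ch 𝐢 - if b then 1 else 0)) := by
  have h0 := aq_ne_zero Fintype.one_lt_card (q := Fintype.card F) m
  split_ifs with h1
  · rw [padicValNat.eq_zero_of_not_dvd fun h2 => hr2 ((Nat.prime_dvd_prime_iff_eq hr.out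
      Nat.prime_two).1 (h h2 (hb.2 h1))), zero_add, vs_aq, Nat.succ_div_of_dvd (ch_dvd_iff.2
      ((dvd_pow_sub_one_iff Fintype.card_pos _).1 (he ▸ (hb.2 h1).mul_left e : r ∣ aq _ m))),
      Nat.add_sub_cancel]
  · rw [← he, mul_ne_zero_iff] at h0
    rw [Nat.sub_zero, ← vs_aq, vs, vs, Finset.sum_range_succ, ← he, padicValNat.mul h0.1 h0.2,
      padicValNat.eq_zero_of_not_dvd (mt hb.1 h1), add_zero, add_comm]

theorem rk_o {Q : QuadraticForm F V} (hQ : (polarBilin Q).Nondegenerate) (hn : finrank F V = n)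
    {b : Prop} (hb : IsPlus Q ↔ b) :
    RK (RingHom.id F) (OG Q) r (ww 𝐢) (aq (Fintype.card F)) (ch 𝐢) (kO n 𝐢 b) := by
  classical
  have h0 := orderOf_card_pos (F := F) p hr.out hrp
  have h1 : n = 0 → IsPlus Q := fun h => ⟨⊥, by simp [hn, h], by simp +contextual⟩
  rw [← kO_congr hb]
  refine ⟨fun s => ?_, ?_⟩
  · rw [nt_OG_iff p hr.out hr2 hrp hQ, ← and_assoc, hn]
    refine and_congr_right fun hs => ?_
    obtain ⟨k, hk⟩ := (cb_id p hr2 hrp).dvd hs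
    rw [hk, Nat.mul_le_mul_left_iff (cb_id (F := F) p hr2 hrp).w_pos, le_kO_iff h0 h1]
  have h2 : padicValNat r 2 = 0 := padicValNat_primes hr2
  have h3 := Finset.prod_ne_zero_iff.2 fun j (_ : j ∈ Finset.range ((n - 1) / 2)) =>
    aq_ne_zero Fintype.one_lt_card (q := Fintype.card F) j
  have h4 := val_prod (r := r) (aq_ne_zero Fintype.one_lt_card (q := Fintype.card F)) ((n - 1) / 2)
  conv_lhs at h3 => unfold aq
  conv_lhs at h4 => unfold aq
  have h5 : ∀ k, padicValNat r (2 * Fintype.card F ^ k) = 0 := fun k => by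
    rw [padicValNat.mul two_ne_zero (by positivity), h2, val_card_pow p hrp]
  obtain ⟨d, rfl | rfl⟩ := n.even_or_odd'
  · rcases d with _ | d
    · have := finrank_zero_iff.1 hn
      rw [show kO (2 * 0) 𝐢 (IsPlus Q) = 0 by simp [kO], Nat.card_unique]; simp [vs]
    have h6 : 1 < Fintype.card F ^ (d + 1) := Nat.one_lt_pow d.succ_ne_zero Fintype.one_lt_card
    have h7 : (Fintype.card F ^ (d + 1) + 1) * (Fintype.card F ^ (d + 1) - 1) =
        aq (Fintype.card F) d := by rw [← Nat.sq_sub_sq, ← pow_mul, mul_comm, one_pow, aq]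
    have h8 : r ∣ Fintype.card F ^ (d + 1) + 1 → r ∣ Fintype.card F ^ (d + 1) - 1 → r ∣ 2 :=
      fun h h' => by convert Nat.dvd_sub h h' using 1; omega
    have h9 := dvd_pow_sub_one_iff (r := r) (q := Fintype.card F) Fintype.card_pos
    rw [show (2 * (d + 1) - 1) / 2 = d by omega] at h3 h4
    rw [kO_two_mul h0]
    by_cases hp : IsPlus Q
    · rw [card_OG_plus hQ hp hn, Nat.card_eq_fintype_card, padicValNat.mul (mul_ne_zero
        (by positivity) (by omega)) h3, padicValNat.mul (by positivity) (by omega), h5, zero_add,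
        h4]
      refine val_step hr2 ((mul_comm _ _).trans h7) (fun h h' => h8 h' h) ?_
      rw [← h9, ← h9, iff_true_intro hp, true_iff, ← aq, ← h7, hr.out.dvd_mul]
      exact ⟨fun h => ⟨.inl h, fun h' => hr2 ((Nat.prime_dvd_prime_iff_eq hr.out
        Nat.prime_two).1 (h8 h h'))⟩, fun h => h.1.resolve_right h.2⟩
    · rw [card_OG_minus hQ hp hn, Nat.card_eq_fintype_card, padicValNat.mul (by positivity) h3,
        padicValNat.mul (by positivity) (by omega), h5, zero_add, h4]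
      refine val_step hr2 h7 h8 ?_
      rw [h9, iff_false_intro hp, false_iff, not_not, iff_and_self]
      exact fun h => h.mul_left 2
  · rw [show (2 * d + 1 - 1) / 2 = d by omega] at h3 h4
    rw [card_OG_odd hQ hn, Nat.card_eq_fintype_card, padicValNat.mul (by positivity) h3, h5,
      zero_add, h4, kO_odd ⟨d, rfl⟩, cc_eq', ← Nat.div_div_eq_div_mul,
      show (2 * d + 1) / 2 = d by omega, ← vs_aq]

omit hr2 in
theorem cast_ne_zero_of_ne : (r : F) ≠ 0 :=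
  natCast_ne_zero_of_coprime p ((Nat.coprime_primes hr.out Fact.out).2 hrp)

section Sp

variable {B : LinearMap.BilinForm F V} (hB : B.Nondegenerate) (hA : B.IsAlt) (hn : finrank F V = n)
include hB hA hn

omit hn hr2 in
theorem uq_sp : UQ (SpG B) r := fun _ _ => isConj_SpG_of_sim hB hA (cast_ne_zero_of_ne p hrp)

theorem sp_ts (h0 : 0 < m) (hm : 2 * m ≤ n) (hd : r ∣ Nat.card {W // TS B (fun _ => 0) m W}) :
    Elu (SpG B) r (Fx (TS B (fun _ => 0) m)) ↔ 𝐢 ≤ m ∧ 2 * (m % 𝐢) ≤ n % cc 𝐢 ∧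
      (Odd 𝐢 ∨ (r - 1) / 𝐢 + 2 * (m / 𝐢) ≤ n / 𝐢) := by
  have : Nontrivial V := finrank_pos_iff.1 (by omega : 0 < finrank F V)
  have hW := isWittPair_alt B hB hA
  obtain ⟨h1, h2⟩ := ts_main (cb_id p hr2 hrp) hW (uq_sp p hrp hB hA) (rk_sp p hr2 hrp hB hA hn)
    p hrp (fun _ => rfl) (exists_TS_alt hB hA (hn ▸ hm)) (fun H hH => rk_sp p hr2 hrp
      ((hH.nd.perp hW).alt hB hA).1 ((hH.nd.perp hW).alt hB hA).2 (hn ▸ hH.nd.finrank_perp hW)) hd
  have hi := orderOf_card_pos (F := F) p hr.out hrp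
  rw [elu_sp_iff hB hA (hr.out.odd_of_ne_two hr2) Fx.of_neg, h2]
  rcases Nat.even_or_odd 𝐢 with h | h
  · have := carry_ts hi hm (.inl ⟨rfl, rfl⟩)
    rw [ww_even h, cc_even h, if_pos h, or_iff_right (Nat.not_odd_iff_even.2 h)] at *
    omega
  · have := carry_ts hi hm (.inr ⟨rfl, rfl⟩)
    rw [ww_odd h, cc_odd h, or_iff_left_of_imp fun _ => h, and_iff_left h] at *
    omega

theorem sp_nd (h0 : 0 < m) (he : Even m) (hm : m ≤ n) (hd : r ∣ Nat.card {W // ND B m W}) :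
    Elu (SpG B) r (Fx (ND B m)) ↔ cc 𝐢 ≤ m ∧ m % cc 𝐢 ≤ n % cc 𝐢 := by
  have : Nontrivial V := finrank_pos_iff.1 (by omega : 0 < finrank F V)
  have hW := isWittPair_alt B hB hA
  obtain ⟨h1, h2, h3⟩ := nd_main (cb_id p hr2 hrp) hW (uq_sp p hrp hB hA)
    (rk_sp p hr2 hrp hB hA hn) inv_ND (by
      obtain ⟨k, rfl⟩ := he.two_dvd; exact exists_ND_alt hB hA (hn ▸ hm))
    (fun U hU => ⟨hU.2, rk_sp p hr2 hrp (hU.alt hB hA).1 (hU.alt hB hA).2 hU.1, rk_sp p hr2 hrp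
      ((hU.perp hW).alt hB hA).1 ((hU.perp hW).alt hB hA).2 (hn ▸ hU.finrank_perp hW)⟩)
    (fun U W => orbit_ND_alt hB hA) hd
  have h4 := carry_nd (cc_pos (orderOf_card_pos (F := F) p hr.out hrp)) hm
  rw [elu_sp_iff hB hA (hr.out.odd_of_ne_two hr2) Fx.of_neg, h3]
  omega

end Sp

variable {Q : QuadraticForm F V} (hQ : (polarBilin Q).Nondegenerate) (hn : finrank F V = n)
  (h4 : 4 < n) {b b₁ b₂ : Prop} (hb : IsPlus Q ↔ b)
include hQ hn h4 hb

omit hn h4 hb in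
theorem uq_o : UQ (OG Q) r := fun _ _ =>
  isConj_OG_of_sim hQ (cast_ne_zero_of_ne p hrp) (hr.out.odd_of_ne_two hr2)

theorem o_ts (hm : 2 * m < n) (hd : r ∣ Nat.card {W // TS (polarBilin Q) Q m W}) :
    kO (n - 2 * m) 𝐢 b < kO n 𝐢 b ∧ (Elu (Om Q) r (Fx (TS (polarBilin Q) Q m)) ↔
      (Odd 𝐢 ∧ kO n 𝐢 b ≤ m / 𝐢 + kO (n - 2 * m) 𝐢 b) ∨ (Even 𝐢 ∧
        (r - 1) / 𝐢 ≤ kO (n - 2 * m) 𝐢 b ∧ kO n 𝐢 b ≤ kO (n - 2 * m) 𝐢 b + 2 * (m / 𝐢))) := by
  have hW := isWittPair_quad Q hQ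
  obtain ⟨h1, h2⟩ := ts_main (cb_id p hr2 hrp) hW (uq_o p hr2 hrp hQ) (rk_o p hr2 hrp hQ hn hb)
    p hrp (fun _ => rfl) (exists_TS_quad hQ (.inl (hn ▸ hm))) (fun H hH => IU_eq Q _ ▸
      rk_o p hr2 hrp (hH.nd.perp hW).nd (hn ▸ hH.nd.finrank_perp hW)
        ((hH.isPlus_perp hQ).trans hb)) hd
  refine ⟨h1, ?_⟩
  rw [elu_om_iff hQ (hn ▸ h4) (hr.out.odd_of_ne_two hr2) Fx.of_neg, h2]
  rcases Nat.even_or_odd 𝐢 with h | h
  · simp [ww_even h, h]
  · simp [ww_odd h, h]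

theorem o_nd {P : Submodule F V → Prop} (hP : Inv (polarBilin Q) Q P) (h0 : ∃ U, P U)
    (hP' : ∀ U, P U → ND (polarBilin Q) m U ∧ (IsPlus (qr Q U) ↔ b₁) ∧
      (IsPlus (qr Q (perp (polarBilin Q) U)) ↔ b₂))
    (ho : ∀ U W, P U → P W → ∃ g ∈ OG Q, U.map (g : V →ₗ[F] V) = W)
    (hd : r ∣ Nat.card {W // P W}) :
    kO m 𝐢 b₁ < kO n 𝐢 b ∧ kO (n - m) 𝐢 b₂ < kO n 𝐢 b ∧
      (Elu (Om Q) r (Fx P) ↔ kO n 𝐢 b ≤ kO m 𝐢 b₁ + kO (n - m) 𝐢 b₂) := by
  have hW := isWittPair_quad Q hQ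
  rw [elu_om_iff hQ (hn ▸ h4) (hr.out.odd_of_ne_two hr2) Fx.of_neg]
  exact nd_main (cb_id p hr2 hrp) hW (uq_o p hr2 hrp hQ) (rk_o p hr2 hrp hQ hn hb) hP h0
    (fun U hU => ⟨(hP' U hU).1.2, IU_eq Q _ ▸ rk_o p hr2 hrp (hP' U hU).1.nd (hP' U hU).1.1
      (hP' U hU).2.1, IU_eq Q _ ▸ rk_o p hr2 hrp ((hP' U hU).1.perp hW).nd
      (hn ▸ (hP' U hU).1.finrank_perp hW) (hP' U hU).2.2⟩) ho hd

end CF.Cls
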