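/-
Arithmetic of the elusivity conditions for orthogonal groups.
-/
import Cfsg.Agent.Cls.El5

set_option autoImplicit false

namespace CF.Cls

variable {i d m T c : ℕ} (hi : 0 < i) (hc : c = if Even i then i else 2 * i)
include hi hc

theorem ar72 (hT : 0 < T) (hmd : m ≤ d)
    (h : kO (2 * d + 1 - 2 * m) i False < kO (2 * d + 1) i False) :
    ((Odd i ∧ kO (2 * d + 1) i False ≤ m / i + kO (2 * d + 1 - 2 * m) i False) ∨ (Even i ∧
      T ≤ kO (2 * d + 1 - 2 * m) i False ∧
        kO (2 * d + 1) i False ≤ kO (2 * d + 1 - 2 * m) i False + 2 * (m / i))) ↔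
    (i ≤ m ∧ 2 * (m % i) < (2 * d + 1) % c ∧ (Odd i ∨ T + 2 * (m / i) ≤ (2 * d + 1) / i)) := by
  rw [kO_odd ⟨d, rfl⟩, kO_odd ⟨d - m, by omega⟩] at *
  rcases Nat.even_or_odd i with h1 | h1
  · have := carry_ts (n := 2 * d + 1) (m := m) hi (by omega) (.inl ⟨rfl, rfl⟩)
    have := mod_even (2 * d + 1) h1
    simp only [hc, cc_even h1, h1, Nat.not_odd_iff_even.2 h1, false_and, true_and, false_or,
      if_true] at h ⊢
    omega
  · have := carry_ts (n := 2 * d + 1) (m := m) hi (by omega) (.inr ⟨rfl, rfl⟩)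
    have := mod_two_mul (2 * d + 1) i
    simp only [hc, cc_odd h1, h1, Nat.not_even_iff_odd.2 h1, false_and, true_and, or_false,
      if_false, true_or, and_true] at h ⊢
    omega

theorem ar73 (hT : 0 < T) (hmd : m < d) (h : kO (2 * d - 2 * m) i True < kO (2 * d) i True) :
    ((Odd i ∧ kO (2 * d) i True ≤ m / i + kO (2 * d - 2 * m) i True) ∨ (Even i ∧
      T ≤ kO (2 * d - 2 * m) i True ∧
        kO (2 * d) i True ≤ kO (2 * d - 2 * m) i True + 2 * (m / i))) ↔
     (Odd i ∧ i ≤ m ∧ 2 * (m % i) ≤ (2 * d) % c) ∨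
     (Even i ∧ i ≤ m ∧ T + 2 * (m / i) ≤ (2 * d) / i ∧
       ((2 * (m % i) ≤ i ∧ (2 * d) % c = 0 ∧ Odd ((2 * d) / i) ∧ T + 2 * (m / i) < (2 * d) / i) ∨
        (2 * (m % i) ≤ (2 * d) % c ∧ Even ((2 * d) / i)) ∨
        (2 * (m % i) < (2 * d) % c ∧ Odd ((2 * d) / i)))) := by
  rcases Nat.even_or_odd i with h1 | h1
  · have := carry_ts (n := 2 * d) (m := m) hi (by omega) (.inl ⟨rfl, rfl⟩)
    simp only [hc, kO_of_even h1, h1, Nat.not_odd_iff_even.2 h1, false_and, true_and, false_or,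
      true_iff, if_true] at h ⊢
    simp only [Nat.odd_iff, Nat.even_iff]
    split_ifs at h ⊢ <;> omega
  · have := carry_ts (n := 2 * d) (m := m) hi (by omega) (.inr ⟨rfl, rfl⟩)
    simp only [hc, kO_of_odd h1, h1, Nat.not_even_iff_odd.2 h1, false_and, true_and, or_false,
      not_true, and_false, if_false] at h ⊢
    omega

theorem ar87 (hT : 0 < T) (hmd : m < d) (h : kO (2 * d - 2 * m) i False < kO (2 * d) i False) :
    ((Odd i ∧ kO (2 * d) i False ≤ m / i + kO (2 * d - 2 * m) i False) ∨ (Even i ∧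
      T ≤ kO (2 * d - 2 * m) i False ∧
        kO (2 * d) i False ≤ kO (2 * d - 2 * m) i False + 2 * (m / i))) ↔
     (Odd i ∧ i ≤ m ∧ ((2 * d) % c = 0 ∨ 2 * (m % i) < (2 * d) % c)) ∨
     (Even i ∧ i ≤ m ∧ T + 2 * (m / i) ≤ (2 * d) / i ∧
       ((2 * (m % i) ≤ i ∧ (2 * d) % c = 0 ∧ Even ((2 * d) / i) ∧ T + 2 * (m / i) < (2 * d) / i) ∨
        (2 * (m % i) ≤ (2 * d) % c ∧ Odd ((2 * d) / i)) ∨
        (2 * (m % i) < (2 * d) % c ∧ Even ((2 * d) / i)))) := by
  rcases Nat.even_or_odd i with h1 | h1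
  · have := carry_ts (n := 2 * d) (m := m) hi (by omega) (.inl ⟨rfl, rfl⟩)
    simp only [hc, kO_of_even h1, h1, Nat.not_odd_iff_even.2 h1, false_and, true_and, false_or,
      false_iff, not_not, if_true] at h ⊢
    simp only [Nat.odd_iff, Nat.even_iff]
    split_ifs at h ⊢ <;> omega
  · have := carry_ts (n := 2 * d) (m := m) hi (by omega) (.inr ⟨rfl, rfl⟩)
    simp only [hc, kO_of_odd h1, h1, Nat.not_even_iff_odd.2 h1, false_and, true_and, or_false,
      not_false_iff, and_true, if_false] at h ⊢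
    split_ifs at h ⊢ <;> omega

theorem ar74 (hm : 0 < m) (hmd : m < d) (h : kO m i True < kO (2 * d) i True)
    (h' : kO (2 * d - m) i True < kO (2 * d) i True) :
    kO (2 * d) i True ≤ kO m i True + kO (2 * d - m) i True ↔
     (Odd i ∧ c ≤ m ∧ m % c ≤ (2 * d) % c) ∨
     (Even i ∧ (((2 * d) % c = 0 ∧ (Odd ((2 * d) / i) ∨ (m % c = 0 ∧ Even (m / i)))) ∨
        (i ≤ m ∧ ((m % c < (2 * d) % c ∧ 0 < m % c) ∨
          ((2 * d) % c = m % c ∧ 0 < m % c ∧ Even ((2 * d + m - 2 * ((2 * d) % c)) / i)) ∨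
          (0 < (2 * d) % c ∧ m % c = 0 ∧ Even (m / i)))))) := by
  rcases Nat.even_or_odd i with h1 | h1
  · have := carry_nd (n := 2 * d) (m := m) hi (by omega)
    simp only [hc, kO_of_even h1, h1, Nat.not_odd_iff_even.2 h1, false_and, true_and, false_or,
      true_iff, if_true] at h h' ⊢
    simp only [Nat.odd_iff, Nat.even_iff]
    split_ifs at h h' ⊢ <;> omega
  · have := carry_nd (n := 2 * d) (m := m) (c := 2 * i) (by omega) (by omega)
    simp only [hc, kO_of_odd h1, h1, Nat.not_even_iff_odd.2 h1, false_and, true_and, or_false,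
      not_true, and_false, if_false] at h h' ⊢
    omega

theorem ar88 (hm : 0 < m) (hmd : m < d) (h : kO m i False < kO (2 * d) i True)
    (h' : kO (2 * d - m) i False < kO (2 * d) i True) :
    kO (2 * d) i True ≤ kO m i False + kO (2 * d - m) i False ↔
     (Odd i ∧ c ≤ m ∧ 0 < m % c ∧ m % c < (2 * d) % c) ∨
     (Even i ∧ (((2 * d) % c = 0 ∧ (Odd ((2 * d) / i) ∨ (m % c = 0 ∧ Odd (m / i)))) ∨
        (i ≤ m ∧ ((0 < m % c ∧ m % c < (2 * d) % c) ∨
          (0 < m % c ∧ m % c = (2 * d) % c ∧ Odd ((2 * d + m - 2 * ((2 * d) % c)) / i)) ∨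
          (m % c = 0 ∧ 0 < (2 * d) % c ∧ Odd (m / i)))))) := by
  rcases Nat.even_or_odd i with h1 | h1
  · have := carry_nd (n := 2 * d) (m := m) hi (by omega)
    simp only [hc, kO_of_even h1, h1, Nat.not_odd_iff_even.2 h1, false_and, true_and, false_or,
      true_iff, false_iff, not_not, if_true] at h h' ⊢
    simp only [Nat.odd_iff, Nat.even_iff]
    split_ifs at h h' ⊢ <;> omega
  · have := carry_nd (n := 2 * d) (m := m) (c := 2 * i) (by omega) (by omega)
    simp only [hc, kO_of_odd h1, h1, Nat.not_even_iff_odd.2 h1, false_and, true_and, or_false,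
      not_true, and_false, if_false, not_false_iff, and_true] at h h' ⊢
    split_ifs at h h' ⊢ <;> omega

theorem ar89 (hm : Odd m) (hmd : m < d) (h' : kO (2 * d - m) i False < kO (2 * d) i True) :
    kO (2 * d) i True ≤ kO m i False + kO (2 * d - m) i False ↔
     (Odd i ∧ c ≤ m ∧ 0 < m % c ∧ m % c < (2 * d) % c) ∨
     (Even i ∧ (((2 * d) % c = 0 ∧ Odd ((2 * d) / i)) ∨
       (i ≤ m ∧ 0 < m % c ∧ m % c < (2 * d) % c))) := by
  rw [kO_odd hm, kO_odd (n := 2 * d - m) (by rw [Nat.odd_iff] at *; omega)] at *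
  rw [Nat.odd_iff] at hm
  rcases Nat.even_or_odd i with h1 | h1
  · have := carry_nd (n := 2 * d) (m := m) hi (by omega)
    have := mod_even m h1
    have := mod_even (2 * d) h1
    simp only [hc, kO_of_even h1, cc_even h1, h1, Nat.not_odd_iff_even.2 h1, false_and, true_and,
      false_or, true_iff, if_true] at h' ⊢
    simp only [Nat.odd_iff]
    split_ifs at h' ⊢ <;> omega
  · have := carry_nd (n := 2 * d) (m := m) (c := 2 * i) (by omega) (by omega)
    have := mod_two_mul m i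
    have := mod_two_mul (2 * d) i
    simp only [hc, kO_of_odd h1, cc_odd h1, h1, Nat.not_even_iff_odd.2 h1, false_and, true_and,
      or_false, not_true, and_false, if_false] at h' ⊢
    omega

theorem ar90 (hm : 0 < m) (hmd : m < 2 * d) (h : kO m i False < kO (2 * d) i False)
    (h' : kO (2 * d - m) i True < kO (2 * d) i False) :
    kO (2 * d) i False ≤ kO m i False + kO (2 * d - m) i True ↔
     (Odd i ∧ ((2 * d) % c = 0 ∨ (c ≤ m ∧ 0 < m % c ∧ m % c ≤ (2 * d) % c))) ∨
     (Even i ∧ (((2 * d) % c = 0 ∧ (Even ((2 * d) / i) ∨ (m % c = 0 ∧ Odd (m / i)))) ∨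
        (0 < (2 * d) % c ∧ i ≤ m ∧ ((0 < m % c ∧ m % c < (2 * d) % c) ∨ (m % c = 0 ∧ Odd (m / i)) ∨
          (m % c = (2 * d) % c ∧ Even ((2 * d + m - 2 * ((2 * d) % c)) / i)))))) := by
  rcases Nat.even_or_odd i with h1 | h1
  · have := carry_nd (n := 2 * d) (m := m) hi (by omega)
    simp only [hc, kO_of_even h1, h1, Nat.not_odd_iff_even.2 h1, false_and, true_and, false_or,
      true_iff, false_iff, not_not, if_true] at h h' ⊢
    simp only [Nat.odd_iff, Nat.even_iff]
    split_ifs at h h' ⊢ <;> omega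
  · have := carry_nd (n := 2 * d) (m := m) (c := 2 * i) (by omega) (by omega)
    simp only [hc, kO_of_odd h1, h1, Nat.not_even_iff_odd.2 h1, false_and, true_and, or_false,
      not_true, and_false, if_false, not_false_iff, and_true] at h h' ⊢
    split_ifs at h h' ⊢ <;> omega

theorem ar91 (hm : Odd m) (hmd : m < d) (h' : kO (2 * d - m) i False < kO (2 * d) i False) :
    kO (2 * d) i False ≤ kO m i False + kO (2 * d - m) i False ↔
     (Odd i ∧ ((2 * d) % c = 0 ∨ (c ≤ m ∧ 0 < m % c ∧ m % c < (2 * d) % c))) ∨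
     (Even i ∧ (((2 * d) % c = 0 ∧ Even ((2 * d) / i)) ∨
       (0 < (2 * d) % c ∧ i ≤ m ∧ 0 < m % c ∧ m % c < (2 * d) % c))) := by
  rw [kO_odd hm, kO_odd (n := 2 * d - m) (by rw [Nat.odd_iff] at *; omega)] at *
  rw [Nat.odd_iff] at hm
  rcases Nat.even_or_odd i with h1 | h1
  · have := carry_nd (n := 2 * d) (m := m) hi (by omega)
    have := mod_even m h1
    have := mod_even (2 * d) h1
    simp only [hc, kO_of_even h1, cc_even h1, h1, Nat.not_odd_iff_even.2 h1, false_and, true_and,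
      false_or, false_iff, not_not, if_true] at h' ⊢
    simp only [Nat.even_iff]
    split_ifs at h' ⊢ <;> omega
  · have := carry_nd (n := 2 * d) (m := m) (c := 2 * i) (by omega) (by omega)
    have := mod_two_mul m i
    have := mod_two_mul (2 * d) i
    simp only [hc, kO_of_odd h1, cc_odd h1, h1, Nat.not_even_iff_odd.2 h1, false_and, true_and,
      or_false, if_false, not_false_iff, and_true] at h' ⊢
    split_ifs at h' ⊢ <;> omega

theorem ar92 (hm : 0 < m) (he : Even m) (hmd : m ≤ 2 * d)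
    (h' : kO (2 * d + 1 - m) i False < kO (2 * d + 1) i False) :
    kO (2 * d + 1) i False ≤ kO m i True + kO (2 * d + 1 - m) i False ↔
     (Odd i ∧ c ≤ m ∧ (m % c = 0 ∨ (0 < m % c ∧ m % c < (2 * d + 1) % c))) ∨
     (Even i ∧ i ≤ m ∧ m % c < (2 * d + 1) % c ∧ (0 < m % c ∨ Even (m / i))) := by
  rw [Nat.even_iff] at he
  rw [kO_odd ⟨d, rfl⟩, kO_odd (n := 2 * d + 1 - m) (by rw [Nat.odd_iff]; omega)] at *
  rcases Nat.even_or_odd i with h1 | h1
  · have := carry_nd (n := 2 * d + 1) (m := m) hi (by omega)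
    have := mod_even m h1
    have := mod_even (2 * d + 1) h1
    simp only [hc, kO_of_even h1, cc_even h1, h1, Nat.not_odd_iff_even.2 h1, false_and, true_and,
      false_or, true_iff, if_true] at h' ⊢
    simp only [Nat.even_iff]
    split_ifs at h' ⊢ <;> omega
  · have := carry_nd (n := 2 * d + 1) (m := m) (c := 2 * i) (by omega) (by omega)
    have := mod_two_mul m i
    have := mod_two_mul (2 * d + 1) i
    simp only [hc, kO_of_odd h1, cc_odd h1, h1, Nat.not_even_iff_odd.2 h1, false_and, true_and,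
      or_false, not_true, and_false, if_false] at h' ⊢
    omega

theorem ar93 (hm : 0 < m) (he : Even m) (hmd : m ≤ 2 * d)
    (h' : kO (2 * d + 1 - m) i False < kO (2 * d + 1) i False) :
    kO (2 * d + 1) i False ≤ kO m i False + kO (2 * d + 1 - m) i False ↔
     (Odd i ∧ c ≤ m ∧ 0 < m % c ∧ m % c < (2 * d + 1) % c) ∨
     (Even i ∧ i ≤ m ∧ m % c < (2 * d + 1) % c ∧ (0 < m % c ∨ Odd (m / i))) := by
  rw [Nat.even_iff] at he
  rw [kO_odd ⟨d, rfl⟩, kO_odd (n := 2 * d + 1 - m) (by rw [Nat.odd_iff]; omega)] at *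
  rcases Nat.even_or_odd i with h1 | h1
  · have := carry_nd (n := 2 * d + 1) (m := m) hi (by omega)
    have := mod_even m h1
    have := mod_even (2 * d + 1) h1
    simp only [hc, kO_of_even h1, cc_even h1, h1, Nat.not_odd_iff_even.2 h1, false_and, true_and,
      false_or, false_iff, not_not, if_true] at h' ⊢
    simp only [Nat.odd_iff]
    split_ifs at h' ⊢ <;> omega
  · have := carry_nd (n := 2 * d + 1) (m := m) (c := 2 * i) (by omega) (by omega)
    have := mod_two_mul m i
    have := mod_two_mul (2 * d + 1) i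
    simp only [hc, kO_of_odd h1, cc_odd h1, h1, Nat.not_even_iff_odd.2 h1, false_and, true_and,
      or_false, if_false, not_false_iff, and_true] at h' ⊢
    split_ifs at h' ⊢ <;> omega

end CF.Cls
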