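/-
Invariant subspaces of projective involutions in odd characteristic.
-/
import Cfsg.Agent.Cls.El4

set_option autoImplicit false

namespace CF.Cls

open Polynomial Module CF.Geom CF.Classical QuadraticMap

universe u

variable {F : Type u} {V W : Type*} [Field F] [AddCommGroup V] [Module F V] [AddCommGroup W]
  [Module F W] {m k a b d : ℕ}

section Gen

variable {σ : F →+* F} {B : V →ₛₗ[σ] V →ₗ[F] F} {Q : V → F} {N : Submodule F V}
  {P : Submodule F V → Prop} {g : End F V}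

theorem fx_range (φ : W →ₗ[F] V) {f : End F W} (hφ : ∀ w, g (φ w) = φ (f w))
    (h : P (LinearMap.range φ)) : Fx P g :=
  ⟨_, h, by rintro _ ⟨w, rfl⟩; exact ⟨_, (hφ w).symm⟩⟩

theorem Fx.mono {P' : Submodule F V → Prop} (h : Fx P g) (h' : ∀ U, P U → P' U) : Fx P' g :=
  h.imp fun U hU => ⟨h' U hU.1, hU.2⟩

theorem fx_one (h : ∃ U, P U) : Fx P 1 := h.imp fun _ hU => ⟨hU, fun _ hu => hu⟩

theorem fx_neg_one (h : ∃ U, P U) : Fx P (-1) := by simpa using (fx_one h).smul (-1)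

theorem ts_range {φ : W →ₗ[F] V} (h0 : Function.Injective φ) (h1 : ∀ w, Q (φ w) = Q 0)
    (h2 : ∀ w w', B (φ w) (φ w') = 0) : TS B Q (finrank F W) (LinearMap.range φ) :=
  ⟨LinearMap.finrank_range_of_inj h0, by rintro _ ⟨w, rfl⟩; exact h1 w,
    le_perp_iff.2 (by rintro _ ⟨w, rfl⟩ _ ⟨w', rfl⟩; exact h2 w w')⟩

theorem nd_range {φ : W →ₗ[F] V} (h : ∀ w, (∀ w', B (φ w') (φ w) = 0) → w = 0) :
    ND B (finrank F W) (LinearMap.range φ) :=
  ⟨LinearMap.finrank_range_of_inj ((injective_iff_map_eq_zero _).2 fun w hw => h w fun w' => by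
    simp [hw]), Submodule.disjoint_def.2 (by
      rintro _ ⟨w, rfl⟩ hw
      rw [h w fun w' => mem_perp.1 hw _ ⟨w', rfl⟩, map_zero])⟩

/-- The sum of subspaces of a subspace and of its orthogonal complement. -/
def sumMap (U₁ : Submodule F N) (U₂ : Submodule F (perp B N)) : (U₁ × U₂) →ₗ[F] V :=
  (N.subtype ∘ₗ U₁.subtype).coprod ((perp B N).subtype ∘ₗ U₂.subtype)

@[simp] theorem sumMap_apply {U₁ : Submodule F N} {U₂ : Submodule F (perp B N)} (x : U₁ × U₂) :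
    sumMap U₁ U₂ x = x.1.1.1 + x.2.1.1 := rfl

theorem sumMap_form (h : IsWittPair σ B Q) {U₁ : Submodule F N} {U₂ : Submodule F (perp B N)}
    (x y : U₁ × U₂) : B (sumMap U₁ U₂ x) (sumMap U₁ U₂ y) = B x.1 y.1 + B x.2 y.2 := by
  simp [mem_perp.1 y.2.1.2 _ x.1.1.2, h.refl (mem_perp.1 x.2.1.2 _ y.1.1.2)]

variable {g₁ : End F N} {g₂ : End F (perp B N)} (h1 : ∀ u : N, g u = g₁ u)
  (h2 : ∀ u : perp B N, g u = g₂ u)
include h1 h2

theorem fx_add {P₁ : Submodule F N → Prop} {P₂ : Submodule F (perp B N) → Prop} (h3 : Fx P₁ g₁)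
    (h4 : Fx P₂ g₂) (h : ∀ U₁ U₂, P₁ U₁ → P₂ U₂ → P (LinearMap.range (sumMap U₁ U₂))) : Fx P g :=
  let ⟨U₁, h5, h6⟩ := h3
  let ⟨U₂, h7, h8⟩ := h4
  fx_range (sumMap U₁ U₂) (f := (g₁.restrict h6).prodMap (g₂.restrict h8))
    (fun w => by simp [h1, h2]) (h _ _ h5 h7)

variable [FiniteDimensional F V] (h : IsWittPair σ B Q)
include h

theorem fx_ts_add (hN : Disjoint N (perp B N))
    (h3 : Fx (TS (B.domRestrict₁₂ N N) (fun x => Q x) a) g₁)
    (h4 : Fx (TS (B.domRestrict₁₂ (perp B N) (perp B N)) (fun x => Q x) b) g₂) :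
    Fx (TS B Q (a + b)) g :=
  fx_add h1 h2 h3 h4 fun U₁ U₂ h5 h6 => by
    rw [← h5.1, ← h6.1, ← finrank_prod]
    refine ts_range ((injective_iff_map_eq_zero _).2 fun x hx => ?_) (fun x => ?_) fun x y => ?_
    · rw [sumMap_apply] at hx
      have h7 := Submodule.disjoint_def.1 hN _ x.1.1.2
        (eq_neg_of_add_eq_zero_left hx ▸ (perp B N).neg_mem x.2.1.2)
      exact Prod.ext (Subtype.ext (Subtype.ext h7)) (Subtype.ext (Subtype.ext (by
        simpa [h7] using hx)))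
    · exact (h.norm_add_singular (h6.2.1 _ x.2.2) (mem_perp.1 x.2.1.2 _ x.1.1.2)).trans
        (h5.2.1 _ x.1.2)
    · rw [sumMap_form h]
      exact add_eq_zero_iff_eq_neg.2 ((le_perp_iff.1 h5.2.2 _ x.1.2 _ y.1.2).trans
        (neg_eq_zero.2 (le_perp_iff.1 h6.2.2 _ x.2.2 _ y.2.2)).symm)

theorem fx_nd_add (h3 : Fx (ND (B.domRestrict₁₂ N N) a) g₁)
    (h4 : Fx (ND (B.domRestrict₁₂ (perp B N) (perp B N)) b) g₂) : Fx (ND B (a + b)) g :=
  fx_add h1 h2 h3 h4 fun U₁ U₂ h5 h6 => by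
    rw [← h5.1, ← h6.1, ← finrank_prod]
    refine nd_range fun x hx => Prod.ext (Subtype.ext (Submodule.disjoint_def.1 h5.2 _ x.1.2
      (mem_perp.2 fun y hy => ?_))) (Subtype.ext (Submodule.disjoint_def.1 h6.2 _ x.2.2
      (mem_perp.2 fun y hy => ?_)))
    · simpa [LinearMap.domRestrict₁₂_apply] using (sumMap_form h (⟨y, hy⟩, 0) x).symm.trans (hx _)
    · simpa [LinearMap.domRestrict₁₂_apply] using (sumMap_form h (0, ⟨y, hy⟩) x).symm.trans (hx _)

omit h1 h2 h in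
theorem EH.exists_neg_space {ε : F} (h : EH σ ε B) (h2 : (2 : F) ≠ 0) (hg : Pres B g)
    (h1 : g ^ 2 = 1) : ∃ N, Disjoint N (perp B N) ∧ (∀ v : N, g v = (-1 : End F N) v) ∧
      ∀ v : perp B N, g v = (1 : End F (perp B N)) v :=
  ⟨Rg g 1, h.disjoint_Rg hg (by simp) (by simpa using h2) h1, fun ⟨_, w, rfl⟩ => by
    simpa [pow_two] using LinearMap.congr_fun h1 w, fun v => by
    simpa using (h.mem_perp_Rg hg (by simp)).1 v.2⟩

end Gen

theorem elu_two_iff [Nontrivial V] {B : LinearMap.BilinForm F V} {Q : V → F} (h2 : (2 : F) ≠ 0)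
    (hW : IsWittPair (RingHom.id F) B Q) {G : Subgroup (V ≃ₗ[F] V)} (hG : G ≤ Isom B Q)
    {R : End F V → Prop} : Elu G 2 R ↔ (∀ g : Isom B Q, g.1 ∈ G → g.1.toLinearMap ^ 2 = 1 →
      (∀ z : F, g.1.toLinearMap ≠ algebraMap F _ z) → R g.1.toLinearMap) ∧
      ∀ g : Isom B Q, g.1 ∈ G → g.1.toLinearMap ^ 2 = -1 → R g.1.toLinearMap := by
  refine ⟨fun H => ⟨fun g h1 h3 => H _ h1 ⟨1, by simpa using h3⟩, fun g h1 h3 => H _ h1
    ⟨-1, by simpa using h3⟩ fun z hz => h2 ?_⟩, fun H g h1 ⟨z, hz⟩ h3 => ?_⟩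
  · rw [hz, ← map_pow, ← map_one (algebraMap F (End F V)), ← map_neg,
      (algebraMap F (End F V)).injective.eq_iff] at h3
    rcases sq_eq_one_of_scalar hW g.2 ((pow_one _).trans hz) with rfl | rfl <;>
      linear_combination h3
  · rcases sq_eq_one_of_scalar hW (hG h1) hz with rfl | rfl
    exacts [H.1 ⟨g, hG h1⟩ h1 (by simpa using hz) h3, H.2 ⟨g, hG h1⟩ h1 (by simpa using hz)]

theorem even_of_sq_neg [FiniteDimensional F V] {f : End F V} (hf : f ^ 2 = -1)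
    (h : ¬ IsSquare (-1 : F)) {U : Submodule F V} (hU : ∀ u ∈ U, f u ∈ U) : Even (finrank F U) := by
  have h1 : f.restrict hU ^ 2 = (-1 : F) • (1 : End F U) := LinearMap.ext fun u => Subtype.ext (by
    rw [Module.End.pow_restrict, LinearMap.coe_restrict_apply, hf]; simp)
  have h2 := congrArg LinearMap.det h1
  rw [map_pow, LinearMap.det_smul, map_one, mul_one] at h2
  exact by_contra fun h3 => h ⟨_, by rw [← (Nat.not_even_iff_odd.1 h3).neg_one_pow, ← h2, pow_two]⟩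

theorem charpoly_sq_neg [FiniteDimensional F V] (h2 : (2 : F) ≠ 0) {f : End F V} (hf : f ^ 2 = -1)
    (hs : (ed f).map (cr (RingHom.id F)) = ed f) (hd : finrank F V = 2 * d) :
    f.charpoly = (X ^ 2 + 1) ^ d := by
  have h0 : (X ^ 2 + 1 : F[X]).Monic := monic_X_pow_add_C 1 two_ne_zero
  have h1 : ∀ a ∈ ed f, a * cr (RingHom.id F) a = (X ^ 2 + 1) ^ a.natDegree := fun a ha => by
    have h3 := (aeval_eq_zero_iff_ed f (X ^ 2 + 1)).1 (by simp [hf]) a ha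
    have h4 := ed_isPP f a ha
    have h5 := natDegree_le_of_dvd h3 h0.ne_zero
    have h6 : (X ^ 2 + 1 : F[X]).natDegree = 2 := natDegree_X_pow_add_C
    rcases (by have := h4.natDegree_pos; omega : a.natDegree = 1 ∨ a.natDegree = 2) with h | h
    · obtain ⟨c, rfl⟩ : ∃ c, a = X - C c := ⟨-a.coeff 0, by simpa using h4.monic.eq_X_add_C h⟩
      have h7 : c * -c = 1 := by
        rw [dvd_iff_isRoot] at h3
        linear_combination -(by simpa using h3 : c ^ 2 + 1 = 0)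
      rw [cr_X_sub_C (left_ne_zero_of_mul_eq_one h7), h, RingHom.id_apply,
        ← eq_inv_of_mul_eq_one_right h7, pow_one, ← C_1, ← h7, map_mul, map_neg]
      ring
    · rw [← eq_of_monic_of_dvd_of_natDegree_le h4.monic h0 h3 (by omega), h6, pow_two (_ + _),
        cr_apply, Polynomial.map_id, ← C_1, reverse_add_C, ← mul_one (X ^ 2), reverse_X_pow_mul,
        ← C_1, reverse_C]
      simp [add_comm]
  have h3 : f.charpoly ^ 2 = ((X ^ 2 + 1) ^ d) ^ 2 := by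
    rw [charpoly_eq_ed, pow_two, ← pow_mul, mul_comm d, ← hd, finrank_eq_ed f, ← prod_map_pow_eq,
      Multiset.map_map]
    nth_rw 2 [← hs]
    rw [Function.comp_def, ← Multiset.map_congr rfl h1, Multiset.prod_map_mul, Multiset.map_id']
  refine (sq_eq_sq_iff_eq_or_eq_neg.1 h3).resolve_right fun h4 => h2 ?_
  have := f.charpoly_monic.leadingCoeff
  rw [h4, leadingCoeff_neg, (h0.pow d).leadingCoeff] at this
  linear_combination -this

variable {Q : QuadraticForm F V} {Q' : QuadraticForm F W} {N U : Submodule F V} {t s : ℤˣ}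
  [FiniteDimensional F V] [FiniteDimensional F W] [Finite F]

theorem ns_range (hQ' : (polarBilin Q').Nondegenerate) {φ : W →ₗ[F] V} (hφ : ∀ w, Q (φ w) = Q' w) :
    NS Q (finrank F W) (ds Q') (LinearMap.range φ) := by
  have h1 : ∀ x y, polar Q (φ x) (φ y) = polar Q' x y := fun x y => by
    simp only [polar, ← map_add φ, hφ]
  refine ⟨nd_range fun x hx => hQ'.2 x fun y => (h1 y x).symm.trans (hx y), ?_⟩
  rw [ds_equiv hQ' (LinearEquiv.ofInjective φ ((injective_iff_map_eq_zero _).2 fun x hx =>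
    hQ'.1 x fun y => by simp [← h1, hx])) one_ne_zero fun w => by simpa using hφ w, sqSign_one,
    one_pow, one_mul]

theorem fx_ns_add {g : End F V} {g₁ : End F N} {g₂ : End F (perp (polarBilin Q) N)}
    (h1 : ∀ u : N, g u = g₁ u) (h2 : ∀ u : perp (polarBilin Q) N, g u = g₂ u)
    (h3 : Fx (NS (qr Q N) a t) g₁) (h4 : Fx (NS (qr Q (perp (polarBilin Q) N)) b s) g₂) :
    Fx (NS Q (a + b) (t * s)) g :=
  fx_add h1 h2 h3 h4 fun U₁ U₂ h5 h6 => by
    rw [← h5.1.1, ← h6.1.1, ← h5.2, ← h6.2, ← finrank_prod, ← ds_prod h5.1.nd h6.1.nd]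
    refine ns_range (nondegenerate_prod h5.1.nd h6.1.nd) fun x => ?_
    have : polar Q x.1 x.2 = 0 := mem_perp.1 x.2.1.2 _ x.1.1.2
    rw [polar, sub_sub, sub_eq_zero] at this
    simpa using this

variable (h2 : (2 : F) ≠ 0) (hQ : (polarBilin Q).Nondegenerate)
include h2 hQ

theorem mem_Om_inv {g : OG Q} (hN : ND (polarBilin Q) k N)
    (h1 : ∀ v : N, g.1.toLinearMap v = (-1 : End F N) v)
    (h3 : ∀ v : perp (polarBilin Q) N, g.1.toLinearMap v = (1 : End F _) v) :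
    g.1 ∈ Om Q ↔ Even k ∧ ds (qr Q N) = 1 := by
  obtain ⟨l, -, h4⟩ := sn_embed h2 hN.nd hQ N.subtype one_ne_zero (fun v => (one_mul _).symm)
    (g := oNeg _) (g' := g) h1 fun w hw => h3 ⟨w, mem_perp.2 fun v hv => hw ⟨v, hv⟩⟩
  have h5 : Sim ((-1 : End F N).prodMap 1 : End F (N × perp (polarBilin Q) N)) g.1.toLinearMap :=
    ⟨N.prodEquivOfIsCompl _ ((isWittPair_quad Q hQ).isCompl_perp hN.2), fun v => by
      simp only [Submodule.coe_prodEquivOfIsCompl', map_add, h1, h3]; rfl⟩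
  rw [mem_Om, mem_commutator_iff_sn h2 hQ, h4, sn_oNeg h2 hN.nd, ← h5.det_eq, LinearMap.det_prodMap,
    ← neg_one_smul F (1 : End F N), LinearMap.det_smul, hN.1, sqSign_one]
  simp only [map_one, mul_one, one_pow, one_mul]
  rw [neg_one_pow_eq_one_iff_even fun h => h2 (by linear_combination -h)]
  refine and_congr_right fun ⟨l, hl⟩ => ?_
  rw [hl, ← two_mul, pow_mul, Int.units_sq, one_pow, mul_one]

theorem exists_inv (hN : ND (polarBilin Q) k N) : ∃ g : OG Q, g.1.toLinearMap ^ 2 = 1 ∧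
    (∀ v : N, g.1.toLinearMap v = (-1 : End F N) v) ∧
    ∀ v : perp (polarBilin Q) N, g.1.toLinearMap v = (1 : End F _) v :=
  have hW := isWittPair_quad Q hQ
  ⟨glue hW hN.2 (⟨LinearEquiv.neg F, fun _ _ => by simp, fun v => Q.map_neg _⟩, 1),
    (sub_pow_eq_one_iff _ 2).1 ((glue_pow_eq_one hW hN.2).2 ⟨Subtype.ext (by ext; simp [pow_two]),
      one_pow 2⟩), glue_left hW hN.2 _, glue_right hW hN.2 _⟩

theorem exists_split_inv {g : OG Q} (hg : g.1 ∈ Om Q) (h1 : g.1.toLinearMap ^ 2 = 1)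
    (h3 : ∀ z : F, g.1.toLinearMap ≠ algebraMap F _ z) : ∃ N k, NS Q (2 * k) 1 N ∧ 0 < k ∧
      2 * k < finrank F V ∧ (∀ v : N, g.1.toLinearMap v = (-1 : End F N) v) ∧
      ∀ v : perp (polarBilin Q) N, g.1.toLinearMap v = (1 : End F _) v := by
  obtain ⟨N, h4, h5, h6⟩ := (eh_polar hQ).exists_neg_space h2 (pres_polar (mem_OG.1 g.2)) h1
  obtain ⟨⟨k, hk⟩, h7⟩ := (mem_Om_inv h2 hQ ⟨rfl, h4⟩ h5 h6).1 hg
  refine ⟨N, k, ⟨⟨by omega, h4⟩, h7⟩, Nat.pos_of_ne_zero ?_, ?_, h5, h6⟩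
  · rintro rfl
    obtain rfl := Submodule.finrank_eq_zero.1 hk
    exact h3 1 (LinearMap.ext fun v => by simpa using h6 ⟨v, by simp [perp_bot]⟩)
  · refine two_mul k ▸ hk ▸ Submodule.finrank_lt (by
      rintro rfl
      exact h3 (-1) (LinearMap.ext fun v => by simpa using h5 ⟨v, trivial⟩))

theorem fx_ns_inv {g : OG Q} (hg : g.1 ∈ Om Q) (h1 : g.1.toLinearMap ^ 2 = 1)
    (h3 : ∀ z : F, g.1.toLinearMap ≠ algebraMap F _ z) (h0 : 0 < m) (hm : m < finrank F V)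
    (t : ℤˣ) : Fx (NS Q m t) g.1.toLinearMap := by
  obtain ⟨N, k, h4, h5, h6, h7, h8⟩ := exists_split_inv h2 hQ hg h1 h3
  have h9 := h4.1.perp (isWittPair_quad Q hQ)
  obtain ⟨a, b, rfl, h10, h11, h12⟩ : ∃ a b, m = a + b ∧ 0 < a ∧ a < 2 * k ∧
      b ≤ finrank F V - 2 * k := ⟨max 1 (m - (finrank F V - 2 * k)),
        m - max 1 (m - (finrank F V - 2 * k)), by omega⟩
  obtain ⟨U, hU⟩ := exists_ND h9.nd h2 (h9.1 ▸ h12)
  simpa [mul_assoc] using fx_ns_add h7 h8 (fx_neg_one (exists_NS h4.1.nd h2 h10 (h4.1.1 ▸ h11)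
    (t * ds (qr (qr Q _) U)))) (fx_one ⟨U, hU, rfl⟩)

omit [Finite F] h2 in
theorem fx_ts_add' {g : End F V} {g₁ : End F N} {g₂ : End F (perp (polarBilin Q) N)}
    (h1 : ∀ u : N, g u = g₁ u) (h2 : ∀ u : perp (polarBilin Q) N, g u = g₂ u)
    (hN : ND (polarBilin Q) k N) (h3 : Fx (TS (polarBilin (qr Q N)) (qr Q N) a) g₁)
    (h4 : Fx (TS (polarBilin (qr Q (perp (polarBilin Q) N))) (qr Q _) b) g₂) :
    Fx (TS (polarBilin Q) Q (a + b)) g :=
  fx_ts_add h1 h2 (isWittPair_quad Q hQ) hN.2 (polarBilin_comp_subtype Q _ ▸ h3)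
    (polarBilin_comp_subtype Q _ ▸ h4)

theorem ds_of_sq_neg {g : OG Q} (hg : g.1.toLinearMap ^ 2 = -1) :
    Even (finrank F V) ∧ ds Q = 1 := by
  have h1 : g ^ 2 = oNeg Q := Subtype.ext (LinearEquiv.toLinearMap_injective hg)
  have h3 := (oNeg_mem_commutator_iff h2 hQ (finBasis F V)).1 
    (h1 ▸ pow_two g ▸ Geom.sq_mem_commutator (reflSub_eq_top_of_two_ne_zero hQ h2) g)
  exact ⟨h3.1, sqSign_eq_one_iff.2 h3.2⟩

theorem mem_Om_sq_neg {g : OG Q} (hg : g.1.toLinearMap ^ 2 = -1) (hd : finrank F V = 2 * d) :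
    g.1 ∈ Om Q ↔ sqSign (2 : F) ^ d = 1 := by
  have h1 := charpoly_sq_neg h2 hg ((eh_polar hQ).ed_pres (pres_polar (mem_OG.1 g.2))) hd
  have h3 := g.1.toLinearMap.eval_charpoly 0
  have h4 := g.1.toLinearMap.eval_charpoly 1
  rw [h1, map_zero, zero_sub, ← neg_one_smul F, LinearMap.det_smul, hd] at h3
  rw [h1, map_one] at h4
  simp only [eval_pow, eval_add, eval_X, eval_one, one_pow, one_add_one_eq_two] at h4
  have h5 : LinearMap.det (1 - g.1.toLinearMap) ≠ 0 := h4 ▸ pow_ne_zero d h2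
  rw [mem_Om, mem_commutator_iff_sn h2 hQ, sn_of_unit hQ ((LinearMap.isUnit_iff_isUnit_det _).2
    h5.isUnit), sqSign_mul _ _ (det_gram_ne_zero hQ _) h5, ← ds, (ds_of_sq_neg h2 hQ hg).2, ← h4,
    sqSign_pow h2, one_mul, and_iff_right (by simpa [pow_mul] using h3.symm)]

/-- The standard isometry with square `-1`. -/
def oJ (Q : QuadraticForm F V) : OG (Q.prod Q) :=
  ⟨(LinearEquiv.prodComm F V V).trans ((LinearEquiv.neg F).prodCongr (LinearEquiv.refl F V)),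
    mem_OG.2 fun v => by simp [add_comm]⟩

omit [FiniteDimensional F V] [Finite F] h2 hQ in
@[simp] theorem oJ_apply (x : V × V) : (oJ Q).1 x = (-x.2, x.1) := rfl

omit [FiniteDimensional F V] [Finite F] h2 hQ in
theorem oJ_sq : (oJ Q).1.toLinearMap ^ 2 = -1 := by ext <;> simp [pow_two]

theorem exists_sq_neg (hd : finrank F V = 2 * d) (h : ds Q = 1) :
    ∃ g : OG Q, g.1.toLinearMap ^ 2 = -1 := by
  rcases d.eq_zero_or_pos with rfl | h0
  · have := finrank_zero_iff.1 hd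
    exact ⟨1, Subsingleton.elim _ _⟩
  obtain ⟨W, _, _, _, Q', h3, rfl, -⟩ := exists_model_ds h2 h0 1
  obtain ⟨E, hE⟩ := exists_equiv_of_ds (nondegenerate_prod h3 h3) h2 hQ (by simp [hd, two_mul])
    (by rw [ds_prod h3 h3, h, Int.units_mul_self])
  refine ⟨ogMap E (c := 1) (by simpa using hE) (oJ Q'), LinearMap.ext fun v => ?_⟩
  obtain ⟨v, rfl⟩ := E.surjective v
  simp [pow_two, ogMap_apply, ← map_neg, Prod.ext_iff]

omit [Finite F] hQ in
theorem ss_of_sq_neg {f : End F V} (h : f ^ 2 = -1) : SS f := ss_of_pow_eq_one (m := 4)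
  (by rw [show ((4 : ℕ) : F) = 2 * 2 by norm_num]; exact mul_ne_zero h2 h2)
  (by rw [show 4 = 2 * 2 from rfl, pow_mul, h]; simp)

theorem exists_J {g : OG Q} (hg : g.1.toLinearMap ^ 2 = -1) (hQ' : (polarBilin Q').Nondegenerate)
    (hd : finrank F V = 2 * finrank F W) : ∃ E : (W × W) ≃ₗ[F] V,
      (∀ x, Q (E x) = Q' x.1 + Q' x.2) ∧ ∀ x, g.1 (E x) = E (-x.2, x.1) := by
  have h1 := nondegenerate_prod hQ' hQ'
  have h4 : ∀ c : F, c * c = 1 → ∀ v, (oJ Q').1.toLinearMap v = c • v → v = 0 := fun c hc v hv => by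
    have := LinearMap.congr_fun (oJ_sq (Q := Q')) v
    rw [pow_two, End.mul_apply, hv, map_smul, hv, smul_smul, hc, one_smul] at this
    exact (smul_eq_zero.1 ((two_smul F v).trans (eq_neg_iff_add_eq_zero.1 this))).resolve_left h2
  obtain ⟨E, h5, h6⟩ := quad_isom_of_unit h1 hQ (mem_OG.1 (oJ Q').2) (mem_OG.1 g.2)
    (SS.sim (ss_of_sq_neg h2 oJ_sq) (ss_of_sq_neg h2 hg) ((charpoly_sq_neg h2 oJ_sq
      ((eh_polar h1).ed_pres (pres_polar (mem_OG.1 (oJ Q').2))) (by simp [two_mul])).trans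
      (charpoly_sq_neg h2 hg ((eh_polar hQ).ed_pres (pres_polar (mem_OG.1 g.2))) hd).symm))
    (fun v hv => h4 1 (one_mul 1) v (by rw [hv, one_smul]))
    fun v hv => h4 (-1) (by simp) v (by rw [hv, neg_one_smul])
  exact ⟨E, h5, fun x => (h6 x).symm⟩

omit hQ in
theorem exists_model_ts (hk : 0 < k) : ∃ (W : Type u) (_ : AddCommGroup W) (_ : Module F W)
    (_ : FiniteDimensional F W) (Q : QuadraticForm F W), (polarBilin Q).Nondegenerate ∧
      finrank F W = k ∧ ∀ a, 2 * a ≤ k → ∃ U, TS (polarBilin Q) Q a U := by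
  obtain ⟨W, _, _, _, Q, h3, h4, h5⟩ := exists_model_ds h2 hk (sqSign (-1 : F) ^ (k / 2))
  refine ⟨W, _, _, inferInstance, Q, h3, h4, fun a ha => exists_TS_quad h3 ?_⟩
  rw [h4]
  exact ha.lt_or_eq.imp_right fun h => ⟨h, (isPlus_iff_ds h3 h2 (by omega)).2 h5⟩

theorem fx_J {g : OG Q} (hg : g.1.toLinearMap ^ 2 = -1) (hd : finrank F V = 2 * d) (h0 : 0 < d) :
    (∀ a ≤ d, Fx (NS Q (2 * a) 1) g.1.toLinearMap) ∧
    (∀ a, 2 * a ≤ d → Fx (TS (polarBilin Q) Q (2 * a)) g.1.toLinearMap) ∧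
    (IsSquare (-1 : F) → ∀ a ≤ d, Fx (TS (polarBilin Q) Q a) g.1.toLinearMap) := by
  obtain ⟨W, _, _, _, Q', h3, rfl, h4⟩ := exists_model_ts h2 h0
  obtain ⟨E, h5, h6⟩ := exists_J h2 hQ hg h3 hd
  have h7 : ∀ U : Submodule F W, ∀ x : U × U, g.1.toLinearMap ((E.toLinearMap ∘ₗ
      U.subtype.prodMap U.subtype) x) = (E.toLinearMap ∘ₗ U.subtype.prodMap U.subtype)
      ((oJ (qr Q' U)).1.toLinearMap x) := fun U x => h6 _
  refine ⟨fun a ha => ?_, fun a ha => ?_, fun ⟨c, hc⟩ a ha => ?_⟩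
  · obtain ⟨U, hU⟩ := exists_ND h3 h2 ha
    refine fx_range _ (h7 U) ?_
    rw [two_mul, ← hU.1, ← finrank_prod, ← Int.units_mul_self (ds (qr Q' U)),
      ← ds_prod hU.nd hU.nd]
    exact ns_range (nondegenerate_prod hU.nd hU.nd) fun x => h5 _
  · obtain ⟨U, hU⟩ := h4 a ha
    refine fx_range _ (h7 U) (ts_quad_iff.2 ⟨?_, ?_⟩)
    · rw [LinearMap.finrank_range_of_inj (f := E.toLinearMap ∘ₗ U.subtype.prodMap U.subtype)
        (E.injective.comp (Subtype.val_injective.prodMap Subtype.val_injective)), finrank_prod,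
        hU.1, two_mul]
    · rintro _ ⟨x, rfl⟩
      simp [h5, (ts_quad_iff.1 hU).2]
  · obtain ⟨U, -, rfl⟩ := exists_le_finrank_eq (⊤ : Submodule F W) (finrank_top F W ▸ ha)
    refine fx_range (E.toLinearMap ∘ₗ U.subtype.prod (c • U.subtype)) (f := -c • 1) (fun x => ?_)
      (ts_quad_iff.2 ⟨LinearMap.finrank_range_of_inj (E.injective.comp fun x y h =>
        Subtype.ext (congrArg Prod.fst h)), ?_⟩)
    · simp [h6, smul_smul, ← hc]
    · rintro _ ⟨x, rfl⟩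
      simp [h5, QuadraticMap.map_smul, ← hc]

theorem exists_Om_sq_neg_iff : (∃ g : OG Q, g.1 ∈ Om Q ∧ g.1.toLinearMap ^ 2 = -1) ↔
    Even (finrank F V) ∧ ds Q = 1 ∧ sqSign (2 : F) ^ (finrank F V / 2) = 1 :=
  ⟨fun ⟨_, h1, h3⟩ => have h4 := ds_of_sq_neg h2 hQ h3
    ⟨h4.1, h4.2, (mem_Om_sq_neg h2 hQ h3 (Nat.two_mul_div_two_of_even h4.1).symm).1 h1⟩,
  fun ⟨h1, h3, h4⟩ => (exists_sq_neg h2 hQ (Nat.two_mul_div_two_of_even h1).symm h3).imp
    fun _ h => ⟨(mem_Om_sq_neg h2 hQ h (Nat.two_mul_div_two_of_even h1).symm).2 h4, h⟩⟩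

theorem elu_two_ns (h0 : 0 < m) (hm : m < finrank F V) : Elu (Om Q) 2 (Fx (NS Q m t)) ↔
    (Even (finrank F V) → ds Q = 1 → sqSign (2 : F) ^ (finrank F V / 2) = 1 → Even m ∧ t = 1) := by
  have : Nontrivial V := finrank_pos_iff.1 (by omega : 0 < finrank F V)
  rw [elu_two_iff h2 (isWittPair_quad Q hQ) (Om_le Q),
    and_iff_right fun g h1 h3 h4 => fx_ns_inv h2 hQ h1 h3 h4 h0 hm t, ← and_imp, ← and_imp, and_assoc, ← exists_Om_sq_neg_iff h2 hQ]
  refine ⟨fun H ⟨g, h1, h3⟩ => ?_, fun H g h1 h3 => ?_⟩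
  · obtain ⟨U, h4, h5⟩ := H g h1 h3
    obtain ⟨-, -, g₁, -, -, h6, -⟩ := exists_split_of hQ g h4.1.2 h5
    rw [← h4.1.1, ← h4.2]
    exact ds_of_sq_neg h2 h4.1.nd (g := g₁) (LinearMap.ext fun u => Subtype.ext (by
      simpa [pow_two, h6] using LinearMap.congr_fun h3 u))
  · obtain ⟨⟨a, rfl⟩, rfl⟩ := H ⟨g, h1, h3⟩
    obtain ⟨d, hd⟩ := (ds_of_sq_neg h2 hQ h3).1
    exact two_mul a ▸ (fx_J h2 hQ h3 (d := d) (by omega) (by omega)).1 a (by omega)

theorem elu_inv_ts (h0 : 0 < m) (hm : 2 * m < finrank F V) :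
    (∀ g : OG Q, g.1 ∈ Om Q → g.1.toLinearMap ^ 2 = 1 →
      (∀ z : F, g.1.toLinearMap ≠ algebraMap F _ z) → Fx (TS (polarBilin Q) Q m) g.1.toLinearMap) ↔
    IsSquare (-1 : F) ∨ ¬ (finrank F V = 2 * m + 1 ∨ (finrank F V = 2 * m + 2 ∧ IsPlus Q)) := by
  have hW := isWittPair_quad Q hQ
  refine ⟨fun H => by_contra fun h => ?_, fun H g h1 h3 h4 => ?_⟩
  · rw [not_or, not_not] at h
    obtain ⟨N, hN⟩ := exists_NS hQ h2 two_pos (by omega) 1
    obtain ⟨g, h1, h3, h4⟩ := exists_inv h2 hQ hN.1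
    have h5 := hN.1.perp hW
    have h6 : ¬ IsPlus (qr Q N) := by
      rw [isPlus_iff_ds hN.1.nd h2 (k := 1) hN.1.1, hN.2, sqSign_of_not h.1]; decide
    obtain ⟨U, h7, h8⟩ := H g ((mem_Om_inv h2 hQ hN.1 h3 h4).2 ⟨even_two, hN.2⟩) h1 fun z hz => by
      have : Nontrivial N := finrank_pos_iff.1 (hN.1.1 ▸ two_pos : 0 < finrank F N)
      have : Nontrivial (perp (polarBilin Q) N) := finrank_pos_iff.1 (by
        rw [h5.1]; omega : 0 < finrank F _)
      obtain ⟨v, hv⟩ := exists_ne (0 : N)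
      obtain ⟨w, hw⟩ := exists_ne (0 : perp (polarBilin Q) N)
      have h7 : (z + 1) • v = 0 := Subtype.ext (by simpa [hz, add_smul, add_eq_zero_iff_eq_neg] using h3 v)
      have h8 : (z - 1) • w = 0 := Subtype.ext (by simpa [hz, sub_smul, sub_eq_zero] using h4 w)
      exact h2 (by linear_combination (smul_eq_zero.1 h7).resolve_right hv -
        (smul_eq_zero.1 h8).resolve_right hw)
    have h9 : U ≤ perp (polarBilin Q) N := fun u hu => by
      obtain ⟨⟨x, y⟩, rfl⟩ := (N.prodEquivOfIsCompl _ (hW.isCompl_perp hN.1.2)).surjective u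
      rw [Submodule.coe_prodEquivOfIsCompl'] at hu ⊢
      have h9 := U.smul_mem (2 : F)⁻¹ (U.sub_mem hu (h8 _ hu))
      rw [map_add, h3, h4, show x.1 + y.1 - (((-1 : End F N) x).1 + ((1 : End F _) y).1) =
        (2 : F) • x.1 by simp [two_smul], inv_smul_smul₀ h2] at h9
      refine by_contra fun h10 => h6 ?_
      have h11 : x ≠ 0 := by rintro rfl; exact h10 (by simp)
      have := TS.le_quad hN.1.nd (ts_quad_iff.2 ⟨finrank_span_singleton h11, fun u hu => by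
        obtain ⟨c, rfl⟩ := Submodule.mem_span_singleton.1 hu
        exact (ts_quad_iff.1 h7).2 _ (U.smul_mem c h9)⟩)
      rw [hN.1.1] at this
      exact (this.resolve_left (by omega)).2
    have h10 := TS.le_quad h5.nd (U := U.comap (perp (polarBilin Q) N).subtype) (ts_quad_iff.2
      ⟨(Submodule.comapSubtypeEquivOfLe h9).finrank_eq.trans h7.1,
        fun u hu => (ts_quad_iff.1 h7).2 _ hu⟩)
    rw [h5.1] at h10
    rcases h.2 with h11 | ⟨h11, h12⟩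
    · omega
    · exact h6 (((isPlus_iff_perp hQ hN.1 even_two ⟨m + 1, by omega⟩).1 h12).2
        (h10.resolve_left (by omega)).2)
  obtain ⟨N, k, h5, h6, h7, h8, h9⟩ := exists_split_inv h2 hQ h1 h3 h4
  have h10 := h5.1.perp hW
  have h11 : IsSquare (-1 : F) → IsPlus (qr Q N) := fun h => by
    rw [isPlus_iff_ds h5.1.nd h2 h5.1.1, h5.2, sqSign_eq_one_iff.2 h, one_pow]
  have h12 := isPlus_iff_perp hQ h5.1 (even_two_mul k)
  obtain ⟨a, b, rfl, h13, h14⟩ : ∃ a b, m = a + b ∧ (2 * a < 2 * k ∨ (2 * a = 2 * k ∧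
      IsPlus (qr Q N))) ∧ (2 * b < finrank F V - 2 * k ∨ (2 * b = finrank F V - 2 * k ∧
        IsPlus (qr Q (perp (polarBilin Q) N)))) := by
    by_cases h13 : IsPlus (qr Q N)
    · exact ⟨min m k, m - min m k, by omega, by simp only [h13, and_true]; omega, .inl (by omega)⟩
    refine ⟨min m (k - 1), m - min m (k - 1), by omega, .inl (by omega), ?_⟩
    by_cases h14 : IsPlus (qr Q (perp (polarBilin Q) N))
    · have := (H.resolve_left (mt h11 h13))
      simp only [h14, and_true]; omega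
    · have h15 := (H.resolve_left (mt h11 h13))
      rw [not_or, not_and] at h15
      have : finrank F V ≠ 2 * m + 2 := fun h => h15.2 h ((h12 ⟨m + 1, by omega⟩).2 (by
        simp [h13, h14]))
      omega
  exact fx_ts_add' hQ h8 h9 h5.1 (fx_neg_one (exists_TS_quad h5.1.nd (h5.1.1 ▸ h13)))
    (fx_one (exists_TS_quad h10.nd (h10.1 ▸ h14)))

theorem elu_two_ts (h0 : 0 < m) (hm : 2 * m < finrank F V) :
    Elu (Om Q) 2 (Fx (TS (polarBilin Q) Q m)) ↔ IsSquare (-1 : F) ∨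
      (¬ (finrank F V = 2 * m + 1 ∨ (finrank F V = 2 * m + 2 ∧ IsPlus Q)) ∧ (Even (finrank F V) →
        ds Q = 1 → sqSign (2 : F) ^ (finrank F V / 2) = 1 → Even m)) := by
  have : Nontrivial V := finrank_pos_iff.1 (by omega : 0 < finrank F V)
  rw [elu_two_iff h2 (isWittPair_quad Q hQ) (Om_le Q), elu_inv_ts h2 hQ h0 hm,
    or_and_left (a := IsSquare (-1 : F))]
  refine and_congr_right fun _ => ?_
  rw [← and_imp, ← and_imp, and_assoc, ← exists_Om_sq_neg_iff h2 hQ]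
  refine ⟨fun H => or_iff_not_imp_left.2 fun h ⟨g, h1, h3⟩ => ?_, fun H g h1 h3 => ?_⟩
  · obtain ⟨U, h4, h5⟩ := H g h1 h3
    exact h4.1 ▸ even_of_sq_neg h3 h h5
  obtain ⟨d, hd⟩ := (ds_of_sq_neg h2 hQ h3).1
  have h4 := (fx_J h2 hQ h3 (d := d) (by omega) (by omega)).2
  rcases H with h | h
  · exact h4.2 h m (by omega)
  · obtain ⟨a, rfl⟩ := (h ⟨g, h1, h3⟩).two_dvd
    exact h4.1 a (by omega)

omit hQ
section Sp

variable {B : LinearMap.BilinForm F V} (hB : B.Nondegenerate) (hA : B.IsAlt)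
include hB hA

theorem exists_quad_sq_neg {g : SpG B} (hg : g.1.toLinearMap ^ 2 = -1) :
    ∃ (Q : QuadraticForm F V) (g' : OG Q), (polarBilin Q).Nondegenerate ∧ g'.1 = g.1 ∧
      ∀ U : Submodule F V, (∀ u ∈ U, g.1 u ∈ U) → perp (polarBilin Q) U = perp B U := by
  have h1 : ∀ v, g.1 (g.1 v) = -v := fun v => by simpa [pow_two] using LinearMap.congr_fun hg v
  have h3 : LinearMap.BilinForm.IsSymm (B.compl₂ g.1.toLinearMap) := ⟨fun x y => by
    simp [← g.2.1 x, h1, hA.neg_eq]⟩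
  refine ⟨LinearMap.BilinMap.toQuadraticMap (B.compl₂ g.1.toLinearMap), ⟨g.1, mem_OG.2 fun v => by
    simp [g.2.1]⟩, nondegenerate_toQuadraticMap h2 h3 ⟨fun x hx => hB.1 x fun y => by
      simpa using hx (g.1.symm y), fun x hx => g.1.injective (by
      simpa using hB.2 _ hx)⟩, rfl, fun U hU => ?_⟩
  rw [polarBilin_toQuadraticMap h3, perp_smul h2]
  refine Submodule.ext fun y => ⟨fun h => mem_perp.2 fun x hx => ?_,
    fun h => mem_perp.2 fun x hx => ?_⟩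
  · simpa [g.2.1] using mem_perp.1 h _ (hU x hx)
  · simpa [← g.2.1 x, h1] using mem_perp.1 h _ (hU x hx)

theorem elu_two_sp_nd (h0 : 0 < finrank F V) (ha : 2 * a ≤ finrank F V) :
    Elu (SpG B) 2 (Fx (ND B (2 * a))) := by
  have : Nontrivial V := finrank_pos_iff.1 h0
  have hW := isWittPair_alt B hB hA
  obtain ⟨d, hd⟩ := even_finrank_of_alt hB hA
  refine (elu_two_iff h2 hW le_rfl).2 ⟨fun g _ h1 _ => ?_, fun g _ h1 => ?_⟩
  · obtain ⟨N, h4, h5, h6⟩ := (eh_alt hB hA).exists_neg_space h2 g.2.1 h1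
    have h7 := ND.alt hB hA ⟨rfl, h4⟩
    have h8 := ND.perp hW ⟨rfl, h4⟩
    obtain ⟨k, hk⟩ := even_finrank_of_alt h7.1 h7.2
    rw [show 2 * a = 2 * min a k + 2 * (a - min a k) by omega]
    exact fx_nd_add h5 h6 hW (fx_neg_one (exists_ND_alt h7.1 h7.2 (by omega)))
      (fx_one (exists_ND_alt (h8.alt hB hA).1 (h8.alt hB hA).2 (by rw [h8.1]; omega)))
  · obtain ⟨Q, g', h3, h4, h5⟩ := exists_quad_sq_neg h2 hB hA h1
    obtain ⟨U, h6, h7⟩ := (fx_J h2 h3 (h4 ▸ h1) (d := d) (by omega) (by omega)).1 a (by omega)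
    rw [h4] at h7
    exact ⟨U, ⟨h6.1.1, h5 U h7 ▸ h6.1.2⟩, h7⟩

theorem elu_two_sp_ts (hJ : ∃ g : SpG B, g.1.toLinearMap ^ 2 = -1) (h0 : 0 < m)
    (hm : 2 * m ≤ finrank F V) :
    Elu (SpG B) 2 (Fx (TS B (fun _ => 0) m)) ↔ Even m ∨ IsSquare (-1 : F) := by
  have : Nontrivial V := finrank_pos_iff.1 (by omega : 0 < finrank F V)
  have hW := isWittPair_alt B hB hA
  obtain ⟨d, hd⟩ := even_finrank_of_alt hB hA
  refine (elu_two_iff h2 hW le_rfl).trans ⟨fun H => or_iff_not_imp_right.2 fun h => ?_,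
    fun H => ⟨fun g _ h1 _ => ?_, fun g _ h1 => ?_⟩⟩
  · obtain ⟨g, hg⟩ := hJ
    obtain ⟨U, h4, h5⟩ := H.2 g g.2 hg
    exact h4.1 ▸ even_of_sq_neg hg h h5
  · obtain ⟨N, h4, h5, h6⟩ := (eh_alt hB hA).exists_neg_space h2 g.2.1 h1
    have h7 := ND.alt hB hA ⟨rfl, h4⟩
    have h8 := ND.perp hW ⟨rfl, h4⟩
    obtain ⟨k, hk⟩ := even_finrank_of_alt h7.1 h7.2
    rw [show m = min m k + (m - min m k) by omega]
    exact fx_ts_add h5 h6 hW h4 (fx_neg_one (exists_TS_alt h7.1 h7.2 (by omega)))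
      (fx_one (exists_TS_alt (h8.alt hB hA).1 (h8.alt hB hA).2 (by rw [h8.1]; omega)))
  · obtain ⟨Q, g', h3, h4, h5⟩ := exists_quad_sq_neg h2 hB hA h1
    have h8 := (fx_J h2 h3 (h4 ▸ h1) (d := d) (by omega) (by omega)).2
    obtain ⟨U, h6, h7⟩ : Fx (TS (polarBilin Q) Q m) g'.1.toLinearMap := by
      rcases H with h | h
      · obtain ⟨a, rfl⟩ := h.two_dvd
        exact h8.1 a (by omega)
      · exact h8.2 h m (by omega)
    rw [h4] at h7
    exact ⟨U, ⟨h6.1, fun _ _ => rfl, h5 U h7 ▸ h6.2.2⟩, h7⟩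

end Sp

omit h2 [Finite F] in
theorem exists_sp_J (d : ℕ) : ∃ g : SpG (sympBilin d F), g.1.toLinearMap ^ 2 = -1 :=
  ⟨spEquiv d F ⟨_, SymplecticGroup.J_mem (Fin d) F⟩, LinearMap.ext fun v => by
    simp [pow_two, Matrix.J_squared, Matrix.neg_mulVec]⟩

end CF.Cls
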