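/-
Bridges between the matrix statements and the elusivity predicates.
-/
import Cfsg.Agent.Cls.El6
import Cfsg.Agent.Cls.El7

set_option autoImplicit false

namespace CF.Cls

open Polynomial Module CF.Geom CF.Classical QuadraticMap

universe u

variable {F : Type u} {V : Type*} [Field F] [AddCommGroup V] [Module F V] {r m : ℕ}

theorem elu_fx {G : Subgroup (V ≃ₗ[F] V)} {P P' : Submodule F V → Prop} (h : ∀ W, P' W ↔ P W) :
    Elu G r (fun f => ∃ W, P' W ∧ W.map f ≤ W) ↔ Elu G r (Fx P) := by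
  simp only [h, ← fx_iff_map]

theorem elu_fx' {G : Subgroup (V ≃ₗ[F] V)} {P A A' : Submodule F V → Prop}
    (h : ∀ W, A W ∧ A' W ↔ P W) :
    Elu G r (fun f => ∃ W, A W ∧ A' W ∧ W.map f ≤ W) ↔ Elu G r (Fx P) := by
  simp only [← and_assoc]; exact elu_fx h

theorem dvd_card_congr {α : Type*} {P P' : α → Prop} (h : ∀ W, P' W ↔ P W)
    (hd : r ∣ Nat.card {W // P' W}) : r ∣ Nat.card {W // P W} := by
  rwa [← funext fun W => propext (h W)]

theorem nd_polar_iff {ι : Type} [Fintype ι] {Q : QuadraticForm F (ι → F)}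
    (hQ : (polarBilin Q).Nondegenerate) {U : Submodule F (ι → F)} :
    finrank F U = m ∧ Cfsg.Geo.IsNondegenerateOn (polar Q) U ↔ ND (polarBilin Q) m U := by
  refine and_congr_right fun _ => ?_
  rw [disjoint_perp_iff (isWittPair_quad Q hQ)]
  exact forall₃_congr fun u _ _ => ⟨fun h => h.2, fun ⟨v, h1, h2⟩ =>
    ⟨⟨v, h1, by rwa [polar_comm]⟩, v, h1, h2⟩⟩

theorem nt_true_iff {ι : Type} [Fintype ι] {Q : QuadraticForm F (ι → F)}
    (hQ : (polarBilin Q).Nondegenerate) (U : Submodule F (ι → F)) :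
    finrank F U = m ∧ Cfsg.Geo.IsNondegenerateOn (polar Q) U ∧ Cfsg.Geo.IsPlusTypeOn Q U ↔
      NT Q m True U := by
  rw [← and_assoc, nd_polar_iff hQ, NT, iff_true, isPlus_qr]; rfl

theorem nt_false_iff {ι : Type} [Fintype ι] {Q : QuadraticForm F (ι → F)}
    (hQ : (polarBilin Q).Nondegenerate) (U : Submodule F (ι → F)) :
    finrank F U = m ∧ Cfsg.Geo.IsNondegenerateOn (polar Q) U ∧ ¬ Cfsg.Geo.IsPlusTypeOn Q U ↔
      NT Q m False U := by
  rw [← and_assoc, nd_polar_iff hQ, NT, iff_false, isPlus_qr]; rfl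

theorem ts_sing_iff {ι : Type} {Q : QuadraticForm F (ι → F)} (U : Submodule F (ι → F)) :
    finrank F U = m ∧ Cfsg.Geo.IsTotallySingularQuad Q U ↔ TS (polarBilin Q) Q m U :=
  ts_quad_iff.symm

open scoped _root_.Classical in
theorem nt_eq_ns [FiniteDimensional F V] [Finite F] (h2 : (2 : F) ≠ 0) (Q : QuadraticForm F V)
    (k : ℕ) (b : Prop) :
    NT Q (2 * k) b = NS Q (2 * k) ((if b then 1 else -1) * sqSign (-1 : F) ^ k) :=
  funext fun _ => propext (nt_iff_ns h2)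

variable [Fintype F] (p : ℕ) [hp : Fact p.Prime] [CharP F p] [hr : Fact r.Prime]
include p

theorem ord_facts (hrp : r ≠ p) : 0 < orderOf (Fintype.card F : ZMod r) ∧
    0 < (r - 1) / orderOf (Fintype.card F : ZMod r) := by
  obtain ⟨n, -, hn⟩ := FiniteField.card F p
  have h0 : (Fintype.card F : ZMod r) ≠ 0 := fun h => hrp <|
    (Nat.prime_dvd_prime_iff_eq hr.out hp.out).1
      (hr.out.dvd_of_dvd_pow (hn ▸ (ZMod.natCast_eq_zero_iff _ _).1 h))
  have h1 := ZMod.orderOf_dvd_card_sub_one h0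
  have h2 : 0 < r - 1 := Nat.sub_pos_of_lt hr.out.one_lt
  exact ⟨Nat.pos_of_dvd_of_pos h1 h2, Nat.div_pos (Nat.le_of_dvd h2 h1)
    (Nat.pos_of_dvd_of_pos h1 h2)⟩

omit hr in
theorem two_ne_zero_iff : (2 : F) ≠ 0 ↔ p ≠ 2 := by
  rw [← Nat.cast_ofNat, Ne, CharP.cast_eq_zero_iff F p,
    Nat.prime_dvd_prime_iff_eq hp.out Nat.prime_two]

omit hr in
theorem p_dvd_card : p ∣ Nat.card F := by
  obtain ⟨n, -, hn⟩ := FiniteField.card F p
  rw [Nat.card_eq_fintype_card, hn]; exact dvd_pow_self _ n.ne_zero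

omit p hr in
theorem sq_facts (h2 : (2 : F) ≠ 0) : Fintype.card F % 2 = 1 ∧
    (IsSquare (-1 : F) ↔ Fintype.card F % 4 = 1) ∧
    (IsSquare (2 : F) ↔ Fintype.card F % 8 = 1 ∨ Fintype.card F % 8 = 7) := by
  have h := card_pow_mod_four h2 1
  rw [pow_one] at h
  rw [FiniteField.isSquare_neg_one_iff, FiniteField.isSquare_two_iff]
  omega

omit p hr [Fintype F] in
theorem sqSign_pow_eq_one {a : F} {k : ℕ} : sqSign a ^ k = 1 ↔ IsSquare a ∨ Even k := by
  by_cases h : IsSquare a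
  · simp [sqSign_eq_one_iff.2 h, h]
  · rw [sqSign_of_not h, neg_one_pow_eq_one_iff_even (by decide)]; simp [h]

omit p hr in
theorem two_lt_of_ne (h : r.Prime) (h2 : r ≠ 2) : 2 < r := lt_of_le_of_ne h.two_le h2.symm

variable [FiniteDimensional F V] {Q : QuadraticForm F V} (hQ : (polarBilin Q).Nondegenerate)
include hQ

omit hr in
theorem ne_of_dvd_TS (hm : 2 * m < finrank F V)
    (hd : r ∣ Nat.card {W // TS (polarBilin Q) Q m W}) : r ≠ p := by
  rintro rfl
  obtain ⟨U, hU⟩ := exists_TS_quad hQ (.inl hm)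
  exact not_dvd_card_TS r (isWittPair_quad Q hQ) (slideCard_quad Q) hU (.inr hm) hd

omit p hr in
theorem ds_eq_one_iff (h2 : (2 : F) ≠ 0) {d : ℕ} (hd : finrank F V = 2 * d) :
    ds Q = 1 ↔ (IsPlus Q ↔ Fintype.card F % 4 = 1 ∨ Even d) := by
  rw [isPlus_iff_ds hQ h2 hd, ← (sq_facts h2).2.1, ← sqSign_pow_eq_one]
  rcases Int.units_eq_one_or (ds Q) with h | h <;>
    rcases Int.units_eq_one_or (sqSign (-1 : F) ^ d) with h' | h' <;> simp [h, h']

end CF.Cls
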