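/-
Invariant nondegenerate subspaces of unipotent isometries in odd characteristic.
-/
import Cfsg.Agent.Cls.El8
import Cfsg.Agent.Cls.KO3

set_option autoImplicit false

namespace CF.Cls

open Polynomial Module CF.Geom CF.Classical QuadraticMap

universe u

variable {F : Type u} {V W : Type*} [Field F] [AddCommGroup V] [Module F V] [AddCommGroup W]
  [Module F W] [FiniteDimensional F V] [FiniteDimensional F W] {m k n : ℕ} {μ ν : Multiset ℕ}

/-- Parts with the property `R` have even multiplicity. -/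
def Pa (R : ℕ → Prop) (μ : Multiset ℕ) : Prop := ∀ e, R e → Even (μ.count e)

/-- `f` is unipotent of Jordan type `μ`. -/
def UJ (f : End F V) (μ : Multiset ℕ) : Prop := IsNilpotent (f - 1) ∧ jt f = μ

/-- Every admissible partition of `n` contains an admissible partition of `m`. -/
def PC (R : ℕ → Prop) (p n m : ℕ) : Prop :=
  ∀ μ : Multiset ℕ, (∀ e ∈ μ, 0 < e ∧ e ≤ p) → Pa R μ → μ.sum = n →
    ∃ ν : Multiset ℕ, ν ≤ μ ∧ ν.sum = m ∧ Pa R ν

theorem Pa.add {R : ℕ → Prop} (h : Pa R μ) (h' : Pa R ν) : Pa R (μ + ν) := fun e he => by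
  rw [Multiset.count_add]; exact (h e he).add (h' e he)

theorem Pa.of_add {R : ℕ → Prop} (h : Pa R (μ + ν)) (h' : Pa R μ) : Pa R ν := fun e he =>
  (Nat.even_add.1 (Multiset.count_add e μ ν ▸ h e he)).1 (h' e he)

theorem pa_replicate {R : ℕ → Prop} {a : ℕ} (h : Even k ∨ ¬ R a) :
    Pa R (Multiset.replicate k a) := fun e he => by
  rw [Multiset.count_replicate]
  split_ifs with h1
  exacts [h.resolve_right (not_not.2 (h1 ▸ he)), Even.zero]

theorem pa_of_not {R : ℕ → Prop} (h : ∀ a ∈ μ, ¬ R a) : Pa R μ := fun e he => by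
  rw [Multiset.count_eq_zero_of_notMem fun h1 => h e h1 he]; exact Even.zero

theorem UJ.sum {f : End F V} (h : UJ f μ) : μ.sum = finrank F V := h.2 ▸ jt_sum f

theorem uj_of_ed {f : End F V} (hμ : ∀ d ∈ μ, 0 < d)
    (h : ed f = μ.map fun d => (X - 1 : F[X]) ^ d) : UJ f μ := HasED.unip hμ (h ▸ hasED_ed f)

theorem UJ.of_sim {f : End F V} {g : End F W} (h : UJ g μ) (hs : Sim f g) : UJ f μ :=
  uj_of_ed (h.2 ▸ jt_pos g) (by rw [sim_iff_ed.1 hs, ed_eq_of_unip h.1, h.2])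

theorem UJ.prodMap {f : End F V} {g : End F W} (h : UJ f μ) (h' : UJ g ν) :
    UJ (f.prodMap g : End F (V × W)) (μ + ν) :=
  uj_of_ed (fun d hd => (Multiset.mem_add.1 hd).elim (jt_pos f d <| h.2 ▸ ·) (jt_pos g d <| h'.2 ▸ ·))
    (by rw [ed_prodMap, ed_eq_of_unip h.1, ed_eq_of_unip h'.1, h.2, h'.2, Multiset.map_add])

theorem UJ.of_prodMap {f : End F V} {g : End F W} (h : UJ (f.prodMap g : End F (V × W)) μ) :
    UJ f (jt f) ∧ UJ g (jt g) ∧ μ = jt f + jt g := by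
  obtain ⟨⟨k, hk⟩, h⟩ := h
  refine ⟨⟨⟨k, LinearMap.ext fun v => ?_⟩, rfl⟩, ⟨⟨k, LinearMap.ext fun v => ?_⟩, rfl⟩,
    by rw [← h, jt_prodMap]⟩
  · simpa [hk] using congrArg Prod.fst (sub_one_pow_intertwine (LinearMap.inl F V W)
      (g := f.prodMap g) (f := f) (fun v => by simp) k v)
  · simpa [hk] using congrArg Prod.snd (sub_one_pow_intertwine (LinearMap.inr F V W)
      (g := f.prodMap g) (f := g) (fun v => by simp) k v)

theorem uj_one : UJ (1 : End F V) (Multiset.replicate (finrank F V) 1) := by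
  have h : IsNilpotent ((1 : End F V) - 1) := by simp
  have h1 : jt (1 : End F V) = Multiset.replicate (jt (1 : End F V)).card 1 :=
    Multiset.eq_replicate_card.2 fun d hd => le_antisymm
      ((unip_pow_eq_zero_iff h 1).1 (by simp) d hd) (jt_pos _ d hd)
  refine ⟨h, ?_⟩
  rw [← jt_sum (1 : End F V), h1]; simp

theorem UJ.pow_eq_one_iff (p : ℕ) [Fact p.Prime] [CharP F p] {f : End F V} (h : UJ f μ) :
    f ^ p = 1 ↔ ∀ d ∈ μ, d ≤ p := by
  have := pow_char_pow_eq_one_iff (F := F) p f 1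
  rw [pow_one] at this
  rw [this, unip_pow_eq_zero_iff h.1, h.2]

theorem uj_of_pow (p : ℕ) [Fact p.Prime] [CharP F p] {f : End F V} (h : f ^ p = 1) : UJ f (jt f) :=
  ⟨(isNilpotent_iff_pow (F := F) p f).2 ⟨1, by rwa [pow_one]⟩, rfl⟩

theorem UJ.ne_one {f : End F V} (h : UJ f μ) {d : ℕ} (hd : d ∈ μ) (h1 : d ≠ 1) : f ≠ 1 := by
  rintro rfl
  exact h1 (Multiset.eq_of_mem_replicate (uj_one.2.symm.trans h.2 ▸ hd))

theorem UJ.finrank_ker {f : End F V} (h : UJ f μ) : finrank F (LinearMap.ker (f - 1)) = μ.card :=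
  h.2 ▸ finrank_ker_unip_one h.1

theorem UJ.finrank_range {f : End F V} (h : UJ f μ) :
    finrank F (LinearMap.range (f - 1)) + μ.card = finrank F V :=
  h.finrank_ker ▸ (f - 1).finrank_range_add_finrank_ker

theorem UJ.count_eq {f : End F V} (h : UJ f μ) [DecidableEq F[X]] (e : ℕ) :
    (ed f).count ((X - C 1) ^ e) = μ.count e := by
  rw [ed_eq_of_unip h.1, h.2, C_1]
  exact Multiset.count_map_eq_count' _ _ (fun a b hab => by
    simpa only [natDegree_X_sub_one_pow] using congrArg natDegree hab) e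

theorem UJ.pa_alt {B : LinearMap.BilinForm F V} (hB : B.Nondegenerate) (hA : B.IsAlt)
    {f : End F V} (hf : Pres B f) (h : UJ f μ) : Pa Odd μ := fun e he => by
  classical
  exact h.count_eq e ▸ even_count_alt hB hA hf (one_mul 1) he

theorem UJ.pa_symm (h2 : (2 : F) ≠ 0) {B : LinearMap.BilinForm F V} (hB : EH (RingHom.id F) 1 B)
    {f : End F V} (hf : Pres B f) (h : UJ f μ) : Pa Even μ := fun e he => by
  classical
  rcases e.eq_zero_or_pos with rfl | h0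
  · rw [Multiset.count_eq_zero_of_notMem fun h1 => (jt_pos f 0 (h.2 ▸ h1)).false]; exact Even.zero
  · exact h.count_eq e ▸ even_count_symm h2 hB hf (one_mul 1) he h0

theorem UJ.split {σ : F →+* F} {B : V →ₛₗ[σ] V →ₗ[F] F} {Q : V → F} (hW : IsWittPair σ B Q)
    {g : Isom B Q} (h : UJ g.1.toLinearMap μ) {U : Submodule F V} (hU : Disjoint U (perp B U))
    (hg : ∀ u ∈ U, g.1.toLinearMap u ∈ U) : ∃ (x : IU B Q U) (y : IU B Q (perp B U)) (ν ν' : _),
      UJ x.1.toLinearMap ν ∧ UJ y.1.toLinearMap ν' ∧ μ = ν + ν' ∧ (∀ u : U, g.1 u = x.1 u) ∧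
        ∀ u : perp B U, g.1 u = y.1 u := by
  obtain ⟨x, rfl⟩ := exists_glue hW hU g hg
  obtain ⟨h1, h2, h3⟩ := (h.of_sim (sim_glue hW hU x)).of_prodMap
  exact ⟨x.1, x.2, _, _, h1, h2, h3, glue_left hW hU x, glue_right hW hU x⟩

section Ev

variable [Finite F] {K : Type*} [Field K] [Algebra F K] [IsAlgClosed K]

theorem UJ.ev_eq {f : End F V} (h : UJ f μ) : ev K f = μ.map fun d => (1, d) := by
  rw [ev, ed_eq_of_unip h.1, Multiset.bind_map, ← h.2, ← Multiset.bind_singleton]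
  exact Multiset.bind_congr fun d hd => by
    simpa using evP_X_sub_C (K := K) (1 : Fˣ) (jt_pos f d hd)

theorem uj_of_ev {f : End F V} (hf : IsUnit f) (hμ : ∀ d ∈ μ, 0 < d) (hs : μ.sum = finrank F V)
    (h : ev K f = μ.map fun d => (1, d)) : UJ f μ := by
  obtain ⟨g, hg⟩ := exists_unip (F := F) μ hμ hs
  exact UJ.of_sim hg ((sim_iff_ev hf (by simpa using hg.1.isUnit_add_one)).2
    (h.trans (UJ.ev_eq hg).symm))

omit [Finite F] [IsAlgClosed K] in
theorem ia_par_uj {A : Type*} [CommGroup A] (hμ : ∀ d ∈ μ, 0 < d) (Q : ℤ) {R : ℕ → Prop}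
    (h : Pa R μ) : IA Q μ.sum (μ.map fun d => ((1 : A), d)) ∧
      Par R (μ.map fun d => ((1 : A), d)) := by
  have h1 : ∀ R : ℤ, St R (μ.map fun d => ((1 : A), d)) := fun R => by simp [St]
  refine ⟨⟨⟨fun x hx => ?_, by simp [dm], h1 Q⟩, h1 _⟩, fun x hx _ h2 => ?_⟩
  · obtain ⟨d, hd, rfl⟩ := Multiset.mem_map.1 hx; exact hμ d hd
  · obtain ⟨d, hd, rfl⟩ := Multiset.mem_map.1 hx
    classical
    convert (Multiset.count_map_eq_count' (fun d => ((1 : A), d)) μ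
      (fun a b hab => (Prod.ext_iff.1 hab).2) d).symm ▸ h d h2

end Ev

variable [Finite F] (p : ℕ) [hp : Fact p.Prime] [CharP F p]

include p in
theorem exists_uj_sp {B : LinearMap.BilinForm F V} (hB : B.Nondegenerate) (hA : B.IsAlt)
    (hμ : ∀ d ∈ μ, 0 < d) (hs : μ.sum = finrank F V) (h : Pa Odd μ) :
    ∃ g : SpG B, UJ g.1.toLinearMap μ := by
  obtain ⟨h1, h3⟩ := ia_par_uj (A := (AlgebraicClosure F)ˣ) hμ (Nat.card F) h
  obtain ⟨g, hg⟩ := (ra_of_par p h1 h3).exists_SpG p hB hA (h1.dim.trans hs)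
  exact ⟨g, uj_of_ev ((eh_alt hB hA).pres_isUnit g.2.1) hμ hs hg⟩

include p in
theorem exists_uj_o (h2 : (2 : F) ≠ 0) {V : Type u} [AddCommGroup V] [Module F V]
    [FiniteDimensional F V] {Q : QuadraticForm F V} (hQ : (polarBilin Q).Nondegenerate)
    (hμ : ∀ d ∈ μ, 0 < d) (hs : μ.sum = finrank F V) (h : Pa Even μ) {e : ℕ} (he : e ∈ μ)
    (ho : Odd e) : ∃ g : OG Q, UJ g.1.toLinearMap μ := by
  obtain ⟨ν, rfl⟩ := Multiset.exists_cons_of_mem he
  have h0 : ∀ d ∈ ν, 0 < d := fun d hd => hμ d (Multiset.mem_cons_of_mem hd)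
  obtain ⟨h1, h3⟩ := ia_par_uj (A := (AlgebraicClosure F)ˣ) h0 (Nat.card F)
    (Pa.of_add (μ := {e}) h (pa_of_not (by simpa using ho)))
  obtain ⟨t, s, h4⟩ := (ro_of_par p h2 h1 h3).rs
  have h5 := (rs_unip (K := AlgebraicClosure F) p h2 ho (ds Q * t)).add h2 h4
  rw [mul_assoc, Int.units_mul_self, mul_one] at h5
  obtain ⟨g, hg, -⟩ := h5.exists_OG p h2 hQ (by simpa [dm] using hs)
  exact ⟨g, uj_of_ev ((eh_polar hQ).pres_isUnit g.2.1) hμ hs (by simpa using hg)⟩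

omit [Finite F] in
theorem split_odd {s : Multiset ℕ} (hs : ∀ x ∈ s, Odd x) (h : s + Multiset.replicate k 2 = μ + ν)
    (h1 : Pa Even μ) (h2 : Pa Even ν) : ∃ s₁ s₂ j j', s = s₁ + s₂ ∧
      μ = s₁ + Multiset.replicate (2 * j) 2 ∧ ν = s₂ + Multiset.replicate (2 * j') 2 := by
  have h3 : ∀ μ : Multiset ℕ, μ ≤ s + Multiset.replicate k 2 → Pa Even μ →
      ∃ j, μ = μ.filter Odd + Multiset.replicate (2 * j) 2 := fun μ h4 h5 => by
    obtain ⟨j, hj⟩ := (h5 2 even_two).two_dvd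
    refine ⟨j, Multiset.ext.2 fun a => ?_⟩
    rw [Multiset.count_add, Multiset.count_filter, Multiset.count_replicate]
    by_cases h6 : Odd a
    · rw [if_pos h6, if_neg (by rintro rfl; exact absurd h6 (by decide)), add_zero]
    rw [if_neg h6, zero_add]
    split_ifs with h7
    · rw [← h7, hj]
    exact Multiset.count_eq_zero_of_notMem fun h8 => (Multiset.mem_add.1
      (Multiset.mem_of_le h4 h8)).elim (fun h => h6 (hs a h))
        fun h => h7 (Multiset.eq_of_mem_replicate h).symm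
  obtain ⟨j, hj⟩ := h3 μ (h ▸ Multiset.le_add_right _ _) h1
  obtain ⟨j', hj'⟩ := h3 ν (h ▸ Multiset.le_add_left _ _) h2
  refine ⟨_, _, j, j', ?_, hj, hj'⟩
  rw [← Multiset.filter_add, ← h, Multiset.filter_add, Multiset.filter_eq_self.2 hs,
    Multiset.filter_eq_nil.2 fun a ha => by rw [Multiset.eq_of_mem_replicate ha]; simp, add_zero]

section O

variable {Q : QuadraticForm F V} (h2 : (2 : F) ≠ 0) (hQ : (polarBilin Q).Nondegenerate)
  {g : OG Q} {U : Submodule F V}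
include hQ

omit [Finite F] in
theorem UJ.split_o (h : UJ g.1.toLinearMap μ) (hU : ND (polarBilin Q) m U)
    (hg : ∀ u ∈ U, g.1.toLinearMap u ∈ U) :
    ∃ (x : OG (qr Q U)) (y : OG (qr Q (perp (polarBilin Q) U))) (ν ν' : _),
      UJ x.1.toLinearMap ν ∧ UJ y.1.toLinearMap ν' ∧ μ = ν + ν' ∧ (∀ u : U, g.1 u = x.1 u) ∧
        ∀ u : perp (polarBilin Q) U, g.1 u = y.1 u := by
  obtain ⟨x, y, ν, ν', h⟩ := h.split (isWittPair_quad Q hQ) hU.2 hg
  exact ⟨⟨x.1, IU_eq Q U ▸ x.2⟩, ⟨y.1, IU_eq Q _ ▸ y.2⟩, ν, ν', h⟩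

omit [Finite F] in
theorem exists_uj_glue (hU : ND (polarBilin Q) m U) {x : OG (qr Q U)}
    {y : OG (qr Q (perp (polarBilin Q) U))} (hx : UJ x.1.toLinearMap μ)
    (hy : UJ y.1.toLinearMap ν) : ∃ g : OG Q, UJ g.1.toLinearMap (μ + ν) ∧
      (∀ u : U, g.1 u = x.1 u) ∧ ∀ u : perp (polarBilin Q) U, g.1 u = y.1 u :=
  ⟨glue (isWittPair_quad Q hQ) hU.2
    (⟨x.1, (IU_eq Q U).ge x.2⟩, ⟨y.1, (IU_eq Q _).ge y.2⟩),
    (hx.prodMap hy).of_sim (sim_glue _ _ _).symm, glue_left _ _ _, glue_right _ _ _⟩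

omit [Finite F] in
theorem ds_one (h : finrank F V = 1) {v : V} (hv : v ≠ 0) :
    Q v ≠ 0 ∧ ds Q = sqSign (2 * Q v) := by
  have h1 : (gram (polarBilin Q) (FiniteDimensional.basisSingleton Unit h v hv)).det = 2 * Q v := by
    simp [polar_self]
  exact ⟨fun h3 => det_gram_ne_zero hQ _ (by rw [h1, h3, mul_zero]), by rw [← h1, ← ds_eq]⟩

include h2

omit [Finite F] hQ in
theorem UJ.sing_range (h : UJ g.1.toLinearMap μ) (h1 : ∀ d ∈ μ, d ≤ 2) :
    TS (polarBilin Q) Q (finrank F V - μ.card) (RU g.1) := by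
  have h3 := (unip_pow_eq_zero_iff h.1 2).2 (h.2 ▸ h1)
  refine ts_quad_iff.2 ⟨Nat.eq_sub_of_add_eq h.finrank_range, ?_⟩
  rintro _ ⟨x, rfl⟩
  have h4 : g.1 (g.1 x - x) = g.1 x - x := by
    simpa [pow_two, sub_eq_zero] using LinearMap.congr_fun h3 x
  have h5 : polar Q (g.1 x) (g.1 x - x) = polar Q x (g.1 x - x) := by
    conv_lhs => rw [← h4]
    exact g.2.1 _ _
  refine (mul_eq_zero.1 ?_).resolve_left h2
  have h6 := sub_eq_zero.2 h5
  rw [← polar_sub_left, polar_self, two_smul, ← two_mul] at h6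
  exact h6

omit [Finite F] hQ in
theorem UJ.isPlus (h : UJ g.1.toLinearMap (Multiset.replicate k 2)) : IsPlus Q := by
  have h1 := h.sum
  have h3 := ts_quad_iff.1 (h.sing_range h2 fun d hd => (Multiset.eq_of_mem_replicate hd).le)
  simp only [Multiset.card_replicate, Multiset.sum_replicate, smul_eq_mul] at h1 h3
  exact ⟨_, by omega, h3.2⟩

theorem UJ.exists_fix (h : UJ g.1.toLinearMap ({1} + Multiset.replicate (2 * k) 2)) :
    ∃ v, g.1 v = v ∧ Q v ≠ 0 ∧ ds Q = sqSign (2 * Q v) := by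
  have hW := isWittPair_quad Q hQ
  have h1 := h.sum
  have h3 := h.sing_range h2 fun d hd => (Multiset.mem_add.1 hd).elim (by simp +contextual)
    fun hd => (Multiset.eq_of_mem_replicate hd).le
  simp only [Multiset.card_replicate, Multiset.sum_replicate, smul_eq_mul, Multiset.sum_add,
    Multiset.card_add, Multiset.sum_singleton, Multiset.card_singleton] at h1 h3
  rw [show finrank F V - (1 + 2 * k) = 2 * k by omega] at h3
  obtain ⟨H, h4, h5, -⟩ := exists_levi hW (fun _ => rfl) h3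
  have h6 := h4.nd.perp hW
  have h7 : finrank F (perp (polarBilin Q) H) = 1 := by rw [h6.1]; omega
  have : Nontrivial (perp (polarBilin Q) H) := (finrank_pos_iff (R := F)).1 (by omega)
  obtain ⟨v, hv⟩ := exists_ne (0 : perp (polarBilin Q) H)
  obtain ⟨h8, h9⟩ := ds_one h6.nd h7 hv
  refine ⟨v, (mem_perp_RU hQ g).1 (mem_perp.2 fun x hx => mem_perp.1 v.2 x (h5 hx)), h8, ?_⟩
  rw [ds_eq_mul_perp hQ h4.nd, h9, (isPlus_iff_ds h4.nd.nd h2 h4.nd.1).1 h4.isPlus,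
    sqSign_pow_eq_one.2 (.inr (even_two_mul k)), one_mul]
  rfl

omit [Finite F] in
theorem UJ.one_mem (h : UJ g.1.toLinearMap μ) {v : V} (hv : g.1 v = v) (h1 : Q v ≠ 0) :
    1 ∈ μ := by
  have h3 : ND (polarBilin Q) (finrank F F) _ := nd_range (φ := LinearMap.toSpanSingleton F V v)
    fun a ha => by simpa [polar_self, h2, h1] using ha 1
  obtain ⟨x, -, ν, ν', h4, -, rfl, -⟩ := h.split_o hQ h3 (by
    rintro _ ⟨a, rfl⟩; exact ⟨a, by simp [hv]⟩)
  have h5 := h4.sum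
  rw [h3.1, finrank_self] at h5
  obtain ⟨a, ha⟩ := Multiset.exists_mem_of_ne_zero (s := ν) (by rintro rfl; simp at h5)
  have h6 := Multiset.single_le_sum (fun _ _ => Nat.zero_le _) a ha
  have h7 := jt_pos _ a (h4.2 ▸ ha)
  exact Multiset.mem_add.2 (.inl ((show a = 1 by omega) ▸ ha))

omit [Finite F] in
theorem UJ.split_odd {s : Multiset ℕ} (hs : ∀ x ∈ s, Odd x)
    (h : UJ g.1.toLinearMap (s + Multiset.replicate k 2)) (hU : ND (polarBilin Q) m U)
    (hg : ∀ u ∈ U, g.1.toLinearMap u ∈ U) :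
    ∃ (x : OG (qr Q U)) (y : OG (qr Q (perp (polarBilin Q) U))) (s₁ s₂ : _) (j j' : ℕ),
      s = s₁ + s₂ ∧ UJ x.1.toLinearMap (s₁ + Multiset.replicate (2 * j) 2) ∧
      UJ y.1.toLinearMap (s₂ + Multiset.replicate (2 * j') 2) ∧ (∀ u : U, g.1 u = x.1 u) ∧
      (∀ u : perp (polarBilin Q) U, g.1 u = y.1 u) ∧ m = s₁.sum + 4 * j ∧
      finrank F V - m = s₂.sum + 4 * j' := by
  obtain ⟨x, y, ν, ν', h3, h4, h5, h6, h7⟩ := h.split_o hQ hU hg
  have h8 := hU.perp (isWittPair_quad Q hQ)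
  obtain ⟨s₁, s₂, j, j', a1, rfl, rfl⟩ := Cls.split_odd hs h5
    (h3.pa_symm h2 (eh_polar hU.nd) x.2.1) (h4.pa_symm h2 (eh_polar h8.nd) y.2.1)
  refine ⟨x, y, s₁, s₂, j, j', a1, h3, h4, h6, h7, ?_, ?_⟩
  · rw [← hU.1, ← h3.sum]; simp; omega
  · rw [← h8.1, ← h4.sum]; simp; omega

end O

omit [Finite F] in
theorem le_pair {α : Type*} {s : Multiset α} {x y : α} (h : s ≤ {x, y}) :
    s = 0 ∨ s = {y} ∨ s = {x} ∨ s = {x, y} := by
  simpa [or_assoc, eq_comm (b := s)] using Multiset.mem_powerset.2 h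

section Main

variable {V : Type u} [AddCommGroup V] [Module F V] [FiniteDimensional F V]
  {Q : QuadraticForm F V} (h2 : (2 : F) ≠ 0) (hQ : (polarBilin Q).Nondegenerate)
include p h2

theorem odd_char : Odd p ∧ 3 ≤ p :=
  have := Fintype.ofFinite F
  have h := (two_ne_zero_iff (F := F) p).1 h2
  ⟨hp.out.odd_of_ne_two h, lt_of_le_of_ne hp.out.two_le h.symm⟩

include hQ

theorem Elu.fx_uj {P : Submodule F V → Prop} (h : Elu (Om Q) p (Fx P)) (h4 : 4 < finrank F V)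
    {g : OG Q} (hg : UJ g.1.toLinearMap μ) (h1 : ∀ d ∈ μ, d ≤ p) {d : ℕ} (hd : d ∈ μ)
    (h3 : d ≠ 1) : Fx P g.1.toLinearMap :=
  (elu_om_iff hQ h4 (odd_char p h2).1 Fx.of_neg).1 h g
    ((sub_pow_eq_one_iff g p).2 ((hg.pow_eq_one_iff p).2 h1))
    fun h5 => hg.ne_one hd h3 (by rw [h5]; rfl)

theorem Elu.pc_o (h : Elu (Om Q) p (Fx (ND (polarBilin Q) m))) (h4 : 4 < finrank F V)
    (hm : Even m) (hn : m ≤ finrank F V) : PC Even p (finrank F V) m := by
  have key : ∀ μ : Multiset ℕ, (∀ e ∈ μ, 0 < e ∧ e ≤ p) → Pa Even μ → μ.sum = finrank F V →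
      ∀ e ∈ μ, Odd e → ∀ d ∈ μ, d ≠ 1 → ∃ ν ≤ μ, ν.sum = m ∧ Pa Even ν := by
    intro μ h1 h3 h5 e he ho d hd hd1
    obtain ⟨g, hg⟩ := exists_uj_o p h2 hQ (fun d hd => (h1 d hd).1) h5 h3 he ho
    obtain ⟨U, h6, h7⟩ := h.fx_uj p h2 hQ h4 hg (fun d hd => (h1 d hd).2) hd hd1
    obtain ⟨x, -, ν, ν', h8, -, rfl, -⟩ := hg.split_o hQ h6 h7
    exact ⟨ν, Multiset.le_add_right _ _, h8.sum.trans h6.1, h8.pa_symm h2 (eh_polar h6.nd) x.2.1⟩
  intro μ h1 h3 h5
  by_cases h6 : ∀ d ∈ μ, d = 1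
  · rw [Multiset.eq_replicate_card.2 h6] at h5 ⊢
    exact ⟨Multiset.replicate m 1, (Multiset.replicate_le_replicate 1).2 (by simp at h5; omega),
      by simp, pa_replicate (.inr (by decide))⟩
  push Not at h6
  obtain ⟨a, ha, h6⟩ := h6
  by_cases h7 : ∃ e ∈ μ, Odd e
  · exact h7.elim fun e he => key μ h1 h3 h5 e he.1 he.2 a ha h6
  simp only [not_exists, not_and, Nat.not_odd_iff_even] at h7
  obtain ⟨μ', rfl⟩ := Multiset.le_iff_exists_add.1 (Multiset.le_count_iff_replicate_le.1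
    (Nat.le_of_dvd (Multiset.count_pos.2 ha) (h3 a (h7 a ha)).two_dvd))
  have h8 : ∀ e ∈ ({a + 1, a - 1} : Multiset ℕ), ¬ Even e ∧ 0 < e ∧ e ≤ p := by
    have := h1 a ha
    have := h7 a ha
    have := (odd_char p h2).1
    simp only [Multiset.insert_eq_cons, Multiset.mem_cons, Multiset.mem_singleton, Nat.even_iff,
      Nat.odd_iff] at *
    omega
  have h9 := pa_replicate (R := Even) (a := a) (.inl even_two)
  have h0 := (h1 a ha).1
  obtain ⟨ν, a1, a2, a3⟩ := key ({a + 1, a - 1} + μ') (fun e he => (Multiset.mem_add.1 he).elim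
    (fun h => (h8 e h).2) fun h => h1 e (Multiset.mem_add.2 (.inr h)))
    ((pa_of_not fun e he => (h8 e he).1).add (h3.of_add h9)) (by rw [← h5]; simp; omega) (a + 1)
    (by simp) (Nat.not_even_iff_odd.1 (h8 _ (by simp)).1) (a + 1) (by simp) (by omega)
  have a4 : ν - {a + 1, a - 1} ≤ μ' := tsub_le_iff_left.2 a1
  have a5 : 2 ∣ (ν - {a + 1, a - 1}).sum := Multiset.dvd_sum fun e he =>
    (h7 e (Multiset.mem_add.2 (.inr (Multiset.mem_of_le a4 he)))).two_dvd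
  rw [← Multiset.sub_add_inter ν {a + 1, a - 1}, add_comm] at a2 a3
  have a6 := a3.of_add (pa_of_not fun e he => (h8 e (Multiset.mem_inter.1 he).2).1)
  have a7 := (h7 a ha).two_dvd
  have a8 := hm.two_dvd
  rcases le_pair (Multiset.inter_le_right (s := ν) (t := {a + 1, a - 1})) with h | h | h | h <;>
    rw [h] at a2 <;> simp only [Multiset.sum_add, Multiset.sum_zero, Multiset.sum_singleton,
      Multiset.insert_eq_cons, Multiset.sum_cons] at a2 a5
  · exact ⟨_, a4.trans (Multiset.le_add_left _ _), by simpa using a2, a6⟩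
  · omega
  · omega
  · exact ⟨_, add_le_add_right a4 _, by simp at a2 ⊢; omega, h9.add a6⟩

theorem Elu.fx_s {P : Submodule F V → Prop} (h : Elu (Om Q) p (Fx P)) (h4 : 4 < finrank F V)
    {s : Multiset ℕ} (hs : ∀ x ∈ s, x = 1 ∨ x = 3) {g : OG Q}
    (hg : UJ g.1.toLinearMap (s + Multiset.replicate (2 * k) 2)) (h1 : 0 < k ∨ 3 ∈ s) :
    Fx P g.1.toLinearMap := by
  have h3 := (odd_char p h2).2
  have h5 : ∀ d ∈ s + Multiset.replicate (2 * k) 2, d ≤ p := fun d hd =>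
    (Multiset.mem_add.1 hd).elim (fun h => by have := hs d h; omega) fun h => by
      rw [Multiset.eq_of_mem_replicate h]; omega
  exact h1.elim (fun h1 => h.fx_uj p h2 hQ h4 hg h5 (d := 2) (by simp [Multiset.mem_replicate]; omega)
    (by omega))
    fun h1 => h.fx_uj p h2 hQ h4 hg h5 (d := 3) (by simp [h1]) (by omega)

theorem exists_uj_s {s : Multiset ℕ} (hs : ∀ x ∈ s, x = 1 ∨ x = 3) (h0 : s ≠ 0)
    (hn : finrank F V = s.sum + 4 * k) :
    ∃ g : OG Q, UJ g.1.toLinearMap (s + Multiset.replicate (2 * k) 2) := by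
  obtain ⟨a, ha⟩ := Multiset.exists_mem_of_ne_zero h0
  have h1 : ∀ x ∈ s, Odd x := fun x hx => by rcases hs x hx with rfl | rfl <;> decide
  exact exists_uj_o p h2 hQ (fun d hd => (Multiset.mem_add.1 hd).elim (fun h => (h1 d h).pos)
    fun h => by rw [Multiset.eq_of_mem_replicate h]; omega) (by simp; omega)
    ((pa_of_not fun x hx => Nat.not_even_iff_odd.2 (h1 x hx)).add
      (pa_replicate (.inl (even_two_mul k)))) (Multiset.mem_add.2 (.inl ha)) (h1 a ha)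

theorem Elu.exists_plus {P : Submodule F V → Prop} (h : Elu (Om Q) p (Fx P))
    (h4 : 4 < finrank F V) (hP : ∀ U, P U → ND (polarBilin Q) m U) (hm : Even m) :
    ∃ U, P U ∧ ((IsPlus (qr Q U) ∧ m % 4 = 0) ∨ (Even (finrank F V) ∧
      IsPlus (qr Q (perp (polarBilin Q) U)) ∧ (finrank F V - m) % 4 = 0)) := by
  obtain ⟨s, k, h1, h0, h3, h5, h6⟩ : ∃ (s : Multiset ℕ) (k : ℕ), (∀ x ∈ s, x = 1 ∨ x = 3) ∧
      s ≠ 0 ∧ finrank F V = s.sum + 4 * k ∧ (0 < k ∨ 3 ∈ s) ∧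
      ∀ s₁ ≤ s, Even s₁.sum → s₁ = 0 ∨ (s₁ = s ∧ Even (finrank F V)) := by
    have : ∀ a b : ℕ, Odd a → Odd b → ∀ s₁ : Multiset ℕ, s₁ ≤ {a, b} → Even s₁.sum →
        s₁ = 0 ∨ s₁ = {a, b} := fun a b ha hb s₁ h1 h3 => by
      rcases le_pair h1 with rfl | rfl | rfl | rfl <;> simp_all [← Nat.not_even_iff_odd]
    rcases (by omega : finrank F V % 4 = 0 ∨ finrank F V % 4 = 2 ∨ finrank F V % 2 = 1) with
      h | h | h
    · exact ⟨{3, 1}, finrank F V / 4 - 1, by simp, by simp, by simp; omega, by simp,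
        fun s h1 h3 => (this _ _ (by decide) (by decide) s h1 h3).imp_right
          (⟨·, Nat.even_iff.2 (by omega)⟩)⟩
    · exact ⟨{1, 1}, finrank F V / 4, by simp, by simp, by simp; omega, by omega,
        fun s h1 h3 => (this _ _ (by decide) (by decide) s h1 h3).imp_right
          (⟨·, Nat.even_iff.2 (by omega)⟩)⟩
    · refine ⟨{finrank F V % 4}, finrank F V / 4, by simp; omega, by simp, by simp; omega,
        by omega, fun s h1 h3 => .inl ((Multiset.le_singleton.1 h1).resolve_right ?_)⟩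
      rintro rfl
      rw [Multiset.sum_singleton, Nat.even_iff] at h3
      omega
  obtain ⟨g, hg⟩ := exists_uj_s p h2 hQ h1 h0 h3
  obtain ⟨U, a1, a2⟩ := h.fx_s p h2 hQ h4 h1 hg h5
  obtain ⟨x, y, s₁, s₂, j, j', rfl, b1, b2, -, -, b3, b4⟩ := hg.split_odd h2 hQ
    (fun x hx => by rcases h1 x hx with rfl | rfl <;> decide) (hP U a1) a2
  rw [Nat.even_iff] at hm
  refine ⟨U, a1, (h6 s₁ (Multiset.le_add_right _ _) (Nat.even_iff.2 (by omega))).imp ?_ ?_⟩
  · rintro rfl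
    exact ⟨UJ.isPlus h2 (zero_add (Multiset.replicate _ 2) ▸ b1), by simp at b3; omega⟩
  · rintro ⟨h7, h8⟩
    obtain rfl := left_eq_add.1 h7
    exact ⟨h8, UJ.isPlus h2 (zero_add (Multiset.replicate _ 2) ▸ b2), by simp at b4; omega⟩

theorem not_elu_ns (h4 : 4 < finrank F V) (he : Even (finrank F V)) (hm : Odd m) (t : ℤˣ) :
    ¬ Elu (Om Q) p (Fx (NS Q m t)) := fun h => by
  rw [Nat.even_iff] at he
  rw [Nat.odd_iff] at hm
  have hW := isWittPair_quad Q hQ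
  by_cases h1 : finrank F V % 4 = 2
  · obtain ⟨a, h3, h5⟩ : ∃ a, (a = 1 ∨ a = 3) ∧ m % 4 ≠ a := ⟨4 - m % 4, by omega, by omega⟩
    have h6 : ∀ x ∈ ({a, a} : Multiset ℕ), x = 1 ∨ x = 3 := by simpa using h3
    obtain ⟨g, hg⟩ := exists_uj_s p h2 hQ h6 (by simp) (k := (finrank F V - 2 * a) / 4)
      (by simp; omega)
    obtain ⟨U, a1, a2⟩ := h.fx_s p h2 hQ h4 h6 hg (by simp; omega)
    obtain ⟨x, y, s₁, s₂, j, j', b0, -, -, -, -, b3, -⟩ := hg.split_odd h2 hQ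
      (fun x hx => by rcases h6 x hx with rfl | rfl <;> decide) a1.1 a2
    rcases le_pair (b0.ge.trans' (Multiset.le_add_right _ _)) with rfl | rfl | rfl | rfl <;>
      simp at b3 <;> omega
  obtain ⟨N, hN⟩ := exists_NS hQ h2 one_pos (by omega) (if m % 4 = 1 then -t else -(t * ds Q))
  have h3 := hN.1.perp hW
  obtain ⟨y, hy⟩ := exists_uj_s p h2 h3.nd (s := {3}) (by simp) (by simp)
    (k := finrank F V / 4 - 1) (by rw [h3.1]; simp; omega)
  obtain ⟨g, hg, b1, b2⟩ := exists_uj_glue hQ hN.1 (x := 1) uj_one hy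
  have key : ∀ v, g.1 v = v → Q v ≠ 0 → sqSign (2 * Q v) = ds (qr Q N) := fun v hv h0 => by
    obtain ⟨a, ha, w, hw, rfl⟩ := Submodule.mem_sup.1
      ((hW.isCompl_perp hN.1.2).sup_eq_top.ge (Submodule.mem_top (x := v)))
    have h5 : y.1 ⟨w, hw⟩ = ⟨w, hw⟩ := Subtype.ext <| by
      rw [map_add, b1 ⟨a, ha⟩] at hv
      exact (b2 _).symm.trans (add_left_cancel hv)
    have h6 : Q w = 0 := by_contra fun h6 => by
      simpa [Multiset.mem_replicate] using hy.one_mem h2 h3.nd h5 h6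
    have h7 : Q (a + w) = Q a := by
      rw [QuadraticMap.map_add Q, h6, show polar Q a w = 0 from mem_perp.1 hw a ha]; simp
    rw [h7] at h0 ⊢
    exact (ds_one hN.1.nd hN.1.1 (v := ⟨a, ha⟩) fun h => h0 (by
      rw [show a = 0 from congrArg Subtype.val h, map_zero])).2.symm
  rw [hN.1.1, Multiset.replicate_one, ← add_assoc] at hg
  have h6 : ∀ x ∈ ({1} + {3} : Multiset ℕ), x = 1 ∨ x = 3 := by simp
  obtain ⟨U, a1, a2⟩ := h.fx_s p h2 hQ h4 h6 hg (by simp)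
  obtain ⟨x, z, s₁, s₂, j, j', b0, c1, c2, c3, c4, b3, b4⟩ := hg.split_odd h2 hQ
    (fun x hx => by rcases h6 x hx with rfl | rfl <;> decide) a1.1 a2
  have h7 := hN.2
  rcases le_pair (x := 1) (y := 3) (b0.ge.trans' (Multiset.le_add_right _ _)) with
    rfl | rfl | rfl | rfl <;> simp at b3
  · omega
  · obtain rfl : {1} = s₂ := add_left_cancel ((add_comm _ _).trans b0)
    obtain ⟨v, d1, d2, d3⟩ := c2.exists_fix h2 (a1.1.perp hW).nd
    have d4 := ds_eq_mul_perp hQ a1.1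
    rw [d3, a1.2, show qr Q _ v = Q v from rfl, key v (by rw [c4, d1]) d2, h7,
      if_neg (by omega), mul_neg, ← mul_assoc, Int.units_mul_self, one_mul] at d4
    exact units_ne_neg_self _ d4
  · obtain ⟨v, d1, d2, d3⟩ := c1.exists_fix h2 a1.1.nd
    rw [a1.2, show qr Q _ v = Q v from rfl, key v (by rw [c3, d1]) d2, h7,
      if_pos (by omega)] at d3
    exact units_ne_neg_self _ d3
  · omega

end Main

namespace Tri

variable {ε : F} {T A S : Tri F ε}

omit [Finite F] in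
theorem fx_add (h : Iso T (add A S)) (hS : Fx (ND S.B m) S.f) :
    Fx (ND T.B (finrank F A.V + m)) T.f := by
  obtain ⟨Z, h1, h2⟩ := h.symm
  obtain ⟨U, h3, h4⟩ := hS
  rw [← h3.1, ← finrank_prod]
  refine fx_range (Z.toLinearMap ∘ₗ LinearMap.id.prodMap U.subtype)
    (f := A.f.prodMap (S.f.restrict h4)) (fun w => (h2 _).symm) (nd_range fun w hw =>
      Prod.ext (A.eh.nondeg' _ fun y => ?_) (Subtype.ext (Submodule.disjoint_def.1 h3.2 _ w.2.2
        (mem_perp.2 fun y hy => ?_))))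
  · simpa [h1] using hw (y, 0)
  · simpa [h1] using hw (0, ⟨y, hy⟩)

omit [Finite F] in
theorem exists_mem_jt_big {W : ℕ → Tri F ε} {e : ℕ} (h : e ∈ jt (big W n).f) :
    ∃ j < n, e ∈ jt (W j).f := by
  induction n with
  | zero =>
    have := Multiset.single_le_sum (fun _ _ => Nat.zero_le _) e h
    rw [jt_sum, show finrank F (big W 0).V = 0 from
      finrank_zero_of_subsingleton (M := PUnit.{u + 1})]
      at this
    exact absurd (jt_pos _ e h) (by omega)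
  | succ n ih =>
    rcases Multiset.mem_add.1 (jt_prodMap (W n).f (big W n).f ▸ h) with h | h
    · exact ⟨n, n.lt_succ_self, h⟩
    · exact (ih h).imp fun j hj => ⟨by omega, hj.2⟩

omit [Finite F] in
theorem exists_piece (h2 : (2 : F) ≠ 0) {T : Tri F (-1)} (h : UJ T.f μ) {e : ℕ} (he : e ∈ μ) :
    ∃ A S, Iso T (add A S) ∧ jt A.f = Multiset.replicate (if Even e then 1 else 2) e := by
  obtain ⟨r, W, h1, h3⟩ := exists_big_unip (pow_eq_zero_of_nil h.1 le_rfl)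
  obtain ⟨j, hj, h4⟩ := exists_mem_jt_big (h3.sim.jt_eq ▸ h.2 ▸ he)
  obtain ⟨S, hS⟩ := exists_big W hj
  rw [jt, (h1 j).ed_eq, Multiset.map_replicate, natDegree_X_sub_one_pow,
    Multiset.mem_replicate] at h4
  obtain ⟨h4, rfl⟩ := h4
  obtain ⟨h5, -, e, h6⟩ := h1 j
  obtain ⟨u, v, h7⟩ : ∃ u v, (W j).tf j u v ≠ 0 := by
    by_contra! h7
    have : Nonempty (Fin (r j)) := ⟨⟨0, by omega⟩⟩
    exact h6 (by rw [show gram ((W j).tf j) e = 0 from Matrix.ext fun _ _ => h7 _ _]; simp)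
  have h8 := tf_symm h5
  obtain ⟨e', h9⟩ : ∃ e' : Fin (if Even (j + 1) then 1 else 2) → (W j).V,
      (gram ((W j).tf j) e').det ≠ 0 := by
    by_cases h9 : Even (j + 1)
    · rw [(Nat.not_even_iff_odd.1 (Nat.even_add_one.1 h9)).neg_one_pow] at h8
      rw [if_pos h9]
      by_contra! h0
      have h0 : ∀ w, (W j).tf j w w = 0 := fun w => by simpa using h0 fun _ => w
      have h9 := h0 (u + v)
      simp only [map_add, LinearMap.add_apply, h0] at h9
      exact h7 ((mul_eq_zero.1 (by linear_combination h9 + h8 u v)).resolve_left h2)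
    · rw [(Nat.even_add_one.not.1 h9 |> not_not.1).neg_one_pow] at h8
      rw [if_neg h9]
      have h0 : ∀ w, (W j).tf j w w = 0 := fun w => (mul_eq_zero.1 (by
        linear_combination h8 w w)).resolve_left h2
      exact ⟨![u, v], by simpa [Matrix.det_fin_two, h0, h8 v u] using h7⟩
  obtain ⟨φ, a1, -, -, a2⟩ := exists_model h5 e'
  obtain ⟨S', -, -, -, -, a3⟩ := (W j).exists_split φ a1 (a2 h9)
  refine ⟨_, _, (h3.trans hS).trans ((a3.add (.refl S)).trans (iso_assoc _ _ _)), ?_⟩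
  rw [jt, (hasED_blk _).ed_eq fun a ha => by
    obtain ⟨_, -, rfl⟩ := Multiset.mem_map.1 ha
    exact isPP_X_sub_one_pow j.succ_pos]
  simp [natDegree_X_sub_one]

omit [Finite F] in
theorem fx_of_le (h2 : (2 : F) ≠ 0) (hν : Pa Odd ν) {T : Tri F (-1)} (h : UJ T.f μ) (h1 : ν ≤ μ) :
    Fx (ND T.B ν.sum) T.f := by
  induction ν using Multiset.strongInductionOn generalizing T μ with | _ ν ih
  rcases ν.empty_or_exists_mem with rfl | ⟨e, he⟩
  · exact ⟨⊥, ⟨by simp, by simp⟩, by simp⟩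
  obtain ⟨A, S, h3, h4⟩ := exists_piece h2 h (Multiset.mem_of_le h1 he)
  obtain ⟨-, h5, h6⟩ := (h.of_sim h3.sim.symm).of_prodMap
  obtain ⟨ν', h7⟩ : ∃ ν', ν = jt A.f + ν' := by
    rw [h4, ← Multiset.le_iff_exists_add, ← Multiset.le_count_iff_replicate_le]
    split_ifs with h7
    · exact Multiset.count_pos.2 he
    · exact Nat.le_of_dvd (Multiset.count_pos.2 he) (hν e (Nat.not_even_iff_odd.1 h7)).two_dvd
  rw [h7, Multiset.sum_add, jt_sum]
  refine fx_add h3 (ih ν' ?_ ((h7 ▸ hν).of_add ?_) h5 (le_of_add_le_add_left (h6 ▸ h7 ▸ h1)))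
  · rw [h7, h4, lt_add_iff_pos_left, pos_iff_ne_zero]
    split_ifs <;> simp
  · rw [h4]
    exact pa_replicate (by split_ifs with h; exacts [.inr (by simpa using h), .inl even_two])

end Tri

include p in
theorem elu_sp_char (h2 : (2 : F) ≠ 0) {V : Type u} [AddCommGroup V] [Module F V]
    [FiniteDimensional F V] {B : LinearMap.BilinForm F V} (hB : B.Nondegenerate) (hA : B.IsAlt)
    (h0 : 0 < finrank F V) (hm : m ≤ finrank F V) (he : Even m) :
    Elu (SpG B) p (Fx (ND B m)) ↔ PC Odd p (finrank F V) m := by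
  have : Nontrivial V := finrank_pos_iff.1 h0
  rw [elu_sp_iff hB hA (odd_char p h2).1 Fx.of_neg]
  refine ⟨fun H μ h1 h3 h4 => ?_, fun H g h1 _ => ?_⟩
  · by_cases h6 : ∀ d ∈ μ, d = 1
    · rw [Multiset.eq_replicate_card.2 h6] at h4 ⊢
      exact ⟨Multiset.replicate m 1, (Multiset.replicate_le_replicate 1).2 (by simp at h4; omega),
        by simp, pa_replicate (.inl he)⟩
    push Not at h6
    obtain ⟨a, ha, h6⟩ := h6
    obtain ⟨g, hg⟩ := exists_uj_sp p hB hA (fun d hd => (h1 d hd).1) h4 h3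
    obtain ⟨U, h7, h8⟩ := H g ((sub_pow_eq_one_iff g p).2 ((hg.pow_eq_one_iff p).2
      fun d hd => (h1 d hd).2)) fun h5 => hg.ne_one ha h6 (by rw [h5]; rfl)
    obtain ⟨x, -, ν, ν', h9, -, rfl, -⟩ := hg.split (isWittPair_alt B hB hA) h7.2 h8
    exact ⟨ν, Multiset.le_add_right _ _, h9.sum.trans h7.1,
      h9.pa_alt (h7.alt hB hA).1 (h7.alt hB hA).2 x.2.1⟩
  · have h3 := (sub_pow_eq_one_iff g p).1 h1
    have h4 := uj_of_pow p h3
    obtain ⟨ν, h5, rfl, h6⟩ := H _ (fun d hd => ⟨jt_pos _ d hd, (h4.pow_eq_one_iff p).1 h3 d hd⟩)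
      (h4.pa_alt hB hA g.2.1) h4.sum
    exact Tri.fx_of_le h2 h6 (T := ⟨V, B, g.1.toLinearMap, eh_alt hB hA, g.2.1⟩) h4 h5

theorem ns_iff (h2 : (2 : F) ≠ 0) {ι : Type} [Fintype ι] {Q : QuadraticForm F (ι → F)}
    (hQ : (polarBilin Q).Nondegenerate) {W₀ : Submodule F (ι → F)} (h : ND (polarBilin Q) m W₀)
    (U : Submodule F (ι → F)) : finrank F U = m ∧ Cfsg.Geo.IsNondegenerateOn (polar Q) U ∧
      Cfsg.Geo.AreIsometricFor Q U W₀ ↔ NS Q m (ds (qr Q W₀)) U := by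
  rw [← and_assoc, nd_polar_iff hQ]
  refine and_congr_right fun h1 => ⟨fun ⟨e, he⟩ => ?_, fun h3 =>
    exists_equiv_of_ds h1.nd h2 h.nd (h1.1.trans h.1.symm) h3⟩
  rw [ds_equiv h1.nd e one_ne_zero (Q' := qr Q W₀) fun v => (he v).trans (one_mul _).symm,
    sqSign_one, one_pow, one_mul]

theorem o_ns {Q : QuadraticForm F V} (hQ : (polarBilin Q).Nondegenerate)
    (he : Even (finrank F V)) (hm : Odd m) (h : m ≤ finrank F V) {t : ℤˣ} (U : Submodule F V)
    (hU : NS Q m t U) : ND (polarBilin Q) m U ∧ (IsPlus (qr Q U) ↔ False) ∧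
      (IsPlus (qr Q (perp (polarBilin Q) U)) ↔ False) :=
  ⟨hU.1, iff_false_intro fun h1 => Nat.not_even_iff_odd.2 hm (hU.1.1 ▸ isPlus_even h1),
    iff_false_intro fun h1 => Nat.not_even_iff_odd.2 (Nat.Even.sub_odd h he hm)
      (hU.1.finrank_perp (isWittPair_quad Q hQ) ▸ isPlus_even h1)⟩

end CF.Cls
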