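/-
Invariant subspaces of involutions in characteristic two.
-/
import Cfsg.Agent.Cls.El9
import Cfsg.Agent.Cls.Inv2Om

set_option autoImplicit false

namespace CF.Cls

open Polynomial Module CF.Geom CF.Classical QuadraticMap

universe u

variable {F : Type u} {V : Type*} [Field F] [AddCommGroup V] [Module F V] [FiniteDimensional F V]
  {m k w s s' d k₁ k₂ w₁ w₂ : ℕ} {a a' b : Prop} {B : LinearMap.BilinForm F V}

/-- An involution of rank `s`, of alternating type iff `a`. -/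
def IT (B : LinearMap.BilinForm F V) (g : V ≃ₗ[F] V) (s : ℕ) (a : Prop) : Prop :=
  g.toLinearMap ^ 2 = 1 ∧ finrank F (RU g) = s ∧ ((∀ v, B v (g v) = 0) ↔ a)

/-- The types of involutions in `G`. -/
def IK (B : LinearMap.BilinForm F V) (G : Subgroup (V ≃ₗ[F] V)) (k w : ℕ) : Prop :=
  ∀ s a, (∃ g : G, IT B g.1 s a) ↔ (a → Even s ∧ s ≤ w) ∧ (¬ a → 0 < s ∧ s ≤ k)

theorem ik_of (h2 : (2 : F) = 0) {Q : V → F} (hA : B.IsAlt) (hW : IsWittPair (RingHom.id F) B Q)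
    (hk : finrank F V = 2 * k)
    (h1 : ∀ x : Isom B Q, x ^ 2 = 1 → (∀ v, B v (x.1 v) = 0) → finrank F (RU x.1) ≤ w)
    (h3 : ∀ s, 1 ≤ s → s ≤ k → ∃ x : Isom B Q, x ^ 2 = 1 ∧ finrank F (RU x.1) = s ∧
      ¬ ∀ v, B v (x.1 v) = 0)
    (h4 : ∀ s, Even s → s ≤ w → ∃ x : Isom B Q, x ^ 2 = 1 ∧ finrank F (RU x.1) = s ∧
      ∀ v, B v (x.1 v) = 0) : IK B (Isom B Q) k w := fun s a => by
  constructor
  · rintro ⟨g, h5, rfl, h6⟩
    rw [← sub_pow_eq_one_iff] at h5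
    have h7 := si_of h2 hW.nondegenerate hA h5
    refine ⟨fun h => ⟨h7.even_of_alt (h6.2 h), h1 g h5 (h6.2 h)⟩, fun h => ⟨Nat.pos_of_ne_zero
      fun h8 => h (h6.1 fun v => by rw [finrank_RU_eq_zero.1 h8]; exact hA v), ?_⟩⟩
    have := hW.two_mul_finrank_le h7.le_perp
    omega
  · rintro ⟨h5, h6⟩
    by_cases h : a
    · obtain ⟨g, h7, h8, h9⟩ := h4 s (h5 h).1 (h5 h).2
      exact ⟨g, (sub_pow_eq_one_iff g 2).1 h7, h8, iff_of_true h9 h⟩
    · obtain ⟨g, h7, h8, h9⟩ := h3 s (h6 h).1 (h6 h).2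
      exact ⟨g, (sub_pow_eq_one_iff g 2).1 h7, h8, iff_of_false h9 h⟩

theorem ik_sp (h2 : (2 : F) = 0) (hB : B.Nondegenerate) (hA : B.IsAlt) (hk : finrank F V = 2 * k) :
    IK B (SpG B) k k := by
  have hW := isWittPair_alt B hB hA
  refine ik_of h2 hA hW hk (fun x hx _ => ?_) (fun s h1 hs => ?_) fun s h1 hs => ?_
  · have := hW.two_mul_finrank_le (si_of h2 hB hA hx).le_perp
    omega
  all_goals obtain ⟨U, rfl, -, hU⟩ := exists_TS_alt hB hA (m := s) (by omega)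
  · obtain ⟨γ, hγ, h3⟩ := exists_S2_basis h2 (finBasis F U)
    obtain ⟨t, e1, e2, e3⟩ := exists_SI' (Q := fun _ => 0) hB hA hU hγ (fun _ _ _ => rfl)
    exact ⟨t, e1, by rw [e2], fun h => one_ne_zero ((h3 ⟨0, h1⟩).symm.trans (e3.1 h _))⟩
  · obtain ⟨γ, hγ, h3⟩ := exists_S2_alt h2 h1
    obtain ⟨t, e1, e2, e3⟩ := exists_SI' (Q := fun _ => 0) hB hA hU hγ (fun _ _ _ => rfl)
    exact ⟨t, e1, by rw [e2], e3.2 h3⟩

open scoped _root_.Classical in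
theorem ik_o [Finite F] (h2 : (2 : F) = 0) {Q : QuadraticForm F V}
    (hQ : (polarBilin Q).Nondegenerate) (hk : finrank F V = 2 * k) (h0 : 0 < k)
    (hb : IsPlus Q ↔ b) : IK (polarBilin Q) (OG Q) k (if b then k else k - 1) := by
  refine ik_of h2 (polar_isAlt h2 Q) (isWittPair_quad Q hQ) hk (fun x _ h => ?_)
    (fun s h1 hs => ?_) fun s h1 hs => ?_
  · have := TS.le_quad hQ (ts_quad_iff.2 ⟨rfl, (alt_iff_sing h2 x).1 h⟩)
    split_ifs with h3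
    · omega
    · simp only [hb, h3, and_false, or_false] at this; omega
  · obtain ⟨t, e1, e2, e3⟩ := exists_OI_nonsing h2 hQ (s := s - 1) (by omega)
    exact ⟨t, e1, by omega, mt (alt_iff_sing h2 t).1 e3⟩
  · obtain ⟨U, hU⟩ := exists_TS_quad hQ (m := s) (by
      split_ifs at hs with h3
      · simp only [hb, h3, and_true]; omega
      · omega)
    rw [ts_quad_iff] at hU
    obtain ⟨rfl, hU⟩ := hU
    obtain ⟨t, e1, e2⟩ := exists_OI_sing h2 hQ hU h1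
    exact ⟨t, e1, by rw [e2], (alt_iff_sing h2 t).2 (e2 ▸ hU)⟩

omit [FiniteDimensional F V] in
theorem it_self {g : V ≃ₗ[F] V} (h : g.toLinearMap ^ 2 = 1) :
    IT B g (finrank F (RU g)) (∀ v, B v (g v) = 0) := ⟨h, rfl, Iff.rfl⟩

theorem elu_char_two [Nontrivial V] (h2 : (2 : F) = 0) {Q : V → F}
    (hW : IsWittPair (RingHom.id F) B Q) {G : Subgroup (V ≃ₗ[F] V)} (hG : G ≤ Isom B Q)
    {R : End F V → Prop} : Elu G 2 R ↔ ∀ (g : Isom B Q) s a, g.1 ∈ G → IT B g.1 s a → 0 < s →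
      R g.1.toLinearMap := by
  have h1 : (-1 : F) = 1 := by linear_combination -h2
  refine ⟨fun H g s a h3 h4 h5 => H _ h3 ⟨1, by simpa using h4.1⟩ fun z hz => h5.ne' ?_,
    fun H g h3 ⟨z, hz⟩ h4 => H ⟨g, hG h3⟩ _ _ h3 (it_self ?_) (Nat.pos_of_ne_zero fun h5 =>
      h4 1 (by rw [(finrank_RU_eq_zero (t := g)).1 h5]; simp; rfl))⟩
  · rw [← h4.2.1, finrank_RU_eq_zero]
    rcases sq_eq_one_of_scalar hW g.2 ((pow_one _).trans hz) with rfl | rfl <;>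
      exact LinearEquiv.toLinearMap_injective (hz.trans (by simp [h1]; rfl))
  · rcases sq_eq_one_of_scalar hW (hG h3) hz with rfl | rfl <;> simpa [h1] using hz

theorem finrank_RU_add (g : V ≃ₗ[F] V) : finrank F (RU g) +
    ((ed g.toLinearMap).map fun a => kd (cyc a) (X - 1)).sum = finrank F V := by
  rw [← kd_eq_ed, kd, map_sub, aeval_X, map_one]
  exact LinearMap.finrank_range_add_finrank_ker _

section Glue

variable {Q : V → F} (hW : IsWittPair (RingHom.id F) B Q) {U : Submodule F V}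
  (hU : Disjoint U (perp B U)) {x : IU B Q U} {y : IU B Q (perp B U)}

theorem it_glue (hx : IT (B.domRestrict₁₂ U U) x.1 s a)
    (hy : IT (B.domRestrict₁₂ (perp B U) (perp B U)) y.1 s' a') :
    IT B (glue hW hU (x, y)).1 (s + s') (a ∧ a') := by
  refine ⟨(sub_pow_eq_one_iff _ 2).1 ((glue_pow_eq_one hW hU).2 ⟨(sub_pow_eq_one_iff _ 2).2 hx.1,
    (sub_pow_eq_one_iff _ 2).2 hy.1⟩), ?_, ?_⟩
  · have h1 := finrank_RU_add (glue hW hU (x, y)).1
    rw [ed_glue, Multiset.map_add, Multiset.sum_add,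
      ← Submodule.finrank_add_eq_of_isCompl (hW.isCompl_perp hU), ← finrank_RU_add x.1,
      ← finrank_RU_add y.1, hx.2.1, hy.2.1] at h1
    simp only at h1
    omega
  rw [← hx.2.2, ← hy.2.2]
  refine ⟨fun h => ⟨fun v => by simpa [glue_left, LinearMap.domRestrict₁₂_apply] using h v, fun v => by
    simpa [glue_right, LinearMap.domRestrict₁₂_apply] using h v⟩, fun h v => ?_⟩
  obtain ⟨u, hu, w, hw, rfl⟩ := Submodule.mem_sup.1
    ((hW.isCompl_perp hU).sup_eq_top.ge (Submodule.mem_top (x := v)))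
  have h1 := glue_apply hW hU (x, y) ⟨u, hu⟩ ⟨w, hw⟩
  have h2 := mem_perp.1 (y.1 ⟨w, hw⟩).2 u hu
  have h3 := hW.refl (mem_perp.1 hw _ (x.1 ⟨u, hu⟩).2)
  simp only at h1
  simpa [h1, h2, h3, LinearMap.domRestrict₁₂_apply] using congrArg₂ (· + ·) (h.1 ⟨u, hu⟩) (h.2 ⟨w, hw⟩)

variable [Finite F] (h2 : (2 : F) = 0) (hA : B.IsAlt) {P : Submodule F V → Prop} (hP : Inv B Q P)
  (hQ : ∀ x y : Isom B Q, ∀ u v, B u (x.1 u) = B v (y.1 v) → Q (x.1 u - u) = Q (y.1 v - v))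
include hW h2 hA hQ

theorem IT.isConj {g g' : Isom B Q} (h : IT B g.1 s a) (h' : IT B g'.1 s a) : IsConj g g' :=
  (isConj_isom_iff hW (si_of h2 hW.nondegenerate hA ((sub_pow_eq_one_iff g 2).2 h.1))
    (si_of h2 hW.nondegenerate hA ((sub_pow_eq_one_iff g' 2).2 h'.1)) (hQ g g')).2
    ⟨h.2.1.trans h'.2.1.symm, h.2.2.trans h'.2.2.symm⟩

include hP

theorem elu_ik [Nontrivial V] {G : Subgroup (V ≃ₗ[F] V)} (hG : G ≤ Isom B Q)
    (hG' : ∀ g : Isom B Q, Even (finrank F (RU g.1)) → g.1 ∈ G)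
    (hK : IK B (Isom B Q) (k₁ + k₂) w) (h0 : ∃ U, P U) (h1 : 0 < k₁)
    (hP' : ∀ U, P U → Disjoint U (perp B U) ∧ IK (B.domRestrict₁₂ U U) (IU B Q U) k₁ w₁ ∧
      IK (B.domRestrict₁₂ (perp B U) (perp B U)) (IU B Q (perp B U)) k₂ w₂) :
    Elu G 2 (Fx P) ↔ w / 2 ≤ w₁ / 2 + w₂ / 2 := by
  rw [elu_char_two h2 hW hG]
  refine ⟨fun H => ?_, fun H g s a _ h3 h4 => ?_⟩
  · obtain ⟨g, h3⟩ := (hK (2 * (w / 2)) True).2 ⟨fun _ => ⟨even_two_mul _, by omega⟩, by simp⟩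
    refine (w / 2).eq_zero_or_pos.elim (by omega) fun h4 => ?_
    obtain ⟨U, h5, h6⟩ := H g _ _ (hG' g (h3.2.1 ▸ even_two_mul _)) h3 (by omega)
    obtain ⟨h7, h8, h9⟩ := hP' U h5
    obtain ⟨⟨x, y⟩, rfl⟩ := exists_glue hW h7 g h6
    obtain ⟨a1, a2⟩ := (glue_pow_eq_one hW h7).1 ((sub_pow_eq_one_iff _ 2).2 h3.1)
    have a3 := it_self (B := B.domRestrict₁₂ U U) ((sub_pow_eq_one_iff _ 2).1 a1)
    have a4 := it_self (B := B.domRestrict₁₂ _ _) ((sub_pow_eq_one_iff _ 2).1 a2)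
    have a5 := it_glue hW h7 a3 a4
    have a6 := a5.2.2.1 (h3.2.2.2 trivial)
    have a7 := ((h8 _ _).1 ⟨x, a3⟩).1 a6.1
    have a8 := ((h9 _ _).1 ⟨y, a4⟩).1 a6.2
    have a9 := a5.2.1.symm.trans h3.2.1
    simp only [Nat.even_iff] at a7 a8 a9
    omega
  obtain ⟨U, h5⟩ := h0
  obtain ⟨h7, h8, h9⟩ := hP' U h5
  have h6 := (hK s a).1 ⟨g, h3⟩
  obtain ⟨s₁, s₂, a₁, a₂, ⟨x, hx⟩, ⟨y, hy⟩, rfl, rfl⟩ : ∃ s₁ s₂ a₁ a₂,
      (∃ x : IU B Q U, IT (B.domRestrict₁₂ U U) x.1 s₁ a₁) ∧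
      (∃ y : IU B Q (perp B U), IT (B.domRestrict₁₂ _ _) y.1 s₂ a₂) ∧
      s = s₁ + s₂ ∧ a = (a₁ ∧ a₂) := by
    simp only [h8 _ _, h9 _ _, Nat.even_iff] at h6 ⊢
    by_cases ha : a
    · have := h6.1 ha
      exact ⟨min s (2 * (w₁ / 2)), s - min s (2 * (w₁ / 2)), True, True, by simp; omega,
        by simp; omega, by omega, by simp [ha]⟩
    · have := h6.2 ha
      exact ⟨min s k₁, s - min s k₁, False, s ≤ k₁, by simp; omega, by omega, by omega,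
        by simp [ha]⟩
  exact Fx.of_isConj ⟨U, h5, glue_mem hW h7 (x, y)⟩ hP
    ((it_glue hW h7 hx hy).isConj hW h2 hA hQ h3)

end Glue

variable [Finite F] (h2 : (2 : F) = 0)
include h2

theorem elu_sp_two (hB : B.Nondegenerate) (hA : B.IsAlt) (hd : finrank F V = 2 * d) (h0 : 0 < k)
    (hk : k ≤ d) : Elu (SpG B) 2 (Fx (ND B (2 * k))) ↔ Odd d ∨ Even k := by
  have : Nontrivial V := (finrank_pos_iff (R := F)).1 (by omega)
  have hW := isWittPair_alt B hB hA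
  obtain ⟨j, rfl⟩ := Nat.exists_eq_add_of_le hk
  rw [elu_ik hW h2 hA inv_ND (fun _ _ _ _ _ => rfl) le_rfl (fun g _ => g.2) (ik_sp h2 hB hA hd)
    (exists_ND_alt hB hA (by omega)) h0 fun U hU => ⟨hU.2, ik_sp h2 (hU.alt hB hA).1
      (hU.alt hB hA).2 hU.1, ik_sp h2 ((hU.perp hW).alt hB hA).1 ((hU.perp hW).alt hB hA).2
      (by rw [(hU.perp hW).1]; omega)⟩, Nat.odd_iff, Nat.even_iff]
  omega

variable {Q : QuadraticForm F V} (hQ : (polarBilin Q).Nondegenerate) (hd : finrank F V = 2 * d)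
  (h4 : 2 < d)
include hQ hd h4

theorem mem_Om_two (g : OG Q) : g.1 ∈ Om Q ↔ Even (finrank F (RU g.1)) :=
  mem_Om.trans (mem_commutator_iff h2 hQ (reflSub_eq_top hQ (.inr (by omega))) g)

open scoped _root_.Classical in
theorem elu_o_two (h0 : 0 < k) (hk : k < d) {b₁ b₂ : Prop} (hb : IsPlus Q ↔ b)
    (hb' : b ↔ (b₁ ↔ b₂)) : Elu (Om Q) 2 (Fx (NT Q (2 * k) b₁)) ↔ (if b then d else d - 1) / 2 ≤
      (if b₁ then k else k - 1) / 2 + (if b₂ then d - k else d - k - 1) / 2 := by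
  have : Nontrivial V := (finrank_pos_iff (R := F)).1 (by omega)
  have hW := isWittPair_quad Q hQ
  refine elu_ik hW h2 (polar_isAlt h2 Q) inv_NT (quad_RU_congr h2) (Om_le Q)
    (fun g => (mem_Om_two h2 hQ hd h4 g).2) (k₂ := d - k)
    (by rw [add_tsub_cancel_of_le hk.le]; exact ik_o h2 hQ hd (by omega) hb)
    (exists_NT hQ h0 (by omega) b₁) h0 fun U hU => ⟨hU.1.2, ?_, ?_⟩ <;>
    rw [IU_eq, ← polarBilin_comp_subtype]
  · exact ik_o h2 hU.1.nd hU.1.1 h0 hU.2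
  · refine ik_o h2 (hU.1.perp hW).nd (by rw [(hU.1.perp hW).1]; omega) (by omega) ?_
    have := isPlus_iff_perp hQ hU.1 (even_two_mul k) (hd ▸ even_two_mul d)
    have := hU.2
    tauto

omit h2 hQ hd h4 [Finite F] [FiniteDimensional F V] in
/-- Nonsingular points. -/
def NP (Q : QuadraticForm F V) (W : Submodule F V) : Prop := finrank F W = 1 ∧ ∃ v ∈ W, Q v ≠ 0

omit hQ hd h4 [Finite F] [FiniteDimensional F V] in
theorem fx_np_iff {g : OG Q} : Fx (NP Q) g.1.toLinearMap ↔ ∃ v, g.1 v = v ∧ Q v ≠ 0 := by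
  refine ⟨fun ⟨U, ⟨h1, v, hv, h3⟩, h5⟩ => ⟨v, ?_, h3⟩, fun ⟨v, h1, h3⟩ => ⟨F ∙ v,
    ⟨finrank_span_singleton (by rintro rfl; simp at h3), v, Submodule.mem_span_singleton_self v,
      h3⟩, fun u hu => ?_⟩⟩
  · obtain ⟨c, hc⟩ := (finrank_eq_one_iff_of_nonzero' (⟨v, hv⟩ : U) fun h => h3 (by
      rw [show v = 0 from congrArg Subtype.val h, map_zero])).1 h1 ⟨_, h5 v hv⟩
    have h6 : c • v = g.1 v := congrArg Subtype.val hc
    have h7 := g.2.2 v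
    rw [← h6, QuadraticMap.map_smul, smul_eq_mul, mul_left_eq_self₀, or_iff_left h3] at h7
    rw [← h6, sq_inj_two h2 (a := c) (b := 1) (by rw [pow_two, h7, one_pow]), one_smul]
  · obtain ⟨c, rfl⟩ := Submodule.mem_span_singleton.1 hu
    simpa [h1] using hu

theorem elu_np_two : Elu (Om Q) 2 (Fx (NP Q)) ↔ ¬ (IsPlus Q ∧ Even d) := by
  have : Nontrivial V := (finrank_pos_iff (R := F)).1 (by omega)
  have hW := isWittPair_quad Q hQ
  have hK := ik_o h2 hQ hd (by omega) Iff.rfl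
  have key : ∀ (g : OG Q) s a, IT (polarBilin Q) g.1 s a → RU g.1 ≤ perp (polarBilin Q) (RU g.1) ∧
      finrank F (perp (polarBilin Q) (RU g.1)) + s = 2 * d := fun g s a h =>
    ⟨(si_of h2 hQ (polar_isAlt h2 Q) ((sub_pow_eq_one_iff g 2).2 h.1)).le_perp, by
      rw [← h.2.1, ← hd, add_comm, hW.finrank_perp]⟩
  simp only [elu_char_two h2 hW (Om_le Q), fx_np_iff h2]
  refine ⟨fun H ⟨h1, h3⟩ => ?_, fun H g s a _ h1 _ => by_contra fun h3 => H ?_⟩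
  · obtain ⟨g, hg⟩ := (hK d True).2 ⟨fun _ => ⟨h3, by rw [if_pos h1]⟩, by simp⟩
    obtain ⟨v, h5, h6⟩ := H g _ _ ((mem_Om_two h2 hQ hd h4 g).2 (hg.2.1 ▸ h3)) hg (by omega)
    obtain ⟨h7, h8⟩ := key g _ _ hg
    exact h6 ((alt_iff_sing h2 g).1 (hg.2.2.2 trivial) v ((Submodule.eq_of_le_of_finrank_eq h7
      (by rw [hg.2.1]; omega)).ge ((mem_perp_RU hQ g).2 h5)))
  obtain ⟨h7, h8⟩ := key g _ _ h1
  have h5 : ∀ v ∈ perp (polarBilin Q) (RU g.1), Q v = 0 := fun v hv =>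
    by_contra fun h => h3 ⟨v, (mem_perp_RU hQ g).1 hv, h⟩
  have h6 := TS.le_quad hQ (ts_quad_iff.2 ⟨rfl, h5⟩)
  have h9 := ((hK s a).1 ⟨g, h1⟩).1 (h1.2.2.1 ((alt_iff_sing h2 g).2 fun u hu => h5 u (h7 hu)))
  have h0 := Submodule.finrank_mono h7
  rw [h1.2.1] at h0
  exact ⟨(h6.resolve_left (by omega)).2, (show s = d by omega) ▸ h9.1⟩

omit h2 hd h4 in
theorem card_quad_eq_minus (hp : ¬ IsPlus Q) (hm : finrank F V = 2 * m + 2) {c : F} (hc : c ≠ 0) :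
    Nat.card {v // Q v = c} = Nat.card F ^ m * (Nat.card F ^ (m + 1) + 1) := by
  have hW := isWittPair_quad Q hQ
  obtain ⟨e, f, hf⟩ := exists_qFrame_of_le hQ (k := m) (by omega)
  have ha := aniso_of_not_isPlus hQ hf hm hp
  obtain ⟨-, h5, h6⟩ := hf.card_fixSub_eq hQ
  obtain ⟨r, rfl⟩ := exists_quad_eq hQ (by omega) hc
  have h1 := hf.card_norm hW (slideCard_quad Q) (D := 2) hm r
  have h2 : cnt (polarBilin Q) Q (hypSpan F e f) r = Nat.card F + 1 := by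
    rw [← card_quad_eq_of_aniso h5 (by omega) (fun v hv => Subtype.ext (ha _ v.2 hv)) hc]
    exact Nat.card_congr ⟨fun v => ⟨⟨v.1, v.2.1⟩, v.2.2⟩, fun v => ⟨v.1.1, v.1.2, v.2⟩,
      fun _ => rfl, fun _ => rfl⟩
  have h3 : 1 ≤ Nat.card F := Nat.card_pos
  apply Nat.eq_of_mul_eq_mul_left h3
  rw [h1, h2]
  zify [Nat.one_le_pow _ _ h3]; ring

omit hQ hd h4 in
theorem card_np : Nat.card {W // NP Q W} = Nat.card {v // Q v = 1} := by
  have : CharP F 2 := CharTwo.of_one_ne_zero_of_two_eq_zero one_ne_zero h2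
  have h0 : ∀ v : {v // Q v = 1}, v.1 ≠ 0 := fun v h => by simpa [h] using v.2
  refine (Nat.card_congr (Equiv.ofBijective (fun v => ⟨F ∙ v.1, finrank_span_singleton (h0 v), v.1,
    Submodule.mem_span_singleton_self _, by simp [v.2]⟩) ⟨fun v w h => ?_, ?_⟩)).symm
  · obtain ⟨c, hc⟩ := Submodule.mem_span_singleton.1 ((congrArg Subtype.val h).le
      (Submodule.mem_span_singleton_self v.1))
    have h1 := v.2
    rw [← hc, QuadraticMap.map_smul, w.2, smul_eq_mul, mul_one] at h1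
    exact Subtype.ext (by
      rw [← hc, sq_inj_two h2 (a := c) (b := 1) (by rw [pow_two, h1, one_pow]), one_smul])
  · rintro ⟨W, h1, v, hv, h3⟩
    obtain ⟨c, hc⟩ := isSquare_of_charTwo' (Q v)⁻¹
    have h5 : Q (c • v) = 1 := by
      rw [QuadraticMap.map_smul, ← hc, smul_eq_mul, inv_mul_cancel₀ h3]
    exact ⟨⟨c • v, h5⟩, Subtype.ext (Submodule.eq_of_le_of_finrank_eq
      ((Submodule.span_singleton_le_iff_mem _ _).2 (W.smul_mem c hv))
      ((finrank_span_singleton (h0 ⟨_, h5⟩)).trans h1.symm))⟩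

theorem not_elu_np {r : ℕ} [hr : Fact r.Prime] (hr2 : r ≠ 2) (h : r ∣ Nat.card {W // NP Q W}) :
    ¬ Elu (Om Q) r (Fx (NP Q)) := fun H => by
  have := Fintype.ofFinite F
  have : CharP F 2 := CharTwo.of_one_ne_zero_of_two_eq_zero one_ne_zero h2
  have hi := (ord_facts (F := F) 2 hr2).1
  have h1 := dvd_pow_sub_one_iff (r := r) (q := Fintype.card F) Fintype.card_pos
  have h3 : orderOf (Fintype.card F : ZMod r) ∣ 2 * d ∧
      (IsPlus Q ↔ orderOf (Fintype.card F : ZMod r) ∣ d) := by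
    obtain ⟨d, rfl⟩ : ∃ e, d = e + 1 := ⟨d - 1, by omega⟩
    have h5 : ∀ N, r ∣ Fintype.card F ^ d * N → r ∣ N := fun N h => (hr.out.dvd_mul.1 h).resolve_left
      fun h => absurd (val_card_pow (F := F) 2 hr2 d) (padicValNat.eq_zero_iff.not.2 (by
        simp [hr.out.ne_one, h]))
    rw [card_np h2] at h
    by_cases hp : IsPlus Q
    · rw [card_quad_eq_plus hQ hp hd one_ne_zero, Nat.card_eq_fintype_card] at h
      exact ⟨((h1 _).1 (h5 _ h)).mul_left 2, iff_of_true hp ((h1 _).1 (h5 _ h))⟩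
    rw [card_quad_eq_minus hQ hp hd one_ne_zero, Nat.card_eq_fintype_card] at h
    have h6 := Nat.one_le_pow (d + 1) _ (Fintype.card_pos (α := F))
    refine ⟨(h1 _).1 ((h5 _ h).trans ⟨Fintype.card F ^ (d + 1) - 1, by
      rw [← Nat.sq_sub_sq, ← pow_mul, mul_comm, one_pow]⟩), iff_of_false hp fun h7 => hr2 ?_⟩
    refine (Nat.prime_dvd_prime_iff_eq hr.out Nat.prime_two).1 ?_
    convert Nat.dvd_sub (h5 _ h) ((h1 _).2 h7) using 1
    omega
  obtain ⟨s, h5, h6, -⟩ := (cb_id (F := F) 2 hr2 hr2).sharp (kO (2 * d) _ (IsPlus Q))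
  obtain ⟨g, h7, rfl⟩ := ((rk_o 2 hr2 hr2 hQ hd Iff.rfl).1 s).2 ⟨h5, h6.le⟩
  have h8 := card_nt_le 2 hr.out hr2 ((sub_pow_eq_one_iff g r).1 h7)
  rw [h6, kO_two_mul hi, if_neg (by tauto), tsub_zero, mul_right_comm, ← cc_eq, cc_eq', mul_assoc,
    Nat.mul_div_cancel' (ch_dvd_iff.2 h3.1), hd, add_eq_left, Submodule.finrank_eq_zero] at h8
  have h9 : ∀ v, g.1 v = v → v = 0 := fun v hv => (Submodule.mem_bot F).1
    (h8 ▸ LinearMap.mem_ker.2 (sub_eq_zero.2 hv))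
  have : Nontrivial V := (finrank_pos_iff (R := F)).1 (by omega)
  obtain ⟨v, hv, h0⟩ := (fx_np_iff h2).1 ((elu_om_iff hQ (by omega) (hr.out.odd_of_ne_two hr2)
    Fx.of_neg).1 H g h7 (by rintro rfl; exact (exists_ne (0 : V)).elim fun v hv => hv (h9 v rfl)))
  exact h0 (by rw [h9 v hv, map_zero])

omit h2 hQ hd h4 [Finite F]

omit [FiniteDimensional F V] in
/-- `f` is conjugate under `G` to an element of `H`. -/
def Cj (G H : Subgroup (V ≃ₗ[F] V)) (f : End F V) : Prop :=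
  ∃ g ∈ G, ∃ y ∈ H, ∀ v, f (g v) = g (y v)

theorem elu_cj {ι : Type} [Fintype ι] [DecidableEq ι] {G H : Subgroup (GL ι F)} {r : ℕ}
    {G' H' : Subgroup ((ι → F) ≃ₗ[F] (ι → F))} (h : ∀ x, x ∈ G ↔ glEquiv ι F x ∈ G')
    (h' : ∀ x ∈ G, x ∈ H ↔ glEquiv ι F x ∈ H') (hle : H' ≤ G') :
    ((∀ x ∈ G, (∃ z : F, ((x ^ r : GL ι F) : Matrix ι ι F) = z • 1) →
      (∀ z : F, (x : Matrix ι ι F) ≠ z • 1) → ∃ g ∈ G, g⁻¹ * x * g ∈ H) ↔ Elu G' r (Cj G' H')) ∧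
      H.relIndex G * Nat.card H' = Nat.card G' := by
  constructor
  · rw [← elu_GL h]
    refine forall₂_congr fun x hx => forall₂_congr fun _ _ => ⟨fun ⟨g, h1, h2⟩ => ⟨_, (h g).1 h1, _,
      (h' _ (G.mul_mem (G.mul_mem (G.inv_mem h1) hx) h1)).1 h2, fun v => by
        simp [← mul_assoc]⟩, fun ⟨g, h1, y, h2, h3⟩ => ?_⟩
    obtain ⟨g, rfl⟩ := (glEquiv ι F).surjective g
    refine ⟨g, (h g).2 h1, (h' _ (G.mul_mem (G.mul_mem (G.inv_mem ((h g).2 h1)) hx)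
      ((h g).2 h1))).2 ?_⟩
    convert h2
    rw [mul_assoc, map_mul, map_inv, inv_mul_eq_iff_eq_mul, map_mul]
    exact LinearEquiv.ext h3
  · have h1 : G = G'.comap (glEquiv ι F).toMonoidHom := Subgroup.ext h
    have h2 : H ⊓ G = H'.comap (glEquiv ι F).toMonoidHom := Subgroup.ext fun x =>
      ⟨fun hx => (h' x hx.2).1 hx.1, fun hx => ⟨(h' x ((h x).2 (hle hx))).2 hx, (h x).2 (hle hx)⟩⟩
    rw [← Subgroup.inf_relIndex_right, h2, h1, Subgroup.relIndex_comap,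
      Subgroup.map_comap_eq_self_of_surjective (f := (glEquiv ι F).toMonoidHom) (glEquiv ι F).surjective, Subgroup.relIndex,
      ← Nat.card_congr (Subgroup.subgroupOfEquivOfLe hle).toEquiv, Subgroup.index_mul_card]

omit [FiniteDimensional F V] in
theorem cj_iff {G H : Subgroup (V ≃ₗ[F] V)} (hle : H ≤ G) {x : G} :
    Cj G H x.1.toLinearMap ↔ ∃ y : H, IsConj (⟨y.1, hle y.2⟩ : G) x :=
  ⟨fun ⟨g, h1, y, h2, h3⟩ => ⟨⟨y, h2⟩, isConj_iff.2 ⟨⟨g, h1⟩, conj_eq_iff.2 fun v => (h3 v).symm⟩⟩,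
    fun ⟨y, h⟩ => (isConj_iff.1 h).elim fun g hg =>
      ⟨g.1, g.2, y.1, y.2, fun v => (conj_eq_iff.1 hg v).symm⟩⟩

theorem elu_sp_o [Finite F] (h2 : (2 : F) = 0) (hQ : (polarBilin Q).Nondegenerate)
    (hd : finrank F V = 2 * d) (h0 : 0 < d) {r ω : ℕ} [hr : Fact r.Prime] (h : r ∣ ω)
    (hω : ω * Nat.card (OG Q) = Nat.card (SpG (polarBilin Q))) :
    Elu (SpG (polarBilin Q)) r (Cj (SpG (polarBilin Q)) (OG Q)) ↔ r = 2 ∧ (IsPlus Q ∨ Odd d) := by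
  have : Nontrivial V := (finrank_pos_iff (R := F)).1 (by omega)
  have hA := polar_isAlt h2 Q
  have hW := isWittPair_alt _ hQ hA
  have hle : OG Q ≤ SpG (polarBilin Q) := fun g hg => ⟨hg.1, fun _ => rfl⟩
  by_cases hr2 : r = 2
  · subst hr2
    have h1 := ik_o h2 hQ hd h0 Iff.rfl
    have h3 := ik_sp h2 hQ hA hd
    have h4 : ∀ (g : SpG (polarBilin Q)) s a, IT _ g.1 s a → (Cj _ (OG Q) g.1.toLinearMap ↔
        ∃ y : OG Q, IT (polarBilin Q) y.1 s a) := fun g s a hg => (cj_iff hle).trans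
      (exists_congr fun y => ⟨fun h5 => ?_, fun h5 => IT.isConj hW h2 hA (fun _ _ _ _ _ => rfl)
        (g := ⟨y.1, hle y.2⟩) h5 hg⟩)
    · rw [elu_char_two h2 hW le_rfl, Nat.odd_iff]
      refine ⟨fun H => ⟨rfl, by_contra fun h5 => ?_⟩, fun H g s a _ hg _ => (h4 g s a hg).2
        ((h1 s a).2 (((h3 s a).1 ⟨g, hg⟩).imp_left fun h5 h6 => ?_))⟩
      · rw [not_or] at h5
        obtain ⟨g, hg⟩ := (h3 d True).2 ⟨fun _ => ⟨Nat.even_iff.2 (by omega), le_rfl⟩, by simp⟩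
        have := (((h1 _ _).1 ((h4 g _ _ hg).1 (H g _ _ g.2 hg h0))).1 trivial).2
        rw [if_neg h5.1] at this
        omega
      · have := h5 h6
        rw [Nat.even_iff] at this ⊢
        split_ifs with h7
        · exact this
        · have := H.2.resolve_left h7
          omega
    have h6 := (sub_pow_eq_one_iff g 2).2 hg.1
    have h7 := (isConj_one_left.1 (h6 ▸ h5.pow 2 :))
    have h8 := (isConj_isom_iff hW (si_of h2 hQ hA h7) (si_of h2 hQ hA h6) fun _ _ _ => rfl).1 h5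
    exact ⟨(sub_pow_eq_one_iff (⟨y.1, hle y.2⟩ : SpG _) 2).1 h7, h8.1.trans hg.2.1, h8.2.trans hg.2.2⟩
  refine iff_of_false (fun H => ?_) (by simp [hr2])
  have := Fintype.ofFinite F
  have : CharP F 2 := CharTwo.of_one_ne_zero_of_two_eq_zero one_ne_zero h2
  have h1 := rk_o 2 hr2 hr2 hQ hd Iff.rfl
  have h3 := rk_sp 2 hr2 hr2 hQ hA hd
  have h4 := lt_of_val (card_sub_ne_zero _) h hω.dvd h3.2 h1.2
  have h5 := cb_id (F := F) 2 hr2 hr2
  obtain ⟨s, h6, h7, -⟩ := h5.sharp (2 * d / cc (orderOf (Fintype.card F : ZMod r)))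
  obtain ⟨g, h8, rfl⟩ := (h3.1 s).2 ⟨h6, h7.le⟩
  have h9 := Nat.mul_lt_mul_of_pos_left h4 h5.w_pos
  obtain ⟨x, a1, y, a2, a3⟩ := (elu_sp_iff hQ hA (hr.out.odd_of_ne_two hr2) (R := Cj _ (OG Q))
    fun f ⟨x, a1, y, a2, a3⟩ => ⟨x, a1, y, a2, fun v => by
      rw [← a3, LinearMap.neg_apply, ← neg_one_smul F, show (-1 : F) = 1 by
        linear_combination -h2, one_smul]⟩).1 H g h8 (by
      rintro rfl
      rw [show nt (1 : SpG (polarBilin Q)).1.toLinearMap = 0 from nt_one, Multiset.card_zero] at h7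
      omega)
  have a4 : Sim y.toLinearMap g.1.toLinearMap := ⟨x, fun v => (a3 v).symm⟩
  have := ((h1.1 _).1 ⟨⟨y, a2⟩, (sub_pow_eq_one_iff _ r).2 (orderOf_dvd_iff_pow_eq_one.1
    (a4.orderOf_eq ▸ orderOf_dvd_of_pow_eq_one ((sub_pow_eq_one_iff g r).1 h8))),
    (sim_iff_nt rfl).1 a4⟩).2
  omega

end CF.Cls
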