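/-
Elements of prime order of unitary groups and their invariant subspaces.
-/
import Cfsg.Agent.Cls.El9
import Cfsg.Agent.Cls.GU

set_option autoImplicit false

namespace CF.Cls

open Polynomial Module CF.Geom CF.Classical

universe u

variable {F : Type*} {V : Type u} [Field F] [AddCommGroup V] [Module F V] {σ : F →+* F}
  {B : V →ₛₗ[σ] V →ₗ[F] F} {m n k r q : ℕ} {U U' : Submodule F V}

/-- Totally isotropic subspaces of a Hermitian space. -/
abbrev TU (B : V →ₛₗ[σ] V →ₗ[F] F) (m : ℕ) : Submodule F V → Prop := TS B (fun x => B x x) m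

theorem ts_herm_iff : TU B m U ↔ finrank F U = m ∧ ∀ u ∈ U, ∀ v ∈ U, B u v = 0 := by
  rw [TU, TS, le_perp_iff]
  exact and_congr_right fun _ => ⟨fun h => h.2, fun h => ⟨fun u hu => by simp [h u hu u hu], h⟩⟩

theorem coe_sub_pow {H : Subgroup (V ≃ₗ[F] V)} (x : H) (m : ℕ) :
    (x ^ m).1.toLinearMap = x.1.toLinearMap ^ m :=
  map_pow (LinearEquiv.automorphismGroup.toLinearMapMonoidHom.comp H.subtype) x m

theorem exists_smul_UG (g : UG B) {c : F} (hc : σ c * c = 1) :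
    ∃ y : UG B, y.1.toLinearMap = c • g.1.toLinearMap :=
  ⟨⟨g.1.trans (LinearEquiv.smulOfNeZero F V c (right_ne_zero_of_mul_eq_one hc)), mem_UG.2
    fun u v => by simp [UG_map, ← mul_assoc, mul_comm c (σ c), hc]⟩, by ext; simp⟩

theorem map_cr_facts [FiniteDimensional F V] (hσ : ∀ x, σ (σ x) = x) {f : End F V} (hf : IsUnit f)
    {s : Multiset F[X]} (h : s ≤ ed f) : (s.map (cr σ)).map (cr σ) = s ∧
      (s.map (cr σ)).map natDegree = s.map natDegree := by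
  have h1 := fun a ha => coeff_ne_zero_of_isUnit hf a (Multiset.mem_of_le h ha)
  rw [Multiset.map_map, Multiset.map_map]
  exact ⟨(Multiset.map_congr rfl fun a ha => cr_cr hσ (ed_isPP _ a (Multiset.mem_of_le h ha)).monic
    (h1 a ha)).trans s.map_id', Multiset.map_congr rfl fun a ha => natDegree_cr (h1 a ha)⟩

theorem exists_aut_ed [FiniteDimensional F V] {W : Type*} [AddCommGroup W] [Module F W]
    [FiniteDimensional F W] {g : End F V} (hg : IsUnit g) {s : Multiset F[X]} (h : s ≤ ed g)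
    (hd : (s.map natDegree).sum = finrank F W) : ∃ f : W ≃ₗ[F] W, ed f.toLinearMap = s := by
  obtain ⟨f, hf⟩ := exists_end_ed s (fun a ha => ed_isPP _ a (Multiset.mem_of_le h ha)) hd
  exact ⟨LinearMap.GeneralLinearGroup.toLinearEquiv ((isUnit_iff_ed f).2 fun a ha =>
    (isUnit_iff_ed _).1 hg a (Multiset.mem_of_le h (hf ▸ ha))).unit, hf⟩

section Geo

variable (h : EH σ 1 B) (hσ : σ ≠ RingHom.id F)
include h hσ

theorem EH.wp : IsWittPair σ B (fun x => B x x) := (h.isHerm hσ).wittPair h.nondegenerate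

theorem EH.dr (hU : Disjoint U (perp B U)) : EH σ 1 (B.domRestrict₁₂ U U) :=
  eh_symm h.invol ((h.wp hσ).restrict hU).nondegenerate ((h.isHerm hσ).restrict U).symm

omit hσ in
theorem EH.norm_scalar [Nontrivial V] (g : UG B) {z : F}
    (hz : g.1.toLinearMap ^ r = algebraMap F _ z) : σ z * z = 1 := by
  obtain ⟨u, hu⟩ := exists_ne (0 : V)
  obtain ⟨v, hv⟩ := not_forall.1 (mt (h.nondeg u) hu)
  have h1 := UG_map (g ^ r) u v
  have h2 : ∀ x, (g ^ r).1 x = z • x := LinearMap.congr_fun ((coe_sub_pow g r).trans hz)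
  rw [h2, h2] at h1
  exact mul_right_cancel₀ hv (by simpa [mul_assoc, mul_left_comm z] using h1)

variable [FiniteDimensional F V] [Finite F]

theorem EH.exists_TU (hm : 2 * m ≤ finrank F V) : ∃ U, TU B m U := by
  obtain ⟨k, e, f, h1, -, h2, -⟩ := exists_witt_decomp_herm (h.isHerm hσ) h.nondegenerate
  obtain ⟨U, -, h⟩ := (ts_span (h.wp hσ) h1).exists_le (k := m) (by omega)
  exact ⟨U, h⟩

theorem EH.orbit_ND (h1 : ND B m U) (h2 : ND B m U') :
    ∃ g ∈ UG B, U.map (g : V →ₗ[F] V) = U' := by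
  obtain ⟨φ, hφ⟩ := exists_equiv_herm hσ h.invol ((h.isHerm hσ).restrict U).symm
    (h.dr hσ h1.2).nondegenerate ((h.isHerm hσ).restrict U').symm (h.dr hσ h2.2).nondegenerate
    (h1.1.trans h2.1.symm)
  obtain ⟨g, h1, h2, -⟩ := (h.wp hσ).exists_isom_map_eq φ hφ fun x => hφ x x
  exact ⟨g, h1, h2⟩

theorem EH.exists_UG_le {W : Type*} [AddCommGroup W] [Module F W] [FiniteDimensional F W]
    {f : End F W} (hf : IsUnit f) {s : Multiset F[X]} (h1 : s ≤ ed f) (hc : s.map (cr σ) = s)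
    (hd : (s.map natDegree).sum = finrank F V) : ∃ x : UG B, ed x.1.toLinearMap = s :=
  h.exists_UG hσ (fun a ha => ed_isPP f a (Multiset.mem_of_le h1 ha))
    (fun a ha => (isUnit_iff_ed f).1 hf a (Multiset.mem_of_le h1 ha)) hc hd

theorem EH.fx_nd_iff (g : UG B) : Fx (ND B m) g.1.toLinearMap ↔
    ∃ s ≤ ed g.1.toLinearMap, s.map (cr σ) = s ∧ (s.map natDegree).sum = m := by
  refine ⟨fun ⟨U, h1, h2⟩ => ?_, fun ⟨s, h1, h2, h3⟩ => ?_⟩
  · obtain ⟨x, rfl⟩ := exists_glue (h.wp hσ) h1.2 g h2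
    exact ⟨_, ed_glue (h.wp hσ) h1.2 x ▸ Multiset.le_add_right _ _,
      (h.dr hσ h1.2).ed_pres (pres_UG x.1), (finrank_eq_ed _).symm.trans h1.1⟩
  have h4 := h.pres_isUnit (pres_UG g)
  obtain ⟨t, ht⟩ := exists_add_of_le h1
  have h5 := h.ed_pres (pres_UG g)
  rw [ht, Multiset.map_add, h2, add_right_inj] at h5
  have e := eh_hermSesq h.invol
  obtain ⟨x, hx⟩ := (e (Fin m)).exists_UG_le hσ h4 h1 h2 (by simp [h3])
  obtain ⟨y, hy⟩ := (e (Fin (t.map natDegree).sum)).exists_UG_le hσ h4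
    (ht ▸ Multiset.le_add_left _ _) h5 (by simp)
  obtain ⟨Z, h6, h7⟩ := ((e _).osum (e _)).exists_isom_of_sim h hσ
    ((pres_UG x).prodMap (pres_UG y)) (pres_UG g) (sim_iff_ed.2 (by rw [ed_prodMap, hx, hy, ht]))
  have := nd_range (B := B) (φ := Z.toLinearMap ∘ₗ LinearMap.inl F _ _) fun w hw =>
    (e _).nondeg' w fun v => by simpa [h6, osum] using hw v
  rw [finrank_fin_fun] at this
  exact fx_range _ (f := x.1.toLinearMap) (fun w => by simp [← h7]) this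

theorem EH.fx_tu_of {g : UG B} {s : Multiset F[X]} (h1 : s + s.map (cr σ) ≤ ed g.1.toLinearMap)
    (h3 : (s.map natDegree).sum = m) : Fx (TU B m) g.1.toLinearMap := by
  have h4 := h.pres_isUnit (pres_UG g)
  have h0 := (Multiset.le_add_right _ _).trans h1
  have h8 := map_cr_facts h.invol h4 h0
  obtain ⟨t, ht⟩ := exists_add_of_le h1
  have h5 := h.ed_pres (pres_UG g)
  rw [ht, Multiset.map_add, Multiset.map_add, h8.1, add_comm _ s, add_right_inj] at h5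
  have h6 := finrank_eq_ed g.1.toLinearMap
  rw [ht, Multiset.map_add, Multiset.map_add, h8.2, Multiset.sum_add, Multiset.sum_add, h3] at h6
  obtain ⟨U, hU⟩ := h.exists_TU hσ (m := m) (by omega)
  obtain ⟨H, hH, h7, h9⟩ := exists_levi (h.wp hσ) h.invol hU
  obtain ⟨f, hf⟩ := exists_aut_ed (W := U) h4 h0 (h3.trans hU.1.symm)
  obtain ⟨x, hx, hx'⟩ := h9 f
  obtain ⟨y, hy⟩ := (h.dr hσ (hH.nd.perp (h.wp hσ)).2).exists_UG_le hσ h4
    (ht ▸ Multiset.le_add_left _ _) h5 (by rw [hH.nd.finrank_perp (h.wp hσ)]; omega)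
  refine Fx.of_isConj (x := Cls.glue (h.wp hσ) hH.1 (x, y)) ⟨U, hU, fun u hu => ?_⟩ inv_TS
    ((h.isConj_UG_iff hσ _ _).2 (sim_iff_ed.2 ?_))
  · exact (glue_left _ hH.1 (x, y) ⟨u, h7 hu⟩).symm ▸ hx ⟨u, h7 hu⟩ hu
  · rw [ed_glue, hx', hy, ht, hf]

omit [Finite F] in
theorem EH.of_fx_tu {g : UG B} (hs : End.IsSemisimple g.1.toLinearMap)
    (h1 : Fx (TU B m) g.1.toLinearMap) :
    ∃ s, s + s.map (cr σ) ≤ ed g.1.toLinearMap ∧ (s.map natDegree).sum = m := by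
  obtain ⟨U, hU, h2⟩ := h1
  obtain ⟨H, hH, x, h3, h4⟩ := exists_hypU_of_inv (h.wp hσ) h.invol g hs hU h2
  exact ⟨_, by rw [← h4, ← h3, ed_glue]; exact Multiset.le_add_right _ _,
    (finrank_eq_ed _).symm.trans hU.1⟩

theorem EH.exists_ND (hm : m ≤ finrank F V) : ∃ U, ND B m U := by
  obtain ⟨U, hU, -⟩ := (h.fx_nd_iff hσ (m := m) 1).2 ⟨Multiset.replicate m (X - 1), by
    rw [show (1 : UG B).1.toLinearMap = 1 from rfl, ed_one]
    exact Multiset.replicate_le_replicate _ |>.2 hm, by simp [cr_X_sub_one],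
    by simp [natDegree_X_sub_one]⟩
  exact ⟨U, hU⟩

omit [Finite F] in
theorem EH.elu_su_iff [Nontrivial V] (hr : r ≠ 0) {P : Submodule F V → Prop} :
    Elu (SUG B) r (Fx P) ↔ (∀ y : UG B, y ^ r = 1 → (∀ z : F, y.1.toLinearMap ≠ algebraMap F _ z) →
      (∃ c, σ c * c = 1 ∧ c ^ finrank F V * LinearMap.det y.1.toLinearMap = 1) →
      Fx P y.1.toLinearMap) ∧ ∀ (x : UG B) (z : F), (∀ c, σ c * c = 1 → c ^ r ≠ z) →
      x.1.toLinearMap ^ r = algebraMap F _ z → LinearMap.det x.1.toLinearMap = 1 →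
      Fx P x.1.toLinearMap := by
  have e : ∀ (c d : F) (f : End F V), c ≠ 0 → c • f = algebraMap F _ d →
      f = algebraMap F _ (c⁻¹ * d) := fun c d f hc hd => by
    rw [map_mul, ← hd, ← Algebra.smul_def, smul_smul, inv_mul_cancel₀ hc, one_smul]
  refine ⟨fun H => ⟨fun y h1 h2 ⟨c, h3, h4⟩ => ?_, fun x z h1 h2 h3 => H _ (mem_SUG.2 ⟨x.2.1, h3⟩)
    ⟨z, h2⟩ fun c hc => h1 c (h.norm_scalar x (r := 1) (by rwa [pow_one])) ?_⟩,
    fun ⟨H1, H2⟩ g hg ⟨z, hz⟩ h1 => ?_⟩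
  · obtain ⟨x, hx⟩ := exists_smul_UG y h3
    have h5 := right_ne_zero_of_mul_eq_one h3
    rw [← fx_smul_iff h5, ← hx]
    refine H _ (mem_SUG.2 ⟨x.2.1, by rw [hx, LinearMap.det_smul, h4]⟩) ⟨c ^ r, ?_⟩
      fun d hd => h2 _ (e c d _ h5 (hx ▸ hd))
    rw [hx, _root_.smul_pow, (sub_pow_eq_one_iff y r).1 h1, Algebra.algebraMap_eq_smul_one]
  · exact (algebraMap F (End F V)).injective (by rw [map_pow, ← hc, h2])
  by_cases h2 : ∀ c, σ c * c = 1 → c ^ r ≠ z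
  · exact H2 ⟨g, hg.1⟩ z h2 hz (mem_SUG.1 hg).2
  push Not at h2
  obtain ⟨c, h2, rfl⟩ := h2
  have h5 := right_ne_zero_of_mul_eq_one h2
  obtain ⟨y, hy⟩ := exists_smul_UG ⟨g, hg.1⟩ (c := c⁻¹) (by rw [map_inv₀, ← mul_inv, h2, inv_one])
  rw [← fx_smul_iff (inv_ne_zero h5), ← hy]
  refine H1 y ((sub_pow_eq_one_iff y r).2 ?_) (fun d hd => h1 _ (e _ d _ (inv_ne_zero h5)
    (hy ▸ hd))) ⟨c, h2, ?_⟩
  · rw [hy, _root_.smul_pow, hz, Algebra.algebraMap_eq_smul_one, smul_smul, inv_pow,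
      inv_mul_cancel₀ (pow_ne_zero _ h5), one_smul]
  · rw [hy, LinearMap.det_smul, (mem_SUG.1 hg).2, mul_one, ← mul_pow, mul_inv_cancel₀ h5, one_pow]

end Geo

/-- The factors of the order of a unitary group. -/
def aU (q j : ℕ) : ℕ := if Even j then q ^ (j + 1) + 1 else q ^ (j + 1) - 1

/-- The order of `q ^ 2` for `q` of order `i`. -/
def bU (i : ℕ) : ℕ := if Even i then i / 2 else i

/-- The number of factors in a minimal block. -/
def wU (i : ℕ) : ℕ := if i % 4 = 2 then 1 else 2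

/-- The order of `-q` for `q` of order `i`. -/
def cU (i : ℕ) : ℕ := if i % 4 = 0 then i else if i % 4 = 2 then i / 2 else 2 * i

theorem cU_eq (i : ℕ) : cU i = wU i * bU i := by
  simp only [cU, wU, bU, Nat.even_iff]
  split_ifs <;> omega

/-- No element of order `r` of `PSU_n(q)` has its `r`-th power a non-`r`-th power scalar. -/
def UCond (r n q : ℕ) : Prop := padicValNat r n ≤ padicValNat r (q + 1) ∧ (r = 2 → Even n → q % 4 = 3)

theorem aU_ne_zero (hq : 1 < q) (j : ℕ) : aU q j ≠ 0 := by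
  unfold aU
  split_ifs
  · omega
  · exact Nat.sub_ne_zero_of_lt (Nat.one_lt_pow (by omega) hq)

theorem neg_pow_iff [hr : Fact r.Prime] (hr2 : r ≠ 2) (hq : (q : ZMod r) ≠ 0) :
    (∃ j, Odd j ∧ (q : ZMod r) ^ j = -1) ↔ orderOf (q : ZMod r) % 4 = 2 := by
  have : Fact (2 < r) := ⟨two_lt_of_ne hr.out hr2⟩
  have h0 : 0 < orderOf (q : ZMod r) := by
    rw [show (q : ZMod r) = Units.mk0 _ hq from rfl, orderOf_units]; exact orderOf_pos _
  refine ⟨fun ⟨j, h1, h2⟩ => ?_, fun h => ⟨orderOf (q : ZMod r) / 2, Nat.odd_iff.2 (by omega), ?_⟩⟩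
  · have h3 : orderOf (q : ZMod r) ∣ j * 2 := orderOf_dvd_of_pow_eq_one (by
      rw [pow_mul, h2, neg_one_sq])
    have h4 : ¬ orderOf (q : ZMod r) ∣ j := fun h4 =>
      ZMod.neg_one_ne_one (h2.symm.trans (orderOf_dvd_iff_pow_eq_one.1 h4))
    rcases Nat.even_or_odd (orderOf (q : ZMod r)) with ⟨k, hk⟩ | h5
    · by_contra h5
      have := (show 4 ∣ orderOf (q : ZMod r) by omega).trans h3
      have := Nat.odd_iff.1 h1
      omega
    · exact absurd ((Nat.coprime_two_right.2 h5).dvd_of_dvd_mul_right h3) h4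
  · refine (sq_eq_one_iff.1 ?_).resolve_left (pow_ne_one_of_lt_orderOf (by omega) (by omega))
    rw [← pow_mul, Nat.div_mul_cancel (by omega), pow_orderOf_eq_one]

theorem cU_dvd [hr : Fact r.Prime] (hr2 : r ≠ 2) (hq : (q : ZMod r) ≠ 0) {j : ℕ} (h : r ∣ aU q j) :
    cU (orderOf (q : ZMod r)) ∣ j + 1 ∧ (Even j → orderOf (q : ZMod r) % 4 = 2) := by
  unfold aU at h
  split_ifs at h with h1
  · rw [← ZMod.natCast_eq_zero_iff, Nat.cast_add, Nat.cast_pow, Nat.cast_one,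
      add_eq_zero_iff_eq_neg] at h
    have h2 := (neg_pow_iff hr2 hq).1 ⟨_, h1.add_one, h⟩
    have h3 : orderOf (q : ZMod r) ∣ (j + 1) * 2 := orderOf_dvd_of_pow_eq_one (by
      rw [pow_mul, h, neg_one_sq])
    rw [cU, if_neg (by omega), if_pos h2]
    exact ⟨Nat.dvd_of_mul_dvd_mul_right two_pos (by rwa [Nat.div_mul_cancel (by omega)]),
      fun _ => h2⟩
  · rw [dvd_pow_sub_one_iff (Nat.pos_of_ne_zero (by rintro rfl; simp at hq))] at h
    refine ⟨?_, fun h2 => absurd h2 h1⟩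
    unfold cU
    split_ifs
    · exact h
    · exact (Nat.div_dvd_of_dvd (by omega)).trans h
    · exact Nat.Coprime.mul_dvd_of_dvd_of_dvd (Nat.coprime_two_left.2 (Nat.odd_iff.2 (by omega)))
        (by rw [Nat.even_iff] at h1; omega) h

variable [Fintype F] (hF : Fintype.card F = q ^ 2) (p : ℕ) [hp : Fact p.Prime] [CharP F p]
  [hr : Fact r.Prime]
include hF

local notation "𝐢" => orderOf (q : ZMod r)
local notation "𝐛" => orderOf (Fintype.card F : ZMod r)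

omit [Field F] in
theorem ord_sq : 𝐛 = bU 𝐢 := by
  rw [hF, Nat.cast_pow, orderOf_pow' _ two_ne_zero, bU]
  split_ifs with h
  · rw [Nat.gcd_eq_right h.two_dvd]
  · rw [Nat.coprime_two_right.2 (Nat.not_even_iff_odd.1 h), Nat.div_one]

omit hr in
theorem q_facts : 1 < q ∧ p ∣ q ∧ ∃ k, q = p ^ k := by
  obtain ⟨m, -, hm⟩ := FiniteField.card F p
  obtain ⟨k, -, hk⟩ := (Nat.dvd_prime_pow hp.out).1
    (show q ∣ p ^ (m : ℕ) by rw [← hm, hF]; exact dvd_pow_self q two_ne_zero)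
  have h1 : 1 < q := (Nat.one_lt_pow_iff two_ne_zero).1 (hF ▸ Fintype.one_lt_card)
  exact ⟨h1, hk ▸ dvd_pow_self p (by rintro rfl; simp [hk] at h1), k, hk⟩

theorem q_ne_zero (hrp : r ≠ p) : (q : ZMod r) ≠ 0 := fun h => by
  have h0 := orderOf_card_pos (F := F) p hr.out hrp
  rw [hF, Nat.cast_pow, h, zero_pow two_ne_zero, orderOf_zero] at h0
  omega

theorem ne_of_dvd_succ (h : r ∣ q + 1) : r ≠ p := by
  rintro rfl
  exact hr.out.one_lt.ne' (Nat.dvd_one.1 ((Nat.dvd_add_right (q_facts hF r).2.1).1 h))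

theorem dvd_succ_iff (hrp : r ≠ p) : r ∣ q + 1 ↔ r = 2 ∨ 𝐢 = 2 := by
  rcases eq_or_ne r 2 with rfl | hr2
  · have := mt (ZMod.natCast_eq_zero_iff q 2).2 (q_ne_zero hF p hrp)
    exact iff_of_true (by omega) (.inl rfl)
  have : Fact (2 < r) := ⟨two_lt_of_ne hr.out hr2⟩
  rw [or_iff_right hr2, ← ZMod.natCast_eq_zero_iff, Nat.cast_add, Nat.cast_one,
    add_eq_zero_iff_eq_neg]
  refine ⟨fun h => by rw [h, orderOf_neg_one, if_neg (by rwa [ringChar.eq _ r])], fun h => ?_⟩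
  exact (sq_eq_one_iff.1 (h ▸ pow_orderOf_eq_one _)).resolve_left fun h1 => by simp [h1] at h

variable (hq : ∀ x, σ x = x ^ q) (hσ : σ ≠ RingHom.id F) (h : EH σ 1 B) [FiniteDimensional F V]
include hq h

omit [FiniteDimensional F V] in
theorem EH.cr_eq_iff (hrp : r ≠ p) {π : F[X]} (hπ : π ∈ facs F r) :
    cr σ π = π ↔ ∃ j, Odd j ∧ (q : ZMod r) ^ j = -1 := by
  rw [Cls.cr_eq_iff hq h.invol hr.out p hrp (q_facts hF p).2.2 hπ, hF, Nat.cast_pow]
  refine ⟨fun ⟨j, hj⟩ => ?_, fun ⟨_, ⟨k, rfl⟩, hk⟩ => ⟨k + 1, by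
    rw [← pow_mul, mul_add, pow_add, pow_succ] at *; linear_combination q * hk⟩⟩
  rcases j with _ | j
  · exact ⟨1, odd_one, by linear_combination hj⟩
  · exact ⟨2 * j + 1, ⟨j, rfl⟩, mul_left_cancel₀ (q_ne_zero hF p hrp) (by linear_combination hj)⟩

omit [FiniteDimensional F V] in
theorem EH.cb (hrp : r ≠ p) {w : ℕ} (hw : w = 1 ∨ w = 2)
    (h1 : w = 1 ↔ ∃ j, Odd j ∧ (q : ZMod r) ^ j = -1) :
    CB (facs F r) (cr σ) w (if w = 1 then (r - 1) / 𝐛 else 1) where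
  mem a ha := cr_mem_facs h.invol hr.out p hrp ha
  inv a ha := cr_cr h.invol (mem_facs.1 ha).1 (coeff_ne_zero_of_facs hr.out ha)
  ne := facs_nonempty p hrp
  cs := by
    split_ifs with h2
    · exact .inr ⟨h2, by rw [← (facs_spec (F := F) p hr.out hrp).2, Nat.mul_div_cancel _
        (orderOf_card_pos p hr.out hrp)], fun a ha => (h.cr_eq_iff hF p hq hrp ha).2 (h1.1 h2)⟩
    · exact .inl ⟨hw.resolve_left h2, rfl, fun a ha h3 =>
        h2 (h1.2 ((h.cr_eq_iff hF p hq hrp ha).1 h3))⟩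

include hσ

omit hF hq in
theorem EH.rz (hrp : r ≠ p) {w T : ℕ} (hC : CB (facs F r) (cr σ) w T) (hn : finrank F V = n) :
    RzK σ (UG B) r (w * (n / (w * 𝐛))) := fun s => by
  have h0 := orderOf_card_pos (F := F) p hr.out hrp
  have h1 : Sb (facs F r) (cr σ) s → (s.card ≤ w * (n / (w * 𝐛)) ↔ s.card * 𝐛 ≤ n) := fun hs => by
    obtain ⟨k, hk⟩ := hC.dvd hs
    rw [hk, Nat.mul_le_mul_left_iff hC.w_pos, Nat.le_div_iff_mul_le (Nat.mul_pos hC.w_pos h0),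
      mul_left_comm, mul_assoc]
  refine ⟨fun ⟨g, h2, h3⟩ => ?_, fun ⟨h2, h3⟩ => ?_⟩
  · rw [sub_pow_eq_one_iff] at h2
    have h4 := card_nt_le p hr.out hrp h2
    have h5 : Sb (facs F r) (cr σ) s :=
      h3 ▸ ⟨(pow_eq_one_iff_nt p hr.out hrp _).1 h2, h.nt_pres (pres_UG g)⟩
    exact ⟨h5, (h1 h5).2 (by rw [← h3]; omega)⟩
  obtain ⟨f, h4, h5⟩ := exists_nt (V := V) p hr.out hrp h2.1 (hn ▸ (h1 h2).1 h3)
  obtain ⟨c, h6, -⟩ := ed_eq_nt f
  obtain ⟨x, hx⟩ := h.exists_UG_le hσ (IsUnit.of_pow_eq_one h4 hr.out.ne_zero) le_rfl (by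
    rw [h6, h5, Multiset.map_add, h2.2, Multiset.map_replicate, cr_X_sub_one])
    (finrank_eq_ed f).symm
  have h7 := (sim_iff_nt rfl).1 (sim_iff_ed.2 hx)
  exact ⟨x, (sub_pow_eq_one_iff x r).2 ((pow_eq_one_iff_nt p hr.out hrp _).2
    (by rw [h7, h5]; exact h2.1)), h7.trans h5⟩

theorem EH.val_card (hrp : r ≠ p) (hn : finrank F V = n) :
    padicValNat r (Nat.card (UG B)) = vs r (aU q) n := by
  have h1 := (q_facts hF p).1
  have h2 := Finset.prod_ne_zero_iff.2 fun j (_ : j ∈ Finset.range n) => aU_ne_zero h1 j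
  unfold aU at h2
  rw [card_UG hF hq n (h.isHerm hσ) h.nondegenerate hn, padicValNat.mul (by positivity) h2,
    padicValNat.eq_zero_of_not_dvd
      fun h2 => q_ne_zero hF p hrp ((ZMod.natCast_eq_zero_iff _ _).2 (hr.out.dvd_of_dvd_pow h2)),
    zero_add]
  exact val_prod (aU_ne_zero h1) n

omit [FiniteDimensional F V] hσ in
theorem EH.cb' (hr2 : r ≠ 2) (hrp : r ≠ p) :
    CB (facs F r) (cr σ) (wU 𝐢) (if wU 𝐢 = 1 then (r - 1) / 𝐛 else 1) :=
  h.cb hF p hq hrp (by unfold wU; split_ifs <;> simp) (by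
    rw [neg_pow_iff hr2 (q_ne_zero hF p hrp), wU]; split_ifs with h <;> simp [h])

theorem EH.rk (hr2 : r ≠ 2) (hrp : r ≠ p) (hn : finrank F V = n) :
    RK σ (UG B) r (wU 𝐢) (aU q) (cU 𝐢) (n / cU 𝐢) :=
  ⟨by rw [cU_eq, ← ord_sq hF]; exact h.rz p hσ hrp (h.cb' hF p hq hr2 hrp) hn,
    (h.val_card hF p hq hσ hrp hn).trans
      (vs_eq (fun _ h => (cU_dvd hr2 (q_ne_zero hF p hrp) h).1) n)⟩

omit hF hq hr in
theorem EH.uq : UQ (UG B) r := fun x y _ => (h.isConj_UG_iff hσ x y).2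

omit p hp in
theorem EH.elu_su_of_not_dvd [Nontrivial V] (h1 : ¬ r ∣ q + 1) {P : Submodule F V → Prop} :
    Elu (SUG B) r (Fx P) ↔ ∀ g : UG B, g ^ r = 1 → g ≠ 1 → Fx P g.1.toLinearMap := by
  have h2 : r.Coprime (Nat.card (normOne σ)) := by
    rw [card_normOne hF hq]; exact (Nat.Prime.coprime_iff_not_dvd hr.out).2 h1
  have h3 : ∀ c : normOne σ, c ^ r = 1 → c = 1 := fun c hc =>
    (pow_eq_one_iff_of_coprime h2).1 ⟨hc, pow_card_eq_one'⟩
  rw [h.elu_su_iff hσ hr.out.ne_zero, and_iff_left fun x z h4 h5 _ => ?_]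
  · refine forall₂_congr fun g hg => ⟨fun H h4 => H (fun z hz => h4 ?_) ⟨1, by simp, ?_⟩,
      fun H h4 _ => H fun h5 => h4 1 (by rw [h5, map_one]; rfl)⟩
    · have h5 := h.norm_scalar g (r := 1) (by rwa [pow_one])
      have h6 := h3 ⟨Units.mk0 z (right_ne_zero_of_mul_eq_one h5), h5⟩ (Subtype.ext (Units.ext
        ((algebraMap F (End F V)).injective (by
          simpa [← hz] using (sub_pow_eq_one_iff g r).1 hg))))
      rw [show z = 1 from congrArg (·.1.1) h6, map_one] at hz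
      simpa using (sub_pow_eq_one_iff g 1).2 (by rwa [pow_one])
    · rw [one_pow, one_mul, ← udet_coe h.nondegenerate, h3 (udet _ g) (by rw [← map_pow, hg, map_one])]; rfl
  · have h6 := h.norm_scalar x h5
    obtain ⟨c, hc⟩ := (powCoprime h2.symm).surjective
      ⟨Units.mk0 z (right_ne_zero_of_mul_eq_one h6), h6⟩
    exact absurd (congrArg (·.1.1) hc) (h4 _ c.2)

theorem EH.u_ts (hrp : r ≠ p) (h1 : ¬ r ∣ q + 1) (hn : finrank F V = n) (h0 : 0 < m)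
    (hm : 2 * m ≤ n) (hd : r ∣ Nat.card {W // TU B m W}) :
    Elu (SUG B) r (Fx (TU B m)) ↔ bU 𝐢 ≤ m ∧ 2 * (m % bU 𝐢) ≤ n % cU 𝐢 ∧
      (𝐢 % 4 ≠ 2 ∨ (r - 1) / bU 𝐢 + 2 * (m / bU 𝐢) ≤ n / bU 𝐢) := by
  have : Nontrivial V := (finrank_pos_iff (R := F)).1 (by omega)
  have hr2 : r ≠ 2 := fun h2 => h1 ((dvd_succ_iff hF p hrp).2 (.inl h2))
  have hW := h.wp hσ
  obtain ⟨h2, h3⟩ := ts_main (h.cb' hF p hq hr2 hrp) hW (h.uq hσ) (h.rk hF p hq hσ hr2 hrp hn)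
    p hrp h.invol (h.exists_TU hσ (hn ▸ hm)) (fun H hH => (h.dr hσ (hH.nd.perp hW).2).rk hF p hq hσ
      hr2 hrp (hn ▸ hH.nd.finrank_perp hW)) hd
  have hi := orderOf_card_pos (F := F) p hr.out hrp
  rw [h.elu_su_of_not_dvd hF hq hσ h1, h3]
  rw [ord_sq hF] at *
  rw [cU_eq] at *
  clear h3
  by_cases h4 : 𝐢 % 4 = 2
  · have := carry_ts hi hm (.inl ⟨rfl, rfl⟩)
    rw [wU, if_pos h4, one_mul] at *
    rw [if_pos rfl]
    omega
  · have := carry_ts hi hm (.inr ⟨rfl, rfl⟩)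
    rw [wU, if_neg h4] at *
    omega

theorem EH.u_nd (hrp : r ≠ p) (h1 : ¬ r ∣ q + 1) (hn : finrank F V = n) (h0 : 0 < m)
    (hm : m ≤ n) (hd : r ∣ Nat.card {W // ND B m W}) :
    Elu (SUG B) r (Fx (ND B m)) ↔ cU 𝐢 ≤ m ∧ m % cU 𝐢 ≤ n % cU 𝐢 := by
  have : Nontrivial V := (finrank_pos_iff (R := F)).1 (by omega)
  have hr2 : r ≠ 2 := fun h2 => h1 ((dvd_succ_iff hF p hrp).2 (.inl h2))
  have hW := h.wp hσ
  obtain ⟨h2, h3, h4⟩ := nd_main (h.cb' hF p hq hr2 hrp) hW (h.uq hσ) (h.rk hF p hq hσ hr2 hrp hn)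
    inv_ND (h.exists_ND hσ (hn ▸ hm)) (fun U hU => ⟨hU.2, (h.dr hσ hU.2).rk hF p hq hσ hr2 hrp hU.1,
      (h.dr hσ (hU.perp hW).2).rk hF p hq hσ hr2 hrp (hn ▸ hU.finrank_perp hW)⟩)
    (fun U W => h.orbit_ND hσ) hd
  have h5 := carry_nd (cU_eq 𝐢 ▸ Nat.mul_pos (h.cb' hF p hq hr2 hrp).w_pos
    (ord_sq (r := r) hF ▸ orderOf_card_pos (F := F) p hr.out hrp)) hm
  rw [h.elu_su_of_not_dvd hF hq hσ h1, h4]
  omega

omit hr in
theorem EH.u_char [Nontrivial V] (hm : m ≤ finrank F V) : Elu (SUG B) p (Fx (ND B m)) ↔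
    ∀ μ : Multiset ℕ, (∀ a ∈ μ, 0 < a ∧ a ≤ p) → μ.sum = finrank F V → ∃ ν ≤ μ, ν.sum = m := by
  have e : ∀ ν : Multiset ℕ, (ν.map fun d => (X - 1 : F[X]) ^ d).map (cr σ) =
      ν.map (fun d => (X - 1) ^ d) ∧ ((ν.map fun d => (X - 1 : F[X]) ^ d).map natDegree).sum =
        ν.sum := fun ν => by simp [cr_X_sub_one, natDegree_X_sub_one]
  rw [h.elu_su_of_not_dvd hF hq hσ fun h1 => ne_of_dvd_succ hF p h1 rfl]
  refine ⟨fun H μ h1 h4 => ?_, fun H g h1 _ => ?_⟩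
  · by_cases h6 : ∀ d ∈ μ, d = 1
    · rw [Multiset.eq_replicate_card.2 h6] at h4 ⊢
      exact ⟨Multiset.replicate m 1, (Multiset.replicate_le_replicate 1).2 (by simp at h4; omega),
        by simp⟩
    push Not at h6
    obtain ⟨a, ha, h6⟩ := h6
    obtain ⟨g, hg⟩ := h.exists_UG hσ (s := μ.map fun d => (X - 1) ^ d) (by
      simpa using fun d hd => isPP_X_sub_one_pow (h1 d hd).1) (by
      simpa using fun d _ => not_X_dvd_X_sub_one_pow d) (e μ).1 ((e μ).2.trans h4)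
    replace hg := uj_of_ed (fun d hd => (h1 d hd).1) hg
    obtain ⟨U, h7, h8⟩ := H g ((sub_pow_eq_one_iff g p).2 ((hg.pow_eq_one_iff p).2
      fun d hd => (h1 d hd).2)) fun h5 => hg.ne_one ha h6 (by rw [h5]; rfl)
    obtain ⟨x, -, ν, ν', h9, -, rfl, -⟩ := hg.split (h.wp hσ) h7.2 h8
    exact ⟨ν, Multiset.le_add_right _ _, h9.sum.trans h7.1⟩
  · have h3 := (sub_pow_eq_one_iff g p).1 h1
    have h4 := uj_of_pow p h3
    obtain ⟨ν, h5, rfl⟩ := H _ (fun d hd => ⟨jt_pos _ d hd, (h4.pow_eq_one_iff p).1 h3 d hd⟩) h4.sum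
    exact (h.fx_nd_iff hσ g).2 ⟨_, ed_eq_of_unip h4.1 ▸ Multiset.map_le_map h5, e ν⟩

end CF.Cls
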