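/-
Elements of prime order `r ∣ q + 1` of unitary groups and their invariant subspaces.
-/
import Cfsg.Agent.Cls.El11

set_option autoImplicit false

namespace CF.Cls

open Polynomial Module CF.Geom CF.Classical Multiset

universe u

variable {F : Type*} {V : Type u} [Field F] [AddCommGroup V] [Module F V] {σ : F →+* F}
  {B : V →ₛₗ[σ] V →ₗ[F] F} {m n k l r q : ℕ}

theorem two_rep {α : Type*} {a b : α} {s : Multiset α} (h : ∀ x ∈ s, x = a ∨ x = b) :
    ∃ k l, s = replicate k a + replicate l b := by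
  classical
  exact ⟨_, _, by rw [← filter_add_not (· = a) s, eq_replicate_card.2 fun x hx =>
    (mem_filter.1 hx).2, eq_replicate_card.2 fun x hx =>
      (h x (mem_filter.1 hx).1).resolve_left (mem_filter.1 hx).2]⟩

theorem rep_swap {α : Type*} {a b : α} (hab : a ≠ b)
    (h : replicate k b + replicate l a = replicate k a + replicate l b) : k = l := by
  classical
  simpa [count_replicate, hab.symm, eq_comm] using congrArg (count a) h

theorem rep_add_self {α : Type*} {a : α} {s t : Multiset α} (ht : t.Nodup) (ha : a ∉ t)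
    (h : s + s ≤ replicate k a + t) : 2 * card s ≤ k := by
  classical
  have h1 : s = replicate (card s) a := eq_replicate_card.2 fun b hb => by_contra fun h2 => by
    have h3 := count_le_of_le b h
    have := nodup_iff_count_le_one.1 ht b
    have := one_le_count_iff_mem.2 hb
    rw [count_add, count_add, count_replicate, if_neg (Ne.symm h2)] at h3
    omega
  have h3 := count_le_of_le a h
  rw [h1, count_add, count_add, count_replicate_self, count_replicate_self,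
    count_eq_zero_of_notMem ha] at h3
  omega

theorem det_eq_ed [FiniteDimensional F V] (f : End F V) :
    LinearMap.det f = ((ed f).map fun a => (-1) ^ a.natDegree * a.coeff 0).prod := by
  rw [LinearMap.det_eq_sign_charpoly_coeff, charpoly_eq_ed, finrank_eq_ed f, prod_map_mul,
    coeff_zero_multiset_prod, ← prod_map_pow_eq, Multiset.map_map]
  rfl

theorem ed_of_sq [FiniteDimensional F V] {f : End F V} {b : F} (hb : b ≠ -b)
    (h : f ^ 2 = algebraMap F _ (b ^ 2)) :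
    ∃ k l, ed f = replicate k (X - C b) + replicate l (X - C (-b)) ∧ k + l = finrank F V ∧
      LinearMap.det f = b ^ k * (-b) ^ l := by
  have h1 : aeval f ((X - C b) * (X - C (-b))) = 0 := by
    rw [show (X - C b) * (X - C (-b)) = X ^ 2 - C (b ^ 2) by rw [map_neg, map_pow]; ring]
    simp [h]
  have h2 := ss_of_squarefree ((separable_X_sub_C.mul separable_X_sub_C
    (isCoprime_X_sub_C_of_isUnit_sub (sub_ne_zero.2 hb).isUnit)).squarefree) h1
  obtain ⟨k, l, h3⟩ := two_rep (s := ed f) (a := X - C b) (b := X - C (-b)) fun a ha =>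
    ((h2 a ha).prime.dvd_or_dvd ((aeval_eq_zero_iff_ed f _).1 h1 a ha)).imp
      (fun h => eq_of_monic_of_associated (ed_isPP f a ha).monic (monic_X_sub_C _)
        ((h2 a ha).associated_of_dvd (irreducible_X_sub_C _) h))
      (fun h => eq_of_monic_of_associated (ed_isPP f a ha).monic (monic_X_sub_C _)
        ((h2 a ha).associated_of_dvd (irreducible_X_sub_C _) h))
  exact ⟨k, l, h3, by simp [finrank_eq_ed f, h3], by simp [det_eq_ed, h3]⟩

theorem cr_X_pow_sub_C (hr : r ≠ 0) {z : F} (hz : z ≠ 0) :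
    cr σ (X ^ r - C z) = X ^ r - C (σ z)⁻¹ := by
  have h1 : (X ^ r : F[X]).reverse = 1 := by
    rw [← one_mul (X ^ r), reverse_mul_X_pow, ← C_1, reverse_C]
  rw [cr_apply, sub_eq_add_neg, ← C_neg, Polynomial.map_add, Polynomial.map_pow, map_X, map_C,
    reverse_add_C, h1, natDegree_X_pow, mul_add, ← mul_assoc, ← map_mul, coeff_add, coeff_X_pow,
    if_neg hr.symm, coeff_C_zero, zero_add, inv_mul_cancel₀ (by simpa using hz)]
  simp [inv_neg, sub_eq_neg_add]

theorem ne_neg_of (h2 : (2 : F) ≠ 0) {b : F} (hb : b ≠ 0) : b ≠ -b := fun h =>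
  mul_ne_zero h2 hb (by linear_combination h)

theorem elu_su (hq : ∀ x, σ x = x ^ q) (n : ℕ) (R : End F (Fin n → F) → Prop) :
    (∀ x : Matrix.SpecialLinearGroup (Fin n) F, x ∈ Cfsg.SU n F q → (∃ z : F, (x ^ r).1 = z • 1) →
      (∀ z : F, x.1 ≠ z • 1) → R (Matrix.toLin' x.1)) ↔ Elu (SUG (hermSesq (Fin n) σ)) r R :=
  elu_mat (Cfsg.slToMat n F) _ (fun e => ⟨fun h => by
    obtain ⟨x, hx⟩ := (suEquiv n hq).surjective ⟨e, h⟩
    exact ⟨x, x.2, congrArg Subtype.val hx⟩, fun ⟨x, h1, h2⟩ => h2 ▸ (suEquiv n hq ⟨x, h1⟩).2⟩) R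

theorem pc_two (h0 : 0 < m) (hm : m < n) : (∀ μ : Multiset ℕ, (∀ a ∈ μ, 0 < a ∧ a ≤ 2) →
    μ.sum = n → ∃ ν ≤ μ, ν.sum = m) ↔ Odd n ∨ Even m := by
  refine ⟨fun H => by_contra fun h => ?_, fun H μ h1 h2 => ?_⟩
  · obtain ⟨ν, h1, rfl⟩ := H (replicate (n / 2) 2) (fun a ha => by simp [eq_of_mem_replicate ha])
      (by simp [Nat.odd_iff] at h ⊢; omega)
    obtain ⟨j, -, rfl⟩ := le_replicate_iff.1 h1
    simp at h
  obtain ⟨k, l, rfl⟩ := two_rep (s := μ) (a := 1) (b := 2) fun a ha => by have := h1 a ha; omega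
  simp only [Multiset.sum_add, sum_replicate, smul_eq_mul, Nat.odd_iff, Nat.even_iff] at *
  exact ⟨replicate (m - 2 * min l (m / 2)) 1 + replicate (min l (m / 2)) 2, add_le_add
    ((replicate_le_replicate _).2 (by omega)) ((replicate_le_replicate _).2 (by omega)),
    by simp only [Multiset.sum_add, sum_replicate, smul_eq_mul]; omega⟩

variable [Fintype F] (hF : Fintype.card F = q ^ 2) (p : ℕ) [hp : Fact p.Prime] [CharP F p]
  [hr : Fact r.Prime] (hq : ∀ x, σ x = x ^ q) (hσ : σ ≠ RingHom.id F) (h : EH σ 1 B)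
include hF hq p

omit hq hr in
theorem two_ne_zero_of_dvd (h1 : 2 ∣ q + 1) : (2 : F) ≠ 0 :=
  (two_ne_zero_iff p).2 (ne_of_dvd_succ hF p h1).symm

omit hr in
theorem exists_pow_eq_neg_one (h1 : 2 ∣ q + 1) (hn : n ≠ 0) :
    (∃ c, σ c * c = 1 ∧ c ^ n = -1) ↔ padicValNat 2 n < padicValNat 2 (q + 1) := by
  have h2 := two_ne_zero_of_dvd hF p h1
  rw [← card_normOne hF hq, ← exists_pow_eq_iff_of_prime (x := ⟨-1, by simp [mem_normOne]⟩)
    (orderOf_eq_prime (by ext; simp) fun h => ne_neg_of h2 one_ne_zero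
      (congrArg (·.1.1) h).symm) hn]
  exact ⟨fun ⟨c, h3, h4⟩ => ⟨⟨Units.mk0 c (right_ne_zero_of_mul_eq_one h3), h3⟩,
    Subtype.ext (Units.ext h4)⟩, fun ⟨c, h3⟩ => ⟨_, c.2, congrArg (·.1.1) h3⟩⟩

theorem exists_nonpow_u (h1 : r ∣ q + 1) (hk : k ≠ 0) : (∃ z : F, σ z * z = 1 ∧
    (∀ c, σ c * c = 1 → c ^ r ≠ z) ∧ ((-1) ^ (r + 1) * z) ^ k = 1) ↔ ¬ UCond r (k * r) q := by
  have h2 : (∃ z : F, σ z * z = 1 ∧ (∀ c, σ c * c = 1 → c ^ r ≠ z) ∧ z ^ k = 1) ↔
      ¬ padicValNat r (k * r) ≤ padicValNat r (q + 1) := by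
    rw [padicValNat.mul hk hr.out.ne_zero, padicValNat_self, not_le, Nat.lt_succ_iff,
      ← card_normOne hF hq, ← exists_nonpow_iff (by rwa [card_normOne hF hq]) hk]
    exact ⟨fun ⟨z, h2, h3, h4⟩ => ⟨⟨Units.mk0 z (right_ne_zero_of_mul_eq_one h2), h2⟩,
      fun b hb => h3 _ b.2 (congrArg (·.1.1) hb), Subtype.ext (Units.ext h4)⟩, fun ⟨z, h2, h3⟩ =>
        ⟨_, z.2, fun b hb h4 => h2 ⟨Units.mk0 b (right_ne_zero_of_mul_eq_one hb), hb⟩
          (Subtype.ext (Units.ext h4)), congrArg (·.1.1) h3⟩⟩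
  rcases hr.out.eq_two_or_odd' with rfl | h3
  · have h3 := exists_pow_eq_neg_one hF p hq h1 two_ne_zero
    rw [padicValNat_self, ← Nat.succ_le_iff, ← padicValNat_dvd_iff_le (by omega),
      show 2 ^ Nat.succ 1 = 4 from rfl] at h3
    by_cases h4 : q % 4 = 3
    · obtain ⟨s, h5, hs⟩ := h3.2 (by omega)
      rw [UCond, and_iff_left fun _ _ => h4, ← h2]
      have h6 : ∀ z : F, (∀ c, σ c * c = 1 → c ^ 2 ≠ z) → ∀ c, σ c * c = 1 → c ^ 2 ≠ -z :=
        fun z hz b hb e => hz (s * b) (by rw [map_mul, mul_mul_mul_comm, h5, hb, mul_one])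
          (by rw [mul_pow, e, hs]; ring)
      exact ⟨fun ⟨z, h7, h8, h9⟩ => ⟨-z, by simpa using h7, h6 z h8, by rw [← h9]; congr 1; ring⟩,
        fun ⟨z, h7, h8, h9⟩ => ⟨-z, by simpa using h7, h6 z h8, by norm_num [h9]⟩⟩
    · exact iff_of_true ⟨-1, by simp, fun b hb e => by have := h3.1 ⟨b, hb, e⟩; omega, by norm_num⟩
        fun h6 => h4 (h6.2 rfl (by simp))
  · rw [UCond, and_iff_left fun h4 => absurd (h4 ▸ h3) (by decide), ← h2, h3.add_one.neg_one_pow]
    simp only [one_mul]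

include h

omit p hp in
theorem EH.nonpow_odd (h1 : r ∣ q + 1) (hr2 : r ≠ 2) {z : F} (hz : σ z * z = 1)
    (hz' : ∀ c, σ c * c = 1 → c ^ r ≠ z) (b : F) : b ^ r ≠ z := fun hb => by
  have h2 : (σ b * b) ^ r = 1 := by rw [mul_pow, ← map_pow, hb, hz]
  have h3 : (σ b * b) ^ 2 = 1 := by
    obtain ⟨k, hk⟩ := h1
    rw [← one_pow k, ← h2, ← pow_mul, ← hk, pow_succ _ q, ← hq, map_mul, h.invol]; ring
  exact hz' b ((pow_eq_one_iff_of_coprime ((Nat.coprime_primes hr.out Nat.prime_two).2 hr2)).1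
    ⟨h2, h3⟩) hb

omit hr h in
theorem nonpow_two (h1 : 2 ∣ q + 1) {z : F} (hz : σ z * z = 1)
    (hz' : ∀ c, σ c * c = 1 → c ^ 2 ≠ z) : ∃ b, b ^ 2 = z ∧ b ≠ -b ∧
      cr σ (X - C b) = X - C (-b) ∧ cr σ (X - C (-b)) = X - C b := by
  have h2 := two_ne_zero_of_dvd hF p h1
  have h0 := right_ne_zero_of_mul_eq_one hz
  obtain ⟨k, rfl⟩ : ∃ k, q = 2 * k + 1 := ⟨q / 2, by omega⟩
  obtain ⟨b, rfl⟩ := (FiniteField.isSquare_iff ((ringChar.eq F p).symm ▸
    (two_ne_zero_iff p).1 h2) h0).2 (by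
      rw [hF, show (2 * k + 1) ^ 2 / 2 = (2 * k + 1 + 1) * k by
        rw [show (2 * k + 1) ^ 2 = 2 * ((2 * k + 1 + 1) * k) + 1 by ring]; omega, pow_mul,
        pow_succ, ← hq, hz, one_pow])
  have h3 := left_ne_zero_of_mul h0
  have h4 : σ b * -b = 1 := by
    rw [mul_neg, (sq_eq_one_iff.1 (by rw [← hz, map_mul]; ring)).resolve_left
      fun e => hz' b e (pow_two b), neg_neg]
  exact ⟨b, pow_two b, ne_neg_of h2 h3, by rw [cr_X_sub_C h3, ← eq_inv_of_mul_eq_one_right h4], by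
    rw [cr_X_sub_C (neg_ne_zero.2 h3), ← eq_inv_of_mul_eq_one_right (b := b) (by simpa using h4)]⟩

variable [FiniteDimensional F V]
include hσ

theorem EH.exists_nonpow (h1 : r ∣ q + 1) {z : F} (hz : σ z * z = 1)
    (hz' : ∀ c, σ c * c = 1 → c ^ r ≠ z) (hk : k * r = finrank F V) :
    ∃ x : UG B, x.1.toLinearMap ^ r = algebraMap F _ z := by
  have h0 := right_ne_zero_of_mul_eq_one hz
  suffices ∃ s : Multiset F[X], (∀ a ∈ s, a.Monic ∧ Irreducible a ∧ a ∣ X ^ r - C z) ∧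
      s.map (cr σ) = s ∧ (s.map natDegree).sum = k * r by
    obtain ⟨s, h2, h3, h4⟩ := this
    obtain ⟨x, hx⟩ := h.exists_UG hσ (fun a ha => isPP_of_irreducible (h2 a ha).1 (h2 a ha).2.1)
      (fun a ha h5 => h0 (by
        simpa [X_dvd_iff, coeff_X_pow, hr.out.ne_zero.symm] using h5.trans (h2 a ha).2.2))
      h3 (h4.trans hk)
    have := (aeval_eq_zero_iff_ed x.1.toLinearMap (X ^ r - C z)).2 fun a ha => (h2 a (hx ▸ ha)).2.2
    exact ⟨x, by rwa [map_sub, map_pow, aeval_X, aeval_C, sub_eq_zero] at this⟩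
  rcases eq_or_ne r 2 with rfl | hr2
  · obtain ⟨b, rfl, -, h2, h3⟩ := nonpow_two hF p hq h1 hz hz'
    refine ⟨replicate k (X - C b) + replicate k (X - C (-b)), fun a ha => ?_,
      by simp only [Multiset.map_add, map_replicate, h2, h3, add_comm], by simp [mul_two]⟩
    rcases mem_add.1 ha with ha | ha <;> rw [eq_of_mem_replicate ha] <;>
    exact ⟨monic_X_sub_C _, irreducible_X_sub_C _, dvd_iff_isRoot.2 (by simp)⟩
  · refine ⟨replicate k (X ^ r - C z), fun a ha => (eq_of_mem_replicate ha).symm ▸ ⟨monic_X_pow_sub_C z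
      hr.out.ne_zero, X_pow_sub_C_irreducible_of_prime hr.out (h.nonpow_odd hF hq h1 hr2 hz hz'),
      dvd_rfl⟩, ?_, by simp⟩
    rw [map_replicate, cr_X_pow_sub_C hr.out.ne_zero h0, ← eq_inv_of_mul_eq_one_right hz]

theorem EH.nonpow_spec [Nontrivial V] (h1 : r ∣ q + 1) {z : F} (hz' : ∀ c, σ c * c = 1 → c ^ r ≠ z)
    (x : UG B) (hx : x.1.toLinearMap ^ r = algebraMap F _ z) : ∃ k, k * r = finrank F V ∧
      LinearMap.det x.1.toLinearMap = ((-1) ^ (r + 1) * z) ^ k ∧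
      (∀ m ≤ finrank F V, Fx (ND B m) x.1.toLinearMap ↔ r ∣ m) ∧
      ∀ m, 2 * m ≤ finrank F V → (Fx (TU B m) x.1.toLinearMap ↔ r = 2 ∨ r ∣ m) := by
  have hz := h.norm_scalar x hx
  have h0 := h.ed_pres (pres_UG x)
  rcases eq_or_ne r 2 with rfl | hr2
  · obtain ⟨b, rfl, h2, h3, h4⟩ := nonpow_two hF p hq h1 hz hz'
    obtain ⟨k, l, h5, h6, h7⟩ := ed_of_sq h2 hx
    have h8 : X - C b ≠ X - C (-b) := fun e => h2 (C_injective (sub_right_injective e))
    rw [h5, Multiset.map_add, map_replicate, map_replicate, h3, h4] at h0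
    obtain rfl := rep_swap h8 h0
    refine ⟨k, by omega, by rw [h7, ← mul_pow]; congr 1; ring, fun m hm => ?_, fun m hm =>
      iff_of_true (h.fx_tu_of hσ (s := replicate m (X - C b)) ?_ (by simp)) (.inl rfl)⟩
    · rw [h.fx_nd_iff hσ, h5]
      refine ⟨fun ⟨s, h9, h10, h11⟩ => ?_, fun ⟨j, hj⟩ => ⟨replicate j (X - C b) +
        replicate j (X - C (-b)), add_le_add ((replicate_le_replicate _).2 (by omega))
          ((replicate_le_replicate _).2 (by omega)), by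
            simp only [Multiset.map_add, map_replicate, h3, h4, add_comm], by simp [hj, two_mul]⟩⟩
      obtain ⟨k', l', rfl⟩ := two_rep (s := s) fun a ha =>
        (mem_add.1 (mem_of_le h9 ha)).imp eq_of_mem_replicate eq_of_mem_replicate
      rw [Multiset.map_add, map_replicate, map_replicate, h3, h4] at h10
      obtain rfl := rep_swap h8 h10
      exact ⟨k', by simp [← h11, two_mul]⟩
    · rw [map_replicate, h3, h5]
      exact add_le_add ((replicate_le_replicate _).2 (by omega))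
        ((replicate_le_replicate _).2 (by omega))
  obtain ⟨k, h2, h3, h4⟩ := ed_of_nonpow hr.out (h.nonpow_odd hF hq h1 hr2 hz hz') hx
  have h5 : cr σ (X ^ r - C z) = X ^ r - C z := by
    rw [h3, map_replicate] at h0
    exact (replicate_right_inj (by rintro rfl; exact finrank_pos.ne (by simpa using h2))).1 h0
  have h6 : ∀ s ≤ ed x.1.toLinearMap, r ∣ (s.map natDegree).sum := fun s hs => by
    obtain ⟨j, -, rfl⟩ := le_replicate_iff.1 (h3 ▸ hs)
    simp
  refine ⟨k, h2, h4, fun m hm => ?_, fun m hm => ?_⟩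
  · rw [h.fx_nd_iff hσ]
    refine ⟨fun ⟨s, h7, _, h8⟩ => h8 ▸ h6 s h7, fun ⟨j, hj⟩ => ⟨replicate j (X ^ r - C z), h3 ▸
      (replicate_le_replicate _).2 (Nat.le_of_mul_le_mul_right (by rwa [h2, mul_comm, ← hj])
        hr.out.pos), by rw [map_replicate, h5], by simp [hj, mul_comm]⟩⟩
  · rw [or_iff_right hr2]
    refine ⟨fun h7 => ?_, fun ⟨j, hj⟩ => h.fx_tu_of hσ (s := replicate j (X ^ r - C z)) ?_
      (by simp [hj, mul_comm])⟩
    · obtain ⟨s, h8, h9⟩ := h.of_fx_tu hσ (isSemisimple_of_pow p (ne_of_dvd_succ hF p h1)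
        (right_ne_zero_of_mul_eq_one hz) hx) h7
      exact h9 ▸ h6 s ((le_add_right _ _).trans h8)
    · rw [map_replicate, h5, ← replicate_add, h3, replicate_le_replicate]
      exact Nat.le_of_mul_le_mul_right (by rw [h2, add_mul, mul_comm j, ← hj]; omega) hr.out.pos

theorem EH.forall_nonpow [Nontrivial V] (h1 : r ∣ q + 1) {R : End F V → Prop} {A : Prop}
    (H : ∀ (x : UG B) (z : F), (∀ c, σ c * c = 1 → c ^ r ≠ z) →
      x.1.toLinearMap ^ r = algebraMap F _ z → (R x.1.toLinearMap ↔ A)) :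
    (∀ (x : UG B) (z : F), (∀ c, σ c * c = 1 → c ^ r ≠ z) → x.1.toLinearMap ^ r = algebraMap F _ z →
      LinearMap.det x.1.toLinearMap = 1 → R x.1.toLinearMap) ↔ A ∨ UCond r (finrank F V) q := by
  have h0 : ∀ k, k * r = finrank F V → k ≠ 0 := by
    rintro _ h2 rfl; exact finrank_pos.ne (by simpa using h2)
  refine ⟨fun H' => or_iff_not_imp_right.2 fun h2 => ?_, fun H' x z h2 h3 h4 => (H x z h2 h3).2
    (H'.resolve_right ?_)⟩
  · obtain ⟨k, hk⟩ : r ∣ finrank F V := by_contra fun h3 => h2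
      ⟨by simp [padicValNat.eq_zero_of_not_dvd h3], fun h4 h5 => (h3 (h4 ▸ h5.two_dvd)).elim⟩
    rw [mul_comm] at hk
    obtain ⟨z, h3, h4, h5⟩ := (exists_nonpow_u hF p hq h1 (h0 k hk.symm)).2 (hk ▸ h2)
    obtain ⟨x, hx⟩ := h.exists_nonpow hF p hq hσ h1 h3 h4 hk.symm
    obtain ⟨k', h6, h7, -⟩ := h.nonpow_spec hF p hq hσ h1 h4 x hx
    obtain rfl : k' = k := Nat.eq_of_mul_eq_mul_right hr.out.pos (h6.trans hk)
    exact (H x z h4 hx).1 (H' x z h4 hx (h7.trans h5))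
  · obtain ⟨k, h6, h7, -⟩ := h.nonpow_spec hF p hq hσ h1 h2 x h3
    exact h6 ▸ (exists_nonpow_u hF p hq h1 (h0 k h6)).1 ⟨z, h.norm_scalar x h3, h2, h7 ▸ h4⟩

omit hσ [FiniteDimensional F V] in
theorem EH.cb_lin (h1 : r ∣ q + 1) : orderOf (Fintype.card F : ZMod r) = 1 ∧
    (facs F r).card = r - 1 ∧ ∀ a ∈ facs F r, cr σ a = a ∧ a.natDegree = 1 := by
  have hrp := ne_of_dvd_succ hF p h1
  have h2 : orderOf (Fintype.card F : ZMod r) = 1 := ord_eq_one_iff.2 (by
    rw [hF, ← one_pow 2, Nat.sq_sub_sq]; exact h1.mul_right _)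
  have h3 := facs_spec (F := F) p hr.out hrp
  rw [h2, mul_one] at h3
  exact ⟨h2, h3.2, fun a ha => ⟨(h.cr_eq_iff hF p hq hrp ha).2 ⟨1, odd_one, by
    rw [pow_one, eq_neg_iff_add_eq_zero]; exact_mod_cast (ZMod.natCast_eq_zero_iff _ _).2 h1⟩,
    h3.1 a ha⟩⟩

theorem EH.fx_lin (h1 : r ∣ q + 1) {y : UG B} (hy : y ^ r = 1) :
    (m ≤ finrank F V → Fx (ND B m) y.1.toLinearMap) ∧
      (r - 1 + 2 * m ≤ finrank F V → Fx (TU B m) y.1.toLinearMap) := by
  classical
  have hrp := ne_of_dvd_succ hF p h1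
  obtain ⟨-, h2, h3⟩ := h.cb_lin hF p hq h1
  have h4 : ∀ a ∈ insert (X - 1) (facs F r), cr σ a = a ∧ a.natDegree = 1 :=
    Finset.forall_mem_insert .. |>.2 ⟨⟨cr_X_sub_one, natDegree_X_sub_one⟩, h3⟩
  have h5 : CB (insert (X - 1) (facs F r)) (cr σ) 1 r := ⟨fun a ha => (h4 a ha).1.symm ▸ ha,
    fun a ha => by rw [(h4 a ha).1, (h4 a ha).1], Finset.insert_nonempty .., .inr ⟨rfl, by
      rw [Finset.card_insert_of_notMem (X_sub_one_notMem_facs p hr.out hrp), h2,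
        Nat.sub_add_cancel hr.out.pos], fun a ha => (h4 a ha).1⟩⟩
  have h6 : Sb (insert (X - 1) (facs F r)) (cr σ) (ed y.1.toLinearMap) :=
    ⟨fun a ha => Finset.mem_insert.2 (or_iff_not_imp_left.2 fun h7 => (pow_eq_one_iff_nt p hr.out
      hrp _).1 ((sub_pow_eq_one_iff y r).1 hy) a (mem_nt.2 ⟨ha, h7⟩)), h.ed_pres (pres_UG y)⟩
  have h7 : ∀ s : Multiset F[X], (∀ a ∈ s, a ∈ insert (X - 1) (facs F r)) →
      (s.map natDegree).sum = card s := fun s hs => by
    rw [map_congr rfl fun a ha => (h4 a (hs a ha)).2]; simp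
  have h8 := (finrank_eq_ed _).trans (h7 _ h6.1)
  refine ⟨fun hm => ?_, fun hm => ?_⟩
  · obtain ⟨s, t, e, h9, -, h10⟩ := h5.split m h6 (by omega)
    exact (h.fx_nd_iff hσ y).2 ⟨s, e ▸ le_add_right _ _, h9.2, by rw [h7 s h9.1]; omega⟩
  · obtain ⟨s, t, e, h9, -, h10⟩ := h5.hyp m h6 (.inr (by omega))
    exact h.fx_tu_of hσ (e ▸ le_add_right _ _) ((h7 s h9).trans h10)

theorem EH.exists_lin (h1 : r ∣ q + 1) {t : Multiset F[X]} (ht : ∀ a ∈ t, a ∈ facs F r)
    (h2 : t.Nodup) (h0 : t ≠ 0) (h3 : card t = 1 → 0 < k) (h4 : k + card t = finrank F V) :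
    ∃ y : UG B, y ^ r = 1 ∧ (∀ z : F, y.1.toLinearMap ≠ algebraMap F _ z) ∧
      ed y.1.toLinearMap = replicate k (X - 1) + t ∧
      ∀ s, s + s.map (cr σ) ≤ ed y.1.toLinearMap → 2 * (s.map natDegree).sum ≤ k := by
  have hrp := ne_of_dvd_succ hF p h1
  obtain ⟨h5, -, h6⟩ := h.cb_lin hF p hq h1
  have h7 := h.rz p hσ hrp (h.cb hF p hq hrp (.inl rfl) (iff_of_true rfl ((h.cr_eq_iff hF p hq hrp
    (facs_nonempty p hrp).choose_spec).1 (h6 _ (facs_nonempty p hrp).choose_spec).1))) rfl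
  obtain ⟨y, h8, h9⟩ := (h7 t).2 ⟨⟨ht, (map_congr rfl fun a ha => (h6 a (ht a ha)).1).trans
    t.map_id'⟩, by rw [h5]; simp; omega⟩
  obtain ⟨c, h10, h11⟩ := ed_eq_nt y.1.toLinearMap
  rw [h9, sum_natDegree_facs p hr.out hrp ht, h5] at h11
  obtain rfl : c = k := by omega
  have h12 := fun h => X_sub_one_notMem_facs p hr.out hrp (ht _ h)
  rw [h9] at h10
  refine ⟨y, h8, fun z hz => ?_, h10, fun s hs => ?_⟩
  · rw [hz, ed_algebraMap] at h10
    have h13 : t = replicate (card t) (X - C z) := eq_replicate_card.2 fun a ha =>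
      eq_of_mem_replicate (h10 ▸ mem_add.2 (.inr ha))
    obtain ⟨a, ha⟩ := exists_mem_of_ne_zero h0
    by_cases h14 : card t = 1
    · exact h12 ((eq_of_mem_replicate (h10 ▸ mem_add.2 (.inl (mem_replicate.2
        ⟨(h3 h14).ne', rfl⟩)))).trans (eq_of_mem_replicate (h13 ▸ ha)).symm ▸ ha)
    · have := card_pos.2 h0
      have := rep_add_self (s := {X - C z}) (k := 0) h2 h12 (by
        rw [h13, replicate_zero, zero_add]
        exact (replicate_le_replicate _ (k := 2)).2 (by omega))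
      simp at this
  · have h13 : ∀ a ∈ s, cr σ a = a ∧ a.natDegree = 1 := fun a ha => by
      rcases mem_add.1 (h10 ▸ mem_of_le ((le_add_right _ _).trans hs) ha) with h | h
      · exact (eq_of_mem_replicate h).symm ▸ ⟨cr_X_sub_one, natDegree_X_sub_one⟩
      · exact h6 a (ht a h)
    rw [map_congr rfl fun a ha => (h13 a ha).1, map_id', h10] at hs
    rw [map_congr rfl fun a ha => (h13 a ha).2]
    simpa using rep_add_self h2 h12 hs

theorem EH.exists_lin_odd (h1 : r ∣ q + 1) (hr2 : r ≠ 2) (h0 : 0 < m) (hm : 2 * m ≤ finrank F V)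
    (h2 : finrank F V < r - 1 + 2 * m) : ∃ y : UG B, y ^ r = 1 ∧
      (∀ z : F, y.1.toLinearMap ≠ algebraMap F _ z) ∧ LinearMap.det y.1.toLinearMap = 1 ∧
      ∀ s, s + s.map (cr σ) ≤ ed y.1.toLinearMap → (s.map natDegree).sum < m := by
  have hrp := ne_of_dvd_succ hF p h1
  obtain ⟨h3, h4, -⟩ := h.cb_lin hF p hq h1
  have hC := cb_id (F := F) p hr2 hrp
  obtain ⟨Ψ, h5, h6, h7⟩ := exists_half _ _ hC.mem hC.inv fun a ha e => by
    simpa [h3] using (cr_id_eq_iff p hr.out hr2 hrp ha).1 e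
  obtain ⟨S, h8, h9⟩ := Finset.exists_subset_card_eq (s := Ψ) (n := (finrank F V - 2 * m) / 2 + 1)
    (by omega)
  have h10 : ∀ a ∈ S.1, a ∈ facs F r := fun a ha => h5 (h8 ha)
  obtain ⟨y, e1, e2, e3, e4⟩ := h.exists_lin hF p hq hσ h1 (t := S.1 + S.1.map (cr (RingHom.id F)))
    (k := finrank F V - 2 * S.card) (fun a ha => (mem_add.1 ha).elim (h10 a) fun ha => by
      obtain ⟨b, hb, rfl⟩ := mem_map.1 ha; exact hC.mem b (h10 b hb))
    (nodup_add.2 ⟨S.2, S.2.map_on fun a ha b hb e => by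
      rw [← hC.inv a (h10 a ha), e, hC.inv b (h10 b hb)], disjoint_left.2 fun ha hb => by
        obtain ⟨b, hc, rfl⟩ := mem_map.1 hb; exact (h7 b (h10 b hc)).1 (h8 hc) (h8 ha)⟩)
    (fun e => by simpa [h9] using congrArg card e) (by simp; omega) (by simp; omega)
  refine ⟨y, e1, e2, ?_, fun s hs => by have := e4 s hs; omega⟩
  rw [det_eq_ed, e3, Multiset.map_add, Multiset.map_add, prod_add, prod_add, Multiset.map_map,
    ← prod_map_mul, prod_eq_one (s := map _ S.1) fun a hb => ?_]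
  · simp [natDegree_X_sub_one]
  obtain ⟨a, ha, rfl⟩ := mem_map.1 hb
  have h11 := coeff_ne_zero_of_facs hr.out (h10 a ha)
  rw [Function.comp_apply, natDegree_cr h11, coeff_cr a (Nat.zero_le _), Nat.sub_zero,
    (mem_facs.1 (h10 a ha)).1.coeff_natDegree, mul_mul_mul_comm, ← mul_pow]
  simp [h11]

omit hr in
theorem EH.exists_refl (h1 : 2 ∣ q + 1) (hn : 2 ≤ finrank F V) : ∃ y : UG B, y ^ 2 = 1 ∧
    (∀ z : F, y.1.toLinearMap ≠ algebraMap F _ z) ∧ LinearMap.det y.1.toLinearMap = -1 ∧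
    ed y.1.toLinearMap = replicate (finrank F V - 1) (X - 1) + {X + 1} ∧
    ∀ s, s + s.map (cr σ) ≤ ed y.1.toLinearMap → 2 * (s.map natDegree).sum < finrank F V := by
  obtain ⟨y, e1, e2, e3, e4⟩ := h.exists_lin hF p hq hσ h1 (t := {X + 1}) (k := finrank F V - 1)
    (by simpa [mem_facs] using ⟨monic_X_add_C 1, by simpa using irreducible_X_sub_C (-1 : F)⟩)
    (nodup_singleton _) (singleton_ne_zero _) (fun _ => by omega) (by simp; omega)
  refine ⟨y, e1, e2, ?_, e3, fun s hs => by have := e4 s hs; omega⟩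
  rw [det_eq_ed, e3]
  simp [natDegree_X_sub_one, show (X + 1 : F[X]).natDegree = 1 from natDegree_X_add_C 1]

omit hr in
theorem EH.exists_half_ed (h1 : 2 ∣ q + 1) {y : UG B} (hy : y ^ 2 = 1) (hm : 2 * m = finrank F V)
    (h2 : padicValNat 2 (q + 1) ≤ padicValNat 2 (finrank F V)) (h0 : 0 < m)
    (h3 : ∃ c, σ c * c = 1 ∧ c ^ finrank F V * LinearMap.det y.1.toLinearMap = 1) :
    ∃ s, s + s.map (cr σ) = ed y.1.toLinearMap ∧ (s.map natDegree).sum = m := by
  have h4 := ne_neg_of (two_ne_zero_of_dvd hF p h1) one_ne_zero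
  obtain ⟨k, l, h5, h6, h7⟩ := ed_of_sq h4 (f := y.1.toLinearMap) (by
    rw [(sub_pow_eq_one_iff y 2).1 hy, one_pow, map_one])
  obtain ⟨c, h8, h9⟩ := h3
  obtain ⟨l, rfl⟩ : Even l := by_contra fun h10 => h2.not_gt ((exists_pow_eq_neg_one hF p hq h1
    (by omega)).1 ⟨c, h8, by
      rw [h7, (Nat.not_even_iff_odd.1 h10).neg_one_pow] at h9; linear_combination -h9⟩)
  obtain ⟨k, rfl⟩ : ∃ j, k = j + j := ⟨k / 2, by omega⟩
  refine ⟨replicate k (X - C 1) + replicate l (X - C (-1)), ?_, by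
    simp [-map_one, -map_neg]; omega⟩
  rw [h5, Multiset.map_add, map_replicate, map_replicate, cr_X_sub_C one_ne_zero,
    cr_X_sub_C (neg_ne_zero.2 one_ne_zero), replicate_add, replicate_add]
  simp only [map_neg, map_one, inv_neg, inv_one]
  abel

theorem EH.u_nd' (h1 : r ∣ q + 1) (h0 : 0 < m) (hm : m ≤ finrank F V) :
    Elu (SUG B) r (Fx (ND B m)) ↔ r ∣ m ∨ UCond r (finrank F V) q := by
  have : Nontrivial V := (finrank_pos_iff (R := F)).1 (by omega)
  rw [h.elu_su_iff hσ hr.out.ne_zero, and_iff_right fun y hy _ _ => (h.fx_lin hF p hq hσ h1 hy).1 hm,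
    h.forall_nonpow hF p hq hσ h1 fun x z h2 h3 =>
      (h.nonpow_spec hF p hq hσ h1 h2 x h3).choose_spec.2.2.1 m hm]

theorem EH.u_ts' (h1 : r ∣ q + 1) (h0 : 0 < m) (hm : 2 * m ≤ finrank F V) :
    Elu (SUG B) r (Fx (TU B m)) ↔ (r = 2 ∧ (2 * m < finrank F V ∨
      padicValNat 2 (q + 1) ≤ padicValNat 2 (finrank F V))) ∨
      (r ≠ 2 ∧ r - 1 + 2 * m ≤ finrank F V ∧ (r ∣ m ∨ UCond r (finrank F V) q)) := by
  have : Nontrivial V := (finrank_pos_iff (R := F)).1 (by omega)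
  have hs : ∀ y : UG B, y ^ r = 1 → End.IsSemisimple y.1.toLinearMap := fun y hy =>
    isSemisimple_of_pow p (ne_of_dvd_succ hF p h1) one_ne_zero
      (by rw [(sub_pow_eq_one_iff y r).1 hy, map_one])
  rw [h.elu_su_iff hσ hr.out.ne_zero, h.forall_nonpow hF p hq hσ h1 fun x z h2 h3 =>
      (h.nonpow_spec hF p hq hσ h1 h2 x h3).choose_spec.2.2.2 m hm]
  rcases eq_or_ne r 2 with rfl | hr2
  · simp only [true_or, and_true, true_and, ne_eq, not_true, false_and, or_false]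
    refine ⟨fun H => by_contra fun h2 => ?_, fun H y hy _ h3 => (lt_or_eq_of_le hm).elim
      (fun h2 => (h.fx_lin hF p hq hσ h1 hy).2 (by omega)) fun h2 => ?_⟩
    · obtain ⟨y, e1, e2, e3, -, e4⟩ := h.exists_refl hF p hq hσ h1 (by omega)
      obtain ⟨c, h3, h4⟩ := (exists_pow_eq_neg_one hF p hq h1 (n := finrank F V) (by omega)).2
        (by omega)
      obtain ⟨s, h5, h6⟩ := h.of_fx_tu hσ (hs y e1) (H y e1 e2 ⟨c, h3, by simp [h4, e3]⟩)
      have := e4 s h5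
      omega
    · obtain ⟨s, h4, h5⟩ := h.exists_half_ed hF p hq hσ h1 hy h2 (by omega) h0 h3
      exact h.fx_tu_of hσ h4.le h5
  simp only [hr2, false_and, false_or, ne_eq, not_false_iff, true_and]
  refine and_congr_left' ⟨fun H => by_contra fun h2 => ?_,
    fun H y hy _ _ => (h.fx_lin hF p hq hσ h1 hy).2 H⟩
  obtain ⟨y, e1, e2, e3, e4⟩ := h.exists_lin_odd hF p hq hσ h1 hr2 h0 hm (by omega)
  obtain ⟨s, h5, h6⟩ := h.of_fx_tu hσ (hs y e1) (H y e1 e2 ⟨1, by simp, by simp [e3]⟩)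
  exact (e4 s h5).ne h6

end CF.Cls
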