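/-
Pairs of complementary totally singular subspaces.
-/
import Cfsg.Agent.Cls.El10
import Cfsg.Agent.Cls.El12

set_option autoImplicit false

namespace CF.Cls

open Polynomial Module CF.Geom CF.Classical

universe u

variable {F : Type*} {V : Type u} [Field F] [AddCommGroup V] [Module F V] {σ : F →+* F}
  {B : V →ₛₗ[σ] V →ₗ[F] F} {Q : V → F} {m n r q : ℕ} {U W U' W' : Submodule F V} {f : End F V}

theorem exists_dual' [FiniteDimensional F V] {V₁ V₂ : Type*} [AddCommGroup V₁] [Module F V₁]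
    [AddCommGroup V₂] [Module F V₂] [FiniteDimensional F V₁] [FiniteDimensional F V₂]
    (hσ : ∀ x, σ (σ x) = x) {A : V →ₛₗ[σ] V₁ →ₗ[F] F} {A' : V →ₛₗ[σ] V₂ →ₗ[F] F}
    (h1 : ∀ v, (∀ w, A v w = 0) → v = 0) (h2 : ∀ v, (∀ w, A' v w = 0) → v = 0)
    (hd : finrank F V = finrank F V₁) (hd' : finrank F V = finrank F V₂) :
    ∃ g : V₁ ≃ₗ[F] V₂, ∀ v w, A' v (g w) = A v w := by
  obtain ⟨B₀, h0, S, ψ, hS⟩ := exists_pair hσ h1 hd
  let ψ' := LinearEquiv.ofFinrankEq V V₂ hd'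
  obtain ⟨T, hT⟩ := h0.exists_rep (A'.compl₂ ψ'.toLinearMap)
  let T' := LinearEquiv.ofInjectiveEndo T ((injective_iff_map_eq_zero _).2 fun u hu =>
    h2 u fun w => by simpa [hu] using (hT u (ψ'.symm w)).symm)
  let k := h0.adj (S.toLinearMap ∘ₗ T'.symm.toLinearMap)
  have hk : ∀ u v, A' u (ψ' (k v)) = B₀ (S u) v := fun u v => by
    rw [← show B₀ (T' u) (k v) = A' u (ψ' (k v)) from hT u _, h0.adj_right]; simp
  refine ⟨ψ.symm.trans ((LinearEquiv.ofInjectiveEndo k ((injective_iff_map_eq_zero _).2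
    fun v hv => h0.nondeg' v fun u => ?_)).trans ψ'), fun v w => ?_⟩
  · obtain ⟨u, rfl⟩ := S.surjective u
    rw [← hk, hv, map_zero, map_zero]
  · obtain ⟨w, rfl⟩ := ψ.surjective w
    simp [hS, hk]

theorem prod_dvd_card_aut [Finite F] [FiniteDimensional F V] (hn : finrank F V = n) :
    ∏ i ∈ Finset.range n, (Nat.card F ^ (i + 1) - 1) ∣ Nat.card (V ≃ₗ[F] V) := by
  rw [card_linearEquiv hn, Fin.prod_univ_eq_prod_range (fun i => Nat.card F ^ n - Nat.card F ^ i),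
    ← Finset.prod_range_reflect]
  refine Finset.prod_dvd_prod_of_dvd _ _ fun i hi => ⟨Nat.card F ^ i, ?_⟩
  rw [Finset.mem_range] at hi
  rw [Nat.sub_one_mul, ← pow_add]
  congr 2; omega

theorem exists_dvd_of_card [hr : Fact r.Prime] {ω N N' e : ℕ} {a b : ℕ → ℕ} (h1 : r ∣ ω)
    (h2 : ω * N' ∣ N) (h3 : ∏ i ∈ Finset.range n, b i ∣ N') (hb : ∀ i, b i ≠ 0) (hq : ¬ r ∣ q)
    (h4 : N = q ^ e * ∏ i ∈ Finset.range n, a i * b i) : ∃ i < n, r ∣ a i := by
  have h5 := (mul_dvd_mul h1 h3).trans (h4 ▸ h2)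
  rw [Finset.prod_mul_distrib, ← mul_assoc, Nat.mul_dvd_mul_iff_right (Nat.pos_of_ne_zero
    (Finset.prod_ne_zero_iff.2 fun i _ => hb i)), hr.out.dvd_mul,
    or_iff_right fun h => hq (hr.out.dvd_of_dvd_pow h), hr.out.prime.dvd_finsetProd_iff] at h5
  simpa using h5

/-- Pairs of complementary totally singular subspaces. -/
def PR (B : V →ₛₗ[σ] V →ₗ[F] F) (Q : V → F) (m : ℕ) (U W : Submodule F V) : Prop :=
  IsCompl U W ∧ TS B Q m U ∧ TS B Q m W

/-- `f` fixes or interchanges two subspaces. -/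
def Sw (U W : Submodule F V) (f : End F V) : Prop :=
  (U.map f = U ∧ W.map f = W) ∨ (U.map f = W ∧ W.map f = U)

/-- `f` stabilises a pair of complementary totally singular subspaces. -/
def FxP (B : V →ₛₗ[σ] V →ₗ[F] F) (Q : V → F) (m : ℕ) (f : End F V) : Prop :=
  ∃ U W, PR B Q m U W ∧ Sw U W f

theorem PR.symm (h : PR B Q m U W) : PR B Q m W U := ⟨h.1.symm, h.2.2, h.2.1⟩

theorem Sw.conj (h : Sw U W f) (c : V ≃ₗ[F] V) {g : End F V} (hc : ∀ v, g (c v) = c (f v)) :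
    Sw (U.map (c : V →ₗ[F] V)) (W.map (c : V →ₗ[F] V)) g := by
  have : ∀ X : Submodule F V, (X.map (c : V →ₗ[F] V)).map g = (X.map f).map (c : V →ₗ[F] V) :=
    fun X => by rw [← Submodule.map_comp, ← Submodule.map_comp]; congr 1; exact LinearMap.ext hc
  rw [Sw, this, this]
  exact h.imp (fun h => by rw [h.1, h.2]; simp) fun h => by rw [h.1, h.2]; simp

theorem FxP.of_smul {c : F} (hc : c ≠ 0) (h : FxP B Q m (c • f)) : FxP B Q m f := by
  simpa only [FxP, Sw, Submodule.map_smul _ _ _ hc] using h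

theorem FxP.fx_odd (h : FxP B Q m f) (hr : Odd r) {z : F} (hz : z ≠ 0)
    (h1 : f ^ r = algebraMap F _ z) : Fx (TS B Q m) f := by
  obtain ⟨U, W, h2, h3 | h3⟩ := h
  · exact ⟨U, h2.2.1, fun u hu => h3.1 ▸ ⟨u, hu, rfl⟩⟩
  obtain ⟨k, rfl⟩ := hr
  have h4 : ∀ k, ∀ u ∈ U, (f ^ (2 * k)) u ∈ U := fun k u hu => by
    induction k with
    | zero => exact hu
    | succ k ih =>
      rw [mul_add, add_comm, pow_add, mul_one, pow_two]
      exact h3.2 ▸ ⟨_, h3.1 ▸ ⟨_, ih, rfl⟩, rfl⟩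
  refine ⟨U, h2.2.1, fun u hu => ?_⟩
  have h5 : (f ^ (2 * k + 1)) u ∈ W := by rw [pow_succ']; exact h3.1 ▸ ⟨_, h4 k u hu, rfl⟩
  rw [h1, algebraMap_end_apply, W.smul_mem_iff hz] at h5
  rw [Submodule.disjoint_def.1 h2.1.disjoint u hu h5, map_zero]
  exact U.zero_mem

variable [FiniteDimensional F V]

theorem PR.map (h : PR B Q m U W) {c : V ≃ₗ[F] V} (hc : c ∈ Isom B Q) :
    PR B Q m (U.map (c : V →ₗ[F] V)) (W.map (c : V →ₗ[F] V)) :=
  ⟨(Submodule.orderIsoMapComap c).isCompl h.1, inv_TS c hc U h.2.1, inv_TS c hc W h.2.2⟩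

theorem FxP.conj (h : FxP B Q m f) {c : V ≃ₗ[F] V} (hc : c ∈ Isom B Q) {g : End F V}
    (h1 : ∀ v, g (c v) = c (f v)) : FxP B Q m g :=
  let ⟨_, _, h2, h3⟩ := h; ⟨_, _, h2.map hc, h3.conj c h1⟩

theorem PR.finrank_eq (h : PR B Q m U W) : finrank F V = 2 * m := by
  rw [← Submodule.finrank_add_eq_of_isCompl h.1, h.2.1.1, h.2.2.1, two_mul]

theorem pr_iff (hQ : ∀ U : Submodule F V, U ≤ perp B U → ∀ u ∈ U, Q u = Q 0)
    (hW : IsWittPair σ B Q) (hn : finrank F V = 2 * m) :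
    PR B Q m U W ↔ IsCompl U W ∧ U ≤ perp B U ∧ W ≤ perp B W := by
  refine ⟨fun h => ⟨h.1, h.2.1.2.2, h.2.2.2.2⟩, fun ⟨h1, h2, h3⟩ => ?_⟩
  have := Submodule.finrank_add_eq_of_isCompl h1
  have := Submodule.finrank_mono h2
  have := Submodule.finrank_mono h3
  have := hW.finrank_perp U
  have := hW.finrank_perp W
  exact ⟨h1, ⟨by omega, hQ U h2, h2⟩, by omega, hQ W h3, h3⟩

section Witt

variable (hW : IsWittPair σ B Q)
include hW

theorem TS.perp_eq (h : TS B Q m U) (hn : finrank F V = 2 * m) : perp B U = U :=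
  (Submodule.eq_of_le_of_finrank_eq h.2.2 (by have := hW.finrank_perp U; have := h.1; omega)).symm

theorem TS.exists_pr (h : TS B Q m U) (hn : finrank F V = 2 * m) : ∃ W, PR B Q m U W := by
  have h0 := h.perp_eq hW hn
  obtain ⟨e, e', hf, rfl⟩ := hW.exists_hypFrame_span h.2.1 h.2.2 h.1
  have h1 := IsWittPair.span_le_perp_span (B := B) hf.ff
  have h2 := hf.disjoint hW
  have h4 := (finrank_span_eq_card (hf.linearIndependent_right hW)).trans (Fintype.card_fin m)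
  rw [hypSpan_eq_sup, perp_sup] at h2
  exact ⟨_, (Submodule.isCompl_iff_disjoint _ _ (by rw [h4, h.1]; omega)).2
    (Submodule.disjoint_def.2 fun x hx hx' => Submodule.disjoint_def.1 h2 x
      (Submodule.mem_sup_left hx) ⟨h.2.2 hx, h1 hx'⟩), h, h4,
    fun x hx => hW.singular_of_mem_span hf.qf hf.ff hx, h1⟩

theorem PR.nondeg (h : PR B Q m U W) (v : U) (hv : ∀ w : W, B.domRestrict₁₂ U W v w = 0) : v = 0 :=
  (pair_facts hW h.2.1.2.2 ((h.2.1.perp_eq hW h.finrank_eq).symm ▸ h.1.symm)).2.2.2 v hv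

theorem PR.not_fxP {g : Isom B Q} (h1 : finrank F (LinearMap.range (g.1.toLinearMap - 1)) = 1)
    (h2 : 2 ≤ m) : ¬ FxP B Q m g.1.toLinearMap := by
  rintro ⟨U, W, h3, h4 | h4⟩
  · wlog h5 : finrank F ↥(U ⊓ LinearMap.range (g.1.toLinearMap - 1)) = 0 generalizing U W
    · refine this W U h3.symm h4.symm ?_
      have h6 := Submodule.finrank_mono (sup_le (inf_le_right (a := U)) (inf_le_right (a := W)) :
        _ ≤ LinearMap.range (g.1.toLinearMap - 1))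
      rw [finrank_sup_of_disjoint (h3.1.disjoint.mono inf_le_left inf_le_left)] at h6
      omega
    have h6 : ∀ u ∈ U, g.1 u = u := fun u hu => sub_eq_zero.1 ((Submodule.eq_bot_iff _).1
      (Submodule.finrank_eq_zero.1 h5) _ ⟨U.sub_mem (h4.1 ▸ ⟨u, hu, rfl⟩) hu, u, rfl⟩)
    have h7 : ∀ w ∈ W, g.1 w = w := fun w hw => sub_eq_zero.1 (Submodule.disjoint_def.1
      h3.1.disjoint _ (h3.2.1.perp_eq hW h3.finrank_eq ▸ mem_perp.2 fun u hu => by
        rw [map_sub, ← g.2.1 u w, h6 u hu, sub_self]) (W.sub_mem (h4.2 ▸ ⟨w, hw, rfl⟩) hw))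
    rw [show g.1.toLinearMap - 1 = 0 from LinearMap.ext fun v => by
      obtain ⟨u, hu, w, hw, rfl⟩ := Submodule.mem_sup.1 (h3.1.sup_eq_top ▸ Submodule.mem_top :
        v ∈ U ⊔ W)
      simp [h6 u hu, h7 w hw], LinearMap.range_zero, finrank_bot] at h1
    omega
  · have h5 := LinearMap.finrank_le_finrank_of_injective (f := (g.1.toLinearMap - 1).rangeRestrict ∘ₗ
      U.subtype) ((injective_iff_map_eq_zero _).2 fun u hu => Subtype.ext (Submodule.disjoint_def.1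
        h3.1.disjoint _ u.2 ((sub_eq_zero.1 (congrArg Subtype.val hu) : g.1 u = u) ▸ h4.1 ▸
          ⟨u, u.2, rfl⟩)))
    have := h3.2.1.1
    omega

variable (hσ : ∀ x, σ (σ x) = x)
include hσ

theorem PR.exists_isom (h : PR B Q m U W) (h' : PR B Q m U' W') (φ : U ≃ₗ[F] U') :
    ∃ g : Isom B Q, (∀ u : U, g.1 u = φ u) ∧ U.map g.1.toLinearMap = U' ∧
      W.map g.1.toLinearMap = W' := by
  obtain ⟨ψ, hψ⟩ := exists_dual' hσ (A' := (B.domRestrict₁₂ U' W').comp φ.toLinearMap) (h.nondeg hW)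
    (fun v hv => φ.map_eq_zero_iff.1 (h'.nondeg hW _ hv)) (h.2.1.1.trans h.2.2.1.symm)
    (h.2.1.1.trans h'.2.2.1.symm)
  replace hψ : ∀ (v : U) (w : W), B (φ v) (ψ w) = B v w := hψ
  let e := Submodule.prodEquivOfIsCompl _ _ h.1
  let g := e.symm.trans ((φ.prodCongr ψ).trans (Submodule.prodEquivOfIsCompl _ _ h'.1))
  have hg : ∀ (a : U) (b : W), g (a + b) = φ a + ψ b := fun a b => by
    rw [show (a + b : V) = e (a, b) from rfl]; simp [g]
  have h1 : ∀ a : U, g a = φ a := fun a => by simpa using hg a 0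
  have h2 : ∀ b : W, g b = ψ b := fun b => by simpa using hg 0 b
  refine ⟨⟨g, fun u v => ?_, fun u => ?_⟩, h1, ?_, ?_⟩
  · obtain ⟨⟨a, b⟩, rfl⟩ := e.surjective u
    obtain ⟨⟨a', b'⟩, rfl⟩ := e.surjective v
    simp [e, h1, h2, hψ, hW.symm _ _ _ _ (hψ a' b), mem_perp.1 (h'.2.1.2.2 (φ a').2) _ (φ a).2,
      mem_perp.1 (h.2.1.2.2 a'.2) _ a.2, mem_perp.1 (h'.2.2.2.2 (ψ b').2) _ (ψ b).2,
      mem_perp.1 (h.2.2.2.2 b'.2) _ b.2]
  · obtain ⟨⟨a, b⟩, rfl⟩ := e.surjective u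
    simpa [e, h1, h2] using hW.add _ _ _ _ ((h'.2.1.2.1 _ (φ a).2).trans (h.2.1.2.1 _ a.2).symm)
      ((h'.2.2.2.1 _ (ψ b).2).trans (h.2.2.2.1 _ b.2).symm) (hψ a b)
  · exact Submodule.eq_of_le_of_finrank_eq (by rintro _ ⟨a, ha, rfl⟩; exact h1 ⟨a, ha⟩ ▸ (φ _).2)
      ((g.finrank_map_eq U).trans (h.2.1.1.trans h'.2.1.1.symm))
  · exact Submodule.eq_of_le_of_finrank_eq (by rintro _ ⟨a, ha, rfl⟩; exact h2 ⟨a, ha⟩ ▸ (ψ _).2)
      ((g.finrank_map_eq W).trans (h.2.2.1.trans h'.2.2.1.symm))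

theorem PR.ed_eq (h : PR B Q m U W) (g : Isom B Q) {φ : End F U} (h1 : ∀ u : U, g.1 u = φ u)
    (h2 : ∀ w ∈ W, g.1.toLinearMap w ∈ W) : ed g.1.toLinearMap = ed φ + (ed φ).map (cr σ) := by
  rw [← ed_of_pair hσ (h.nondeg hW) (h.2.1.1.trans h.2.2.1.symm) (g := g.1.toLinearMap.restrict h2)
    fun v w => (congrArg (B · _) (h1 v)).symm.trans (g.2.1 v w), ← ed_prodMap]
  exact (sim_iff_ed.1 ⟨Submodule.prodEquivOfIsCompl _ _ h.1, fun v => by simp [h1]⟩).symm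

theorem fxP_of_fx {g : Isom B Q} (hs : End.IsSemisimple g.1.toLinearMap) (hn : finrank F V = 2 * m)
    (hu : ∀ y : Isom B Q, Sim y.1.toLinearMap g.1.toLinearMap → IsConj y g)
    (h1 : Fx (TS B Q m) g.1.toLinearMap) : FxP B Q m g.1.toLinearMap := by
  obtain ⟨U, hU, h2⟩ := h1
  obtain ⟨H, hH, x, h3, h4⟩ := exists_hypU_of_inv hW hσ g hs hU h2
  obtain ⟨W, h5⟩ := hU.exists_pr hW hn
  obtain ⟨y, h6, h7, h8⟩ := h5.exists_isom hW hσ h5
    (stabRestrict _ U ⟨g, mem_stabSet_iff_le.2 h2⟩)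
  have h9 := h5.ed_eq hW hσ y (φ := g.1.toLinearMap.restrict h2) h6 fun w hw => h8 ▸ ⟨w, hw, rfl⟩
  have h10 : ed x.2.1.toLinearMap = 0 := Multiset.eq_zero_of_forall_notMem fun a ha => by
    have := finrank_eq_ed x.2.1.toLinearMap
    have := (ed_isPP _ a ha).natDegree_pos
    have := Multiset.single_le_sum (by simp) _ (Multiset.mem_map_of_mem natDegree ha)
    have := hH.nd.finrank_perp hW
    omega
  obtain ⟨c, hc⟩ := isConj_iff.1 (hu y (sim_iff_ed.2 (by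
    rw [h9, ← h4, ← h3, ed_glue, h10, add_zero])))
  exact FxP.conj ⟨U, W, h5, .inl ⟨h7, h8⟩⟩ c.2 fun v => by simp [← hc]

theorem PR.card_dvd (h : PR B Q m U W) :
    Nat.card (U ≃ₗ[F] U) ∣ Nat.card ↥(stabSet (Isom B Q) U ⊓ stabSet (Isom B Q) W) :=
  Subgroup.card_dvd_of_surjective ((stabRestrict _ U).comp (Subgroup.inclusion inf_le_left))
    fun φ => by
      obtain ⟨g, h1, h2, h3⟩ := h.exists_isom hW hσ h φ
      exact ⟨⟨g, mem_stabSet_iff_map_eq.2 h2, mem_stabSet_iff_map_eq.2 h3⟩,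
        LinearEquiv.ext fun u => Subtype.ext (h1 u)⟩

theorem PR.card_eq (h : PR B Q m U W) : Nat.card (Isom B Q) =
    Nat.card {P : Submodule F V × Submodule F V // PR B Q m P.1 P.2} *
      Nat.card ↥(stabSet (Isom B Q) U ⊓ stabSet (Isom B Q) W) := by
  rw [card_eq_mul_of_coset (stabSet (Isom B Q) U ⊓ stabSet (Isom B Q) W)
    (fun g => (U.map g.1.toLinearMap, W.map g.1.toLinearMap)) fun g g' => ?_]
  · congr 1
    refine Nat.card_congr (Equiv.subtypeEquivRight fun P => ⟨?_, fun hP => ?_⟩)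
    · rintro ⟨g, rfl⟩; exact h.map g.2
    · obtain ⟨g, -, h2, h3⟩ := h.exists_isom hW hσ hP
        (LinearEquiv.ofFinrankEq _ _ (h.2.1.1.trans hP.2.1.1.symm))
      exact ⟨g, Prod.ext h2 h3⟩
  · have : ∀ X : Submodule F V, X.map g.1.toLinearMap = X.map g'.1.toLinearMap ↔
        g⁻¹ * g' ∈ stabSet (Isom B Q) X := fun X => by
      rw [mem_stabSet_iff_map_eq, ← (Submodule.map_injective_of_injective g.1.injective).eq_iff
        (b := X), ← Submodule.map_comp, eq_comm]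
      congr! 2
      ext; simp
    rw [Prod.ext_iff, this, this, Subgroup.mem_inf]

end Witt

theorem two_dvd_card_pr [Finite F] (h0 : 0 < m) :
    2 ∣ Nat.card {P : Submodule F V × Submodule F V // PR B Q m P.1 P.2} := by
  classical
  have : Finite V := Module.finite_of_finite F
  have := Fintype.ofFinite {P : Submodule F V × Submodule F V // PR B Q m P.1 P.2}
  have h1 := Equiv.Perm.card_fixedPoints_modEq (p := 2) (n := 1)
    (α := {P : Submodule F V × Submodule F V // PR B Q m P.1 P.2})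
    (f := fun P => ⟨P.1.swap, P.2.symm⟩) rfl
  rw [Fintype.card_eq_zero_iff (α := Function.fixedPoints _).2 ⟨fun P => h0.ne' ?_⟩] at h1
  · rw [Nat.card_eq_fintype_card]; exact Nat.modEq_zero_iff_dvd.1 h1
  · have h2 := P.1.2.1.disjoint
    rw [show P.1.1.2 = P.1.1.1 from congrArg (·.1.1) P.2, disjoint_self] at h2
    rw [← P.1.2.2.1.1, h2, finrank_bot]

section Sp

variable [Fintype F] {B : LinearMap.BilinForm F V} (hB : B.Nondegenerate) (hA : B.IsAlt)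
  (hn : finrank F V = 2 * m) (h0 : 0 < m)
include hB hA hn h0

theorem elu_two_fxP (h2 : (2 : F) ≠ 0) : Elu (SpG B) 2 (FxP B (fun _ => 0) m) := by
  have : Nontrivial V := (finrank_pos_iff (R := F)).1 (by omega)
  have hW := isWittPair_alt B hB hA
  have h4 : ((4 : ℕ) : F) ≠ 0 := by
    rw [show ((4 : ℕ) : F) = 2 * 2 by norm_num]; exact mul_ne_zero h2 h2
  refine (elu_two_iff h2 hW le_rfl).2 ⟨fun g _ h1 _ => ?_, fun g _ h1 => ?_⟩
  · refine fxP_of_fx hW (fun _ => rfl) (End.isSemisimple_of_squarefree_aeval_eq_zero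
      (squarefree_X_pow_sub_one (m := 2) h2) (by simp [h1])) hn (fun y hy => (isConj_SpG_of_sim hB
        hA (m := 2) h2 ((sub_pow_eq_one_iff g 2).2 h1) hy.symm).symm) ?_
    obtain ⟨N, h4, h5, h6⟩ := (eh_alt hB hA).exists_neg_space h2 g.2.1 h1
    have h7 := ND.alt hB hA ⟨rfl, h4⟩
    have h8 := ND.perp hW ⟨rfl, h4⟩
    obtain ⟨k, hk⟩ := even_finrank_of_alt h7.1 h7.2
    have := N.finrank_le
    rw [show m = k + (m - k) by omega]
    exact fx_ts_add h5 h6 hW h4 (fx_neg_one (exists_TS_alt h7.1 h7.2 (by omega)))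
      (fx_one (exists_TS_alt (h8.alt hB hA).1 (h8.alt hB hA).2 (by rw [h8.1]; omega)))
  obtain ⟨U, hU⟩ := exists_TS_alt hB hA hn.ge
  obtain ⟨W, h3⟩ := hU.exists_pr hW hn
  obtain ⟨B₀, h5⟩ := exists_eh_one (σ := RingHom.id F) (fun _ => rfl) U
  obtain ⟨φ, hφ⟩ := exists_dual' (fun _ => rfl) h5.nondeg (h3.nondeg hW) rfl
    (hU.1.trans h3.2.2.1.symm)
  replace hφ : ∀ v w : U, B v (φ w) = B₀ v w := hφ
  obtain ⟨y, h6, h7, h8⟩ := h3.exists_isom hW (fun _ => rfl) h3.symm φ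
  have h9 : ∀ u : U, y.1 (y.1 u) = -u := fun u => eq_neg_of_add_eq_zero_left (congrArg Subtype.val
    (h3.nondeg hW ⟨_, U.add_mem (h8.le ⟨_, h7.le ⟨u, u.2, rfl⟩, rfl⟩) u.2⟩ fun w => by
      obtain ⟨w, rfl⟩ := φ.surjective w
      have := y.2.1 (y.1 u) w
      rw [h6 w, h6 u, ← hA.neg_eq w, hφ, h5.symm, ← hφ] at this
      simp [LinearMap.domRestrict₁₂_apply, this, h6]))
  have h10 : y.1.toLinearMap ^ 2 = -1 := LinearMap.ext fun v => by
    obtain ⟨u, hu, w, hw, rfl⟩ := Submodule.mem_sup.1 (h3.1.sup_eq_top ▸ Submodule.mem_top :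
      v ∈ U ⊔ W)
    obtain ⟨w, hw', rfl⟩ := h7.ge hw
    simp [pow_two, h9 ⟨u, hu⟩, h9 ⟨w, hw'⟩, add_comm]
  have h11 : ∀ g : SpG B, g.1.toLinearMap ^ 2 = -1 → g.1.toLinearMap ^ 4 = 1 := fun g hg => by
    rw [show 4 = 2 * 2 from rfl, pow_mul, hg, neg_one_sq]
  obtain ⟨c, hc⟩ := isConj_iff.1 (isConj_SpG_of_sim hB hA h4 ((sub_pow_eq_one_iff y 4).2
    (h11 y h10)) ((ss_of_pow_eq_one h4 (h11 y h10)).sim (ss_of_pow_eq_one h4 (h11 g h1))
      ((charpoly_sq_neg h2 h10 ((eh_alt hB hA).ed_pres y.2.1) hn).trans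
        (charpoly_sq_neg h2 h1 ((eh_alt hB hA).ed_pres g.2.1) hn).symm)))
  exact FxP.conj ⟨U, W, h3, .inr ⟨h7, h8⟩⟩ c.2 fun v => by simp [← hc]

theorem not_elu_fxP (p : ℕ) [Fact p.Prime] [CharP F p] [hr : Fact r.Prime] (hr2 : r ≠ 2)
    (hrp : r ≠ p)
    (hd : r ∣ Nat.card {P : Submodule F V × Submodule F V // PR B (fun _ => 0) m P.1 P.2} / 2) :
    ¬ Elu (SpG B) r (FxP B (fun _ => 0) m) := fun H => by
  have : Nontrivial V := (finrank_pos_iff (R := F)).1 (by omega)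
  have hW := isWittPair_alt B hB hA
  obtain ⟨U, hU⟩ := exists_TS_alt hB hA hn.ge
  obtain ⟨W, h3⟩ := hU.exists_pr hW hn
  have h1 := Nat.card_pos (α := F)
  obtain ⟨j, h4, h5⟩ := exists_dvd_of_card (a := fun i => Nat.card F ^ (i + 1) + 1) (e := m ^ 2)
    (q := Nat.card F)
    (hd.trans (Nat.div_dvd_of_dvd (two_dvd_card_pr h0))) (h3.card_eq hW fun _ => rfl).symm.dvd
    ((prod_dvd_card_aut hU.1).trans (h3.card_dvd hW fun _ => rfl)) (fun i => Nat.sub_ne_zero_of_lt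
      (Nat.one_lt_pow (by omega) Finite.one_lt_card)) (fun h => hrp ((Nat.prime_dvd_prime_iff_eq
        hr.out Fact.out).1 (by
          obtain ⟨n, -, h1⟩ := FiniteField.card F p
          exact hr.out.dvd_of_dvd_pow (by rwa [Nat.card_eq_fintype_card, h1] at h))))
    (by rw [card_SpG hB hA hn]; simp only [mul_comm 2, pow_mul, ← Nat.sq_sub_sq, one_pow])
  rw [Nat.card_eq_fintype_card] at h5
  have h6 := (dvd_pow_sub_one_iff (r := r) (Fintype.card_pos (α := F)) ((j + 1) * 2)).1 (by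
    rw [pow_mul, ← one_pow 2, Nat.sq_sub_sq]; exact h5.mul_right _)
  have h7 : Even (orderOf (Fintype.card F : ZMod r)) := by_contra fun h7 => hr2
    ((Nat.prime_dvd_prime_iff_eq hr.out Nat.prime_two).1 (by
      have := Nat.one_le_pow (j + 1) _ (Fintype.card_pos (α := F))
      convert Nat.dvd_sub h5 ((dvd_pow_sub_one_iff Fintype.card_pos _).2 ((Nat.coprime_two_right.2
        (Nat.not_even_iff_odd.1 h7)).dvd_of_dvd_mul_right h6)) using 1
      omega))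
  have h8 := Nat.le_of_dvd (by omega) h6
  have h9 := ord_facts (F := F) p hrp
  have h10 := (forall_fx_TS_iff (cb_id p hr2 hrp) hW (uq_sp p hrp hB hA) p hrp (fun _ => rfl)
    (rk_sp p hr2 hrp hB hA hn).1 ⟨U, hU⟩ (fun H hH => (rk_sp p hr2 hrp
      ((hH.nd.perp hW).alt hB hA).1 ((hH.nd.perp hW).alt hB hA).2
      (hn ▸ hH.nd.finrank_perp hW)).1) (by
        rw [Nat.sub_self, Nat.zero_div, cc_even h7]; exact Nat.div_pos (by omega) h9.1)).1
    fun g h1 h2 => ((elu_sp_iff hB hA (hr.out.odd_of_ne_two hr2) fun f hf =>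
      FxP.of_smul (c := -1) (by simp) (by simpa using hf)).1 H g h1 h2).fx_odd
      (hr.out.odd_of_ne_two hr2) one_ne_zero (by rw [(sub_pow_eq_one_iff g r).1 h1, map_one])
  rw [ww_even h7, if_pos h7, Nat.sub_self, Nat.zero_div] at h10
  omega

end Sp

variable [Fintype F] (hF : Fintype.card F = q ^ 2) (p : ℕ) [hp : Fact p.Prime] [CharP F p]
  [hr : Fact r.Prime] (hq : ∀ x, σ x = x ^ q) (hσ : σ ≠ RingHom.id F) (h : EH σ 1 B)
  (hn : finrank F V = 2 * m) (hm : 2 ≤ m)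
include hF p hq hσ h hn hm

omit hF p hp hq hr [Fintype F] in
theorem EH.not_elu_fxP {y : UG B} (h1 : y ^ r = 1)
    (h2 : finrank F (LinearMap.ker (y.1.toLinearMap - 1)) + 1 = finrank F V) {c : F}
    (h3 : σ c * c = 1) (h4 : c ^ finrank F V * LinearMap.det y.1.toLinearMap = 1) :
    ¬ Elu (SUG B) r (FxP B (fun x => B x x) m) := fun H => by
  obtain ⟨x, hx⟩ := exists_smul_UG y h3
  have h5 := right_ne_zero_of_mul_eq_one h3
  have h6 := (y.1.toLinearMap - 1).finrank_range_add_finrank_ker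
  refine PR.not_fxP (h.wp hσ) (g := y) (by omega) hm (FxP.of_smul h5 (hx ▸ H _ (mem_SUG.2
    ⟨x.2.1, by rw [hx, LinearMap.det_smul, h4]⟩) ⟨c ^ r, ?_⟩ fun z hz => ?_))
  · rw [hx, _root_.smul_pow, (sub_pow_eq_one_iff y r).1 h1, Algebra.algebraMap_eq_smul_one]
  rw [show y.1.toLinearMap - 1 = (c⁻¹ * z - 1) • LinearMap.id by
    rw [sub_smul, mul_smul, show z • LinearMap.id = c • y.1.toLinearMap from
      (hx.symm.trans hz).symm, inv_smul_smul₀ h5, one_smul]; rfl] at h2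
  by_cases h7 : c⁻¹ * z - 1 = 0
  · rw [h7, zero_smul, LinearMap.ker_zero, finrank_top] at h2
    omega
  · rw [LinearMap.ker_smul _ _ h7, LinearMap.ker_id, finrank_bot] at h2
    omega

theorem EH.elu_fxP {ω : ℕ} (h1 : r ∣ ω) (hP : PR B (fun x => B x x) m U W)
    (h2 : ω * Nat.card (U ≃ₗ[F] U) ∣ Nat.card (UG B)) : Elu (SUG B) r (FxP B (fun x => B x x) m) ↔
      r = 2 ∧ Odd q ∧ padicValNat 2 (q + 1) ≤ padicValNat 2 (2 * m) := by
  have : Nontrivial V := (finrank_pos_iff (R := F)).1 (by omega)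
  have hW := h.wp hσ
  rcases eq_or_ne r p with rfl | hrp
  · refine iff_of_false ?_ fun ⟨h3, h4, _⟩ => h4.not_two_dvd_nat (h3 ▸ (q_facts hF r).2.1)
    have h3 : ∀ d ∈ ({2} + Multiset.replicate (2 * m - 2) 1 : Multiset ℕ), 0 < d ∧ d ≤ 2 :=
      fun d hd => by rcases Multiset.mem_add.1 hd with hd | hd <;> simp_all [Multiset.mem_replicate]
    obtain ⟨g, hg⟩ := h.exists_UG hσ (s := ({2} + Multiset.replicate (2 * m - 2) 1 :
      Multiset ℕ).map fun d => (X - 1) ^ d) (fun a ha => by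
        obtain ⟨d, hd, rfl⟩ := Multiset.mem_map.1 ha; exact isPP_X_sub_one_pow (h3 d hd).1)
      (fun a ha => by
        obtain ⟨d, -, rfl⟩ := Multiset.mem_map.1 ha; exact not_X_dvd_X_sub_one_pow d)
      (by simp [cr_X_sub_one]) (by simp [natDegree_X_sub_one]; omega)
    replace hg := uj_of_ed (fun d hd => (h3 d hd).1) hg
    exact h.not_elu_fxP hσ hn hm ((sub_pow_eq_one_iff g r).2 ((hg.pow_eq_one_iff r).2
      fun d hd => (h3 d hd).2.trans hr.out.two_le)) (by rw [hg.finrank_ker]; simp; omega)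
      (c := 1) (by simp) (by simpa using det_of_nilpotent_sub (g := g.1.toLinearMap) one_ne_zero (by
        rw [map_one]; exact hg.1))
  rcases eq_or_ne r 2 with rfl | hr2
  · have h3 := (dvd_succ_iff hF p hrp).2 (.inl rfl)
    rw [and_iff_right rfl, and_iff_right (Nat.odd_iff.2 (by omega))]
    refine ⟨fun H => by_contra fun h4 => ?_, fun H g hg ⟨z, hz⟩ h4 => fxP_of_fx hW h.invol
      (g := ⟨g, hg.1⟩) (isSemisimple_of_pow p hrp (right_ne_zero_of_mul_eq_one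
        (h.norm_scalar ⟨g, hg.1⟩ hz)) hz) hn (fun y => (h.isConj_UG_iff hσ _ _).2)
      ((h.u_ts' hF p hq hσ h3 (by omega) hn.ge).2 (.inl ⟨rfl, .inr (hn ▸ H)⟩) g hg ⟨z, hz⟩ h4)⟩
    obtain ⟨y, e1, -, e3, e4, -⟩ := h.exists_refl hF p hq hσ h3 (by omega)
    obtain ⟨c, h5, h6⟩ := (exists_pow_eq_neg_one hF p hq h3 (n := finrank F V) (by omega)).2
      (by rw [hn]; omega)
    have h7 := card_nt_le p hr.out hrp ((sub_pow_eq_one_iff y 2).1 e1)
    rw [HasED.nt_eq p hr.out hrp (h := e4 ▸ hasED_ed y.1.toLinearMap) (by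
      simpa [mem_facs] using ⟨monic_X_add_C 1, by simpa using irreducible_X_sub_C (-1 : F)⟩),
      (h.cb_lin hF p hq h3).1] at h7
    exact h.not_elu_fxP hσ hn hm e1 (by simpa [add_comm] using h7) h5 (by simp [h6, e3]) H
  refine iff_of_false (fun H => ?_) (by simp [hr2])
  replace H : Elu (SUG B) r (Fx (TU B m)) := fun g hg ⟨z, hz⟩ h4 => (H g hg ⟨z, hz⟩ h4).fx_odd
    (hr.out.odd_of_ne_two hr2) (right_ne_zero_of_mul_eq_one (h.norm_scalar ⟨g, hg.1⟩ hz)) hz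
  have h3 := hr.out.two_le
  by_cases h4 : r ∣ q + 1
  · have := (h.u_ts' hF p hq hσ h4 (by omega) hn.ge).1 H
    omega
  have h5 := (q_facts hF p).1
  obtain ⟨j, h6, h7⟩ := exists_dvd_of_card (a := fun i => aU q (2 * i)) (q := q)
    (e := 2 * m * (2 * m - 1) / 2) h1 h2 (prod_dvd_card_aut hP.2.1.1) (fun i => Nat.sub_ne_zero_of_lt
      (Nat.one_lt_pow (by omega) Finite.one_lt_card))
    (mt (ZMod.natCast_eq_zero_iff _ _).2 (q_ne_zero hF p hrp)) (by
      rw [card_UG hF hq _ (h.isHerm hσ) h.nondegenerate hn, Nat.card_eq_fintype_card, hF]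
      congr 1
      clear hP hn hm H
      induction m with
      | zero => simp
      | succ m ih =>
        rw [mul_add, mul_one, Finset.prod_range_succ, Finset.prod_range_succ, ih,
          Finset.prod_range_succ, mul_assoc, if_neg (c := Even (2 * m + 1)) (by simp), ← pow_mul]
        rfl)
  obtain ⟨h8, h9⟩ := cU_dvd hr2 (q_ne_zero hF p hrp) h7
  have h10 := Nat.le_of_dvd (by omega) h8
  have h11 := ord_facts (F := F) p hrp
  have h12 : wU (orderOf (q : ZMod r)) = 1 := if_pos (h9 (even_two_mul j))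
  have h13 := (forall_fx_TS_iff (h.cb' hF p hq hr2 hrp) hW (h.uq hσ) p hrp h.invol
    (h.rk hF p hq hσ hr2 hrp hn).1 ⟨U, hP.2.1⟩ (fun H hH => ((h.dr hσ (hH.nd.perp hW).2).rk hF p hq
      hσ hr2 hrp (hn ▸ hH.nd.finrank_perp hW)).1) (by
        rw [Nat.sub_self, Nat.zero_div]; exact Nat.div_pos (by omega) (Nat.pos_of_dvd_of_pos h8
          (by omega)))).1 ((h.elu_su_of_not_dvd hF hq hσ h4).1 H)
  rw [h12, if_pos rfl, Nat.sub_self, Nat.zero_div] at h13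
  omega

theorem EH.elu_cj_pair (hP : PR B (fun x => B x x) m U W) {H : Subgroup (V ≃ₗ[F] V)}
    (hH : ∀ g, g ∈ H ↔ g ∈ SUG B ∧ Sw U W g.toLinearMap) {ω : ℕ} (h1 : r ∣ ω)
    (h2 : ω * Nat.card H = Nat.card (SUG B)) : Elu (SUG B) r (Cj (SUG B) H) ↔
      r = 2 ∧ Odd q ∧ padicValNat 2 (q + 1) ≤ padicValNat 2 (2 * m) := by
  have : Nontrivial V := (finrank_pos_iff (R := F)).1 (by omega)
  have hW := h.wp hσ
  have h3 : Nat.card (suSub B) = Nat.card (SUG B) := Nat.card_congr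
    ⟨fun g => ⟨g.1.1, mem_SUG.2 ⟨g.1.2.1, mem_suSub.1 g.2⟩⟩,
      fun g => ⟨⟨g.1, g.2.1⟩, mem_suSub.2 (mem_SUG.1 g.2).2⟩, fun _ => rfl, fun _ => rfl⟩
  have h4 := h.elu_fxP hF p hq hσ hn hm h1 hP (by
    let K := stabSet (UG B) U ⊓ stabSet (UG B) W
    let f := (udet h.nondegenerate).comp K.subtype
    rw [card_UG_eq_mul hF hq (h.isHerm hσ) h.nondegenerate, h3, ← h2, mul_left_comm,
      ← card_normOne hF hq]
    refine mul_dvd_mul_left _ ((hP.card_dvd hW h.invol).trans ?_)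
    rw [← f.ker.card_mul_index, Subgroup.index_ker, mul_comm]
    refine mul_dvd_mul f.range.card_subgroup_dvd_card (Subgroup.card_dvd_of_injective
      (((UG B).subtype.comp (K.subtype.comp f.ker.subtype)).codRestrict H fun g => (hH _).2
        ⟨mem_SUG.2 ⟨g.1.1.2.1, (udet_coe h.nondegenerate _).symm.trans (congrArg (·.1.1) g.2)⟩,
          .inl ⟨mem_stabSet_iff_map_eq.1 g.1.2.1, mem_stabSet_iff_map_eq.1 g.1.2.2⟩⟩)
      fun a b e => Subtype.ext (Subtype.ext (Subtype.ext (congrArg Subtype.val e :)))))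
  refine ⟨fun H' => h4.1 fun g hg h5 h6 => ?_, fun H' g hg ⟨z, hz⟩ h6 => ?_⟩
  · obtain ⟨c, hc, y, hy, h7⟩ := H' g hg h5 h6
    exact FxP.conj ⟨U, W, hP, ((hH y).1 hy).2⟩ hc.1 h7
  obtain ⟨U', W', h7, h8⟩ := h4.2 H' g hg ⟨z, hz⟩ h6
  obtain ⟨c, -, h9, h10⟩ := hP.exists_isom hW h.invol h7
    (LinearEquiv.ofFinrankEq _ _ (hP.2.1.1.trans h7.2.1.1.symm))
  have hrp : r ≠ p := fun e => H'.2.1.not_two_dvd_nat (H'.1 ▸ e ▸ (q_facts hF p).2.1)
  obtain ⟨k, e1, e2, e3⟩ := h.detU_of_ss hσ (f := g.toLinearMap) hg.1.1 (ss_of_squarefree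
    (separable_X_pow_sub_C' p r z (fun h1 => hrp ((Nat.prime_dvd_prime_iff_eq hp.out hr.out).1
      h1).symm) (right_ne_zero_of_mul_eq_one (h.norm_scalar ⟨g, hg.1⟩ hz))).squarefree (by simp [hz]))
    (udet h.nondegenerate c⁻¹).2
  let k' := LinearEquiv.ofInjectiveEndo k (h.pres_injective e1)
  have e4 : ∀ v, g (k' v) = k' (g v) := fun v => (LinearMap.congr_fun e2 v).symm
  refine ⟨k' * c.1, mem_SUG.2 ⟨fun u v => (e1 _ _).trans (c.2.1 u v), ?_⟩, c.1⁻¹ * g * c.1,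
    (hH _).2 ⟨mem_SUG.2 ⟨(mul_mem (mul_mem (inv_mem c.2) hg.1) c.2).1, ?_⟩, ?_⟩,
    fun v => by simp [e4]⟩
  · rw [LinearEquiv.coe_toLinearMap_mul, map_mul, show LinearMap.det k'.toLinearMap = _ from e3,
      ← udet_coe h.nondegenerate, map_inv]
    simp
  · rw [← LinearEquiv.coe_det, map_mul, map_mul, hg.2]; simp
  · simpa [← h9, ← h10, ← Submodule.map_comp] using h8.conj c.1.symm
      (g := (c.1⁻¹ * g * c.1).toLinearMap) fun v => by simp

end CF.Cls
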