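/-
Elements of prime order and orthogonal decompositions of symplectic spaces.
-/
import Cfsg.Agent.Cls.El13
import Cfsg.Agent.Classical.EluA

set_option autoImplicit false

namespace CF.Cls

open Polynomial Module CF.Geom CF.Classical

universe u v

section Gen

variable {F V W : Type*} [Field F] [AddCommGroup V] [Module F V] [AddCommGroup W] [Module F W]
  {σ : F →+* F} {B : V →ₛₗ[σ] V →ₗ[F] F} {B' : W →ₛₗ[σ] W →ₗ[F] F} {Q : V → F} {a s t : ℕ}
  {ι κ : Type} {f : End F V} {g : End F W} {D D' : ι → Submodule F V}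

/-- Orthogonal decompositions into non-degenerate `a`-spaces. -/
def OD (B : V →ₛₗ[σ] V →ₗ[F] F) (a : ℕ) (D : ι → Submodule F V) : Prop :=
  (∀ i, ND B a (D i)) ∧ (∀ i j, i ≠ j → D j ≤ perp B (D i)) ∧ iSup D = ⊤

/-- `f` permutes the summands of an orthogonal decomposition. -/
def OSt (B : V →ₛₗ[σ] V →ₗ[F] F) (a : ℕ) (ι : Type) (f : End F V) : Prop :=
  ∃ D : ι → Submodule F V, OD B a D ∧ ∃ τ : Equiv.Perm ι, ∀ j, (D j).map f = D (τ j)

theorem ND.map_of {U : Submodule F V} (h : ND B a U) {φ : V →ₗ[F] W}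
    (hφ : ∀ x y, B' (φ x) (φ y) = B x y) (hi : Function.Injective φ) : ND B' a (U.map φ) :=
  ⟨(Submodule.equivMapOfInjective φ hi U).finrank_eq.symm.trans h.1, Submodule.disjoint_def.2 <| by
    rintro _ ⟨u, hu, rfl⟩ h1
    rw [Submodule.disjoint_def.1 h.2 u hu fun x hx => (hφ x u).symm.trans (h1 _ ⟨x, hx, rfl⟩),
      map_zero]⟩

theorem map_le_perp {U U' : Submodule F V} (h : U ≤ perp B U') {φ : V →ₗ[F] W}
    (hφ : ∀ x y, B' (φ x) (φ y) = B x y) : U.map φ ≤ perp B' (U'.map φ) := by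
  rintro _ ⟨u, hu, rfl⟩ _ ⟨x, hx, rfl⟩
  exact (hφ x u).trans (h hu x hx)

theorem OD.map (h : OD B a D) (c : V ≃ₗ[F] W) (hc : ∀ x y, B' (c x) (c y) = B x y) :
    OD B' a fun i => (D i).map c.toLinearMap :=
  ⟨fun i => (h.1 i).map_of hc c.injective, fun i j hij => map_le_perp (h.2.1 i j hij) hc, by
    rw [← Submodule.map_iSup, h.2.2, Submodule.map_top, c.range]⟩

theorem OD.comp (h : OD B a D) (e : κ ≃ ι) : OD B a (D ∘ e) :=
  ⟨fun _ => h.1 _, fun _ _ hij => h.2.1 _ _ (e.injective.ne hij), e.iSup_comp.trans h.2.2⟩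

theorem OSt.reindex (h : OSt B a ι f) (e : ι ≃ κ) : OSt B a κ f := by
  obtain ⟨D, h1, τ, h2⟩ := h
  exact ⟨_, h1.comp e.symm, e.permCongr τ, fun j => by simp [h2]⟩

theorem OSt.conj (h : OSt B a ι f) (c : V ≃ₗ[F] W) (hc : ∀ x y, B' (c x) (c y) = B x y)
    (h1 : ∀ v, g (c v) = c (f v)) : OSt B' a ι g := by
  obtain ⟨D, h2, τ, h3⟩ := h
  refine ⟨_, h2.map c hc, τ, fun j => ?_⟩
  rw [← h3, ← Submodule.map_comp, ← Submodule.map_comp]
  exact congrArg (D j).map (LinearMap.ext h1)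

theorem OSt.of_isConj {x y : Isom B Q} (h : OSt B a ι x.1.toLinearMap) (hc : IsConj x y) :
    OSt B a ι y.1.toLinearMap := by
  obtain ⟨c, rfl⟩ := isConj_iff.1 hc
  exact h.conj c.1 c.2.1 fun v => by simp

theorem OSt.of_neg (f : End F V) (h : OSt B a ι (-f)) : OSt B a ι f := by
  obtain ⟨D, h1, τ, h2⟩ := h
  exact ⟨D, h1, τ, fun j => (Submodule.map_neg _ _).symm.trans (h2 j)⟩

theorem ost_zero [FiniteDimensional F V] (h : finrank F V = 0) : OSt B a (Fin 0) f :=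
  have := finrank_zero_iff.1 h
  ⟨fun _ => ⊥, ⟨(·.elim0), (·.elim0), Subsingleton.elim _ _⟩, 1, (·.elim0)⟩

theorem ost_one (hW : IsWittPair σ B Q) (h : finrank F V = a) (x : V ≃ₗ[F] V) :
    OSt B a (Fin 1) x.toLinearMap :=
  ⟨fun _ => ⊤, ⟨fun _ => ⟨(finrank_top F V).trans h, Submodule.disjoint_def.2 fun y _ hy =>
    hW.nondegenerate.2 y fun x => hy x trivial⟩, fun _ _ h => (h (Subsingleton.elim _ _)).elim,
      iSup_const⟩, 1, fun _ => by simp⟩

variable [FiniteDimensional F V] (hW : IsWittPair σ B Q)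
include hW

theorem ost_glue {N : Submodule F V} (hN : Disjoint N (perp B N))
    {x : IU B Q N × IU B Q (perp B N)} (h1 : OSt (B.domRestrict₁₂ N N) a (Fin s) x.1.1.toLinearMap)
    (h2 : OSt (B.domRestrict₁₂ (perp B N) (perp B N)) a (Fin t) x.2.1.toLinearMap) :
    OSt B a (Fin (s + t)) (glue hW hN x).1.toLinearMap := by
  obtain ⟨D₁, h3, τ₁, h4⟩ := h1
  obtain ⟨D₂, h5, τ₂, h6⟩ := h2
  refine OSt.reindex ⟨Sum.elim (fun i => (D₁ i).map N.subtype) fun i => (D₂ i).map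
    (perp B N).subtype, ⟨?_, ?_, ?_⟩, τ₁.sumCongr τ₂, ?_⟩ finSumFinEquiv
  · rintro (i | i)
    · exact (h3.1 i).map_of (fun _ _ => rfl) N.injective_subtype
    · exact (h5.1 i).map_of (fun _ _ => rfl) (perp B N).injective_subtype
  · rintro (i | i) (j | j) hij
    · exact map_le_perp (h3.2.1 i j (by simpa using hij)) fun _ _ => rfl
    · rintro _ ⟨u, -, rfl⟩ _ ⟨w, -, rfl⟩
      exact u.2 _ w.2
    · rintro _ ⟨u, -, rfl⟩ _ ⟨w, -, rfl⟩
      exact hW.refl (w.2 _ u.2)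
    · exact map_le_perp (h5.2.1 i j (by simpa using hij)) fun _ _ => rfl
  · simp only [iSup_sum, Sum.elim_inl, Sum.elim_inr, ← Submodule.map_iSup, h3.2.2, h5.2.2,
      Submodule.map_subtype_top]
    exact (hW.isCompl_perp hN).sup_eq_top
  · rintro (i | i)
    · simp only [Sum.elim_inl, Equiv.sumCongr_apply, Sum.map_inl, ← h4, ← Submodule.map_comp]
      exact congrArg (D₁ i).map (LinearMap.ext (glue_left hW hN x))
    · simp only [Sum.elim_inr, Equiv.sumCongr_apply, Sum.map_inr, ← h6, ← Submodule.map_comp]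
      exact congrArg (D₂ i).map (LinearMap.ext (glue_right hW hN x))

theorem ost_succ {N : Submodule F V} (hN : ND B a N) {x : IU B Q N × IU B Q (perp B N)}
    (h2 : OSt (B.domRestrict₁₂ (perp B N) (perp B N)) a (Fin t) x.2.1.toLinearMap) :
    OSt B a (Fin (t + 1)) (glue hW hN.2 x).1.toLinearMap :=
  add_comm 1 t ▸ ost_glue hW hN.2 (ost_one (hW.restrict hN.2) hN.1 _) h2

omit hW in
theorem OD.isInternal [Fintype ι] [DecidableEq ι] (h : OD B a D)
    (hd : Fintype.card ι * a = finrank F V) : DirectSum.IsInternal D :=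
  isInternal_of_finrank h.2.2 (by simp [(h.1 _).1, hd])

omit hW [FiniteDimensional F V] in
theorem map_pow_eq {τ : Equiv.Perm ι} (h : ∀ j, (D j).map f = D (τ j)) (u : ℕ) (j : ι) :
    (D j).map (f ^ u) = D ((τ ^ u) j) := by
  induction u with
  | zero => exact Submodule.map_id _
  | succ u ih => rw [pow_succ', pow_succ', End.mul_eq_comp, Submodule.map_comp, ih, h]; rfl

omit hW in
/-- A moved summand forces large fixed space and large commutator space. -/
theorem OD.moved (h : OD B a D) (ha : 0 < a) {x : Isom B Q} {r : ℕ} (hr : r.Prime)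
    (hx : x.1.toLinearMap ^ r = 1) {τ : Equiv.Perm ι} (h1 : ∀ j, (D j).map x.1.toLinearMap = D (τ j))
    {j : ι} (hj : τ j ≠ j) : a ≤ finrank F (LinearMap.ker (x.1.toLinearMap - 1)) ∧
      (r - 1) * a ≤ finrank F (LinearMap.range (x.1.toLinearMap - 1)) := by
  set g := x.1.toLinearMap
  have h2 : ∀ u ∈ D j, (∀ v ∈ D j, B v u = 0) → u = 0 := Submodule.disjoint_def.1 (h.1 j).2
  have h3 : (τ ^ r) j = j := by_contra fun e => by
    have h3 := h.2.1 _ _ e
    rw [← map_pow_eq h1, hx, show (D j).map (1 : End F V) = D j from Submodule.map_id _] at h3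
    have := (h.1 j).1
    rw [(h.1 j).2.eq_bot_of_le h3, finrank_bot] at this
    omega
  have h4 : ∀ k, 0 < k → k < r → (τ ^ k) j ≠ j := fun k h4 h5 e => hj <| by
    have := Function.IsPeriodicPt.gcd (f := τ) (x := j) (m := k) (n := r)
      (Equiv.Perm.iterate_eq_pow τ k ▸ e :) (Equiv.Perm.iterate_eq_pow τ r ▸ h3 :)
    rwa [(Nat.coprime_comm.1 (Nat.coprime_of_lt_prime h4.ne' h5 hr) : k.Coprime r)] at this
  have h5 : ∀ k u v, B ((g ^ k) u) ((g ^ k) v) = B u v := fun k u v => by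
    induction k with
    | zero => rfl
    | succ k ih => rw [pow_succ', ← ih]; exact x.2.1 _ _
  have h6 : ∀ k m, k < r → m < r → k ≠ m → ∀ u ∈ D j, ∀ v ∈ D j,
      B ((g ^ k) u) ((g ^ m) v) = 0 := fun k m hk hm hkm u hu v hv =>
    h.2.1 ((τ ^ k) j) ((τ ^ m) j) (fun e => by
      rcases lt_or_gt_of_ne hkm with h7 | h7 <;> obtain ⟨l, rfl⟩ := Nat.exists_eq_add_of_lt h7 <;>
        rw [add_assoc, pow_add, Equiv.Perm.mul_apply] at e
      · exact h4 _ l.succ_pos (by omega) ((τ ^ k).injective e).symm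
      · exact h4 _ l.succ_pos (by omega) ((τ ^ m).injective e))
      (map_pow_eq h1 m j ▸ ⟨v, hv, rfl⟩) _ (map_pow_eq h1 k j ▸ ⟨u, hu, rfl⟩)
  obtain ⟨n, rfl⟩ := Nat.exists_eq_add_of_lt hr.pos
  rw [zero_add] at *
  constructor
  · refine (h.1 j).1.ge.trans (LinearMap.finrank_le_finrank_of_injective
      (f := ((∑ k ∈ Finset.range (n + 1), g ^ k) ∘ₗ (D j).subtype).codRestrict _ fun u => ?_)
      ((injective_iff_map_eq_zero _).2 fun u hu => Subtype.ext (h2 _ u.2 fun v hv => ?_)))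
    · rw [LinearMap.mem_ker, LinearMap.comp_apply, ← End.mul_apply, mul_geom_sum, hx, sub_self]
      rfl
    · have h7 := congrArg (fun y : LinearMap.ker (g - 1) => B v y) hu
      simp only [LinearMap.codRestrict_apply, LinearMap.comp_apply, LinearMap.sum_apply, map_sum,
        ZeroMemClass.coe_zero, map_zero] at h7
      exact (Finset.sum_eq_single 0 (fun k hk h8 => h6 0 k (by omega) (Finset.mem_range.1 hk)
        h8.symm v hv _ u.2) (by simp)).symm.trans h7
  let ψ : (Fin n → D j) →ₗ[F] V := ∑ k : Fin n, (g ^ k.1) ∘ₗ (D j).subtype ∘ₗ LinearMap.proj k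
  refine le_trans (by simp [finrank_pi_fintype, (h.1 j).1]) (LinearMap.finrank_le_finrank_of_injective
    (f := (g - 1).rangeRestrict ∘ₗ ψ) ((injective_iff_map_eq_zero _).2 fun u hu => ?_))
  have h7 : ∀ k, (g ^ k) (ψ u) = ψ u := fun k => by
    induction k with
    | zero => rfl
    | succ k ih =>
      rw [pow_succ', End.mul_apply, ih]
      exact sub_eq_zero.1 (congrArg Subtype.val hu)
  have h8 : ∀ m v, B ((g ^ m) v) (ψ u) = ∑ k : Fin n, B ((g ^ m) v) ((g ^ k.1) (u k)) := by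
    simp [ψ]
  refine funext fun k => Subtype.ext (h2 _ (u k).2 fun v hv => ?_)
  have h9 := h8 k v
  rw [← h7 k, h5, ← h5 n, h7, h8, Finset.sum_eq_zero fun (m : Fin n) _ => h6 n m (by omega)
    (by omega) (by omega) v hv _ (u m).2, Finset.sum_eq_single k (fun m _ e => h6 k m (by omega) (by omega)
      (fun e' => e (Fin.ext e'.symm)) v hv _ (u m).2) (by simp), h5] at h9
  exact h9.symm

theorem OD.card_nt_le [Fintype ι] [DecidableEq ι] (h : OD B a D)
    (hd : Fintype.card ι * a = finrank F V) {r K : ℕ} (hK : ∀ i, RzK σ (IU B Q (D i)) r K)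
    {x : Isom B Q} (hx : x ^ r = 1) (h1 : ∀ j, ∀ v ∈ D j, x.1.toLinearMap v ∈ D j) :
    (nt x.1.toLinearMap).card ≤ Fintype.card ι * K := by
  classical
  have h2 : ∀ s : Multiset F[X], (s.filter (· ≠ X - 1)).card =
      Multiset.countPAddMonoidHom (· ≠ X - 1) s := fun s => (Multiset.countP_eq_card_filter _ _).symm
  rw [nt, ed_eq_sum_restrict (h.isInternal hd) h1, ← Finset.card_univ, ← smul_eq_mul]
  rw [h2, map_sum]
  refine Finset.sum_le_card_nsmul _ _ _ fun j _ => ?_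
  obtain ⟨y, rfl⟩ := exists_glue hW (h.1 j).2 x (h1 j)
  rw [← h2, show (glue hW (h.1 j).2 y).1.toLinearMap.restrict (h1 j) = y.1.1.toLinearMap from
    LinearMap.ext fun u => Subtype.ext (glue_left hW (h.1 j).2 y u)]
  exact ((hK j _).1 ⟨y.1, ((glue_pow_eq_one hW _).1 hx).1, rfl⟩).2

end Gen

section Sp

variable {F : Type u} [Field F] {V : Type v} [AddCommGroup V] [Module F V] [FiniteDimensional F V]
  {B : LinearMap.BilinForm F V} (hB : B.Nondegenerate) (hA : B.IsAlt) {k t a : ℕ}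
include hB hA

theorem ost_swap (h2 : (2 : F) = 0) (hd : finrank F V = 2 * (2 * k)) :
    ∃ x : SpG B, IT B x.1 (2 * k) True ∧ OSt B (2 * k) (Fin 2) x.1.toLinearMap := by
  have hW := isWittPair_alt B hB hA
  obtain ⟨U, hU⟩ := exists_ND_alt hB hA (m := k) (by omega)
  have hP := hU.perp hW
  rw [show finrank F V - 2 * k = 2 * k by omega] at hP
  obtain ⟨φ, hφ⟩ := exists_equiv_alt (hU.alt hB hA).1 (hU.alt hB hA).2 (hP.alt hB hA).1
    (hP.alt hB hA).2 (hU.1.trans hP.1.symm)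
  have hφ' : ∀ (u u' : U), B (φ u) (φ u') = B u u' := hφ
  have hc := hW.isCompl_perp hU.2
  let E := Submodule.prodEquivOfIsCompl _ _ hc
  let g : V ≃ₗ[F] V := E.symm ≪≫ₗ (φ.prodCongr φ.symm ≪≫ₗ LinearEquiv.prodComm F _ _) ≪≫ₗ E
  have h1 : ∀ (u w : U), g (u + φ w) = w + φ u := fun u w => by
    rw [show (u : V) + φ w = E (u, φ w) from rfl]
    simp [g, E]
  have h3 : ∀ v, ∃ u w : U, v = (u : V) + φ w := fun v =>
    ⟨(E.symm v).1, φ.symm (E.symm v).2, by rw [φ.apply_symm_apply]; exact (E.apply_symm_apply v).symm⟩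
  have h4 : ∀ u w : U, B u (φ w) = 0 := fun u w => (φ w).2 _ u.2
  have h5 : ∀ u w : U, B (φ w) u = 0 := fun u w => hW.refl (h4 u w)
  have h6 : g ∈ SpG B := ⟨fun v v' => by
    obtain ⟨u, w, rfl⟩ := h3 v
    obtain ⟨u', w', rfl⟩ := h3 v'
    simp [h1, h4, h5, hφ', add_comm], fun _ => rfl⟩
  have h7 : IT B g (finrank F (RU g)) True := ⟨LinearMap.ext fun v => by
    obtain ⟨u, w, rfl⟩ := h3 v
    simp [pow_two, h1], rfl, iff_true_intro fun v => by
      obtain ⟨u, w, rfl⟩ := h3 v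
      simp [h1, h4, h5, hφ', ← hA.neg_eq (u : V) w]⟩
  have h8 := (((ik_sp h2 hB hA hd) _ _).1 ⟨⟨g, h6⟩, h7⟩).1 trivial
  have h9 : ∀ u : U, g u = φ u := fun u => by simpa using h1 u 0
  have h10 : ∀ u : U, g (φ u) = u := fun u => by simpa using h1 0 u
  refine ⟨⟨g, h6⟩, (h8.2.antisymm (hU.1.ge.trans (LinearMap.finrank_le_finrank_of_injective
    (f := (g.toLinearMap - 1).rangeRestrict ∘ₗ U.subtype) ((injective_iff_map_eq_zero _).2
      fun u hu => ?_))) ▸ h7 :), ![U, perp B U], ⟨?_, ?_, ?_⟩, Equiv.swap 0 1, ?_⟩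
  · have : g u = u := sub_eq_zero.1 (congrArg Subtype.val hu)
    exact Subtype.ext (Submodule.disjoint_def.1 hU.2 _ u.2 (this ▸ h9 u ▸ (φ u).2))
  · simpa [Fin.forall_fin_two] using ⟨hU, hP⟩
  · have : U ≤ perp B (perp B U) := fun u hu w hw => hW.refl (hw u hu)
    simp [Fin.forall_fin_two, this]
  · rw [← hc.sup_eq_top]
    exact le_antisymm (iSup_le (by simp [Fin.forall_fin_two])) 
      (sup_le (le_iSup ![U, perp B U] 0) (le_iSup ![U, perp B U] 1))
  · simp only [Fin.forall_fin_two, Equiv.swap_apply_left, Equiv.swap_apply_right,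
      Matrix.cons_val_zero, Matrix.cons_val_one]
    refine ⟨le_antisymm ?_ fun w hw => ⟨_, (φ.symm ⟨w, hw⟩).2, by simp [h9]⟩,
      le_antisymm ?_ fun u hu => ⟨_, (φ ⟨u, hu⟩).2, h10 _⟩⟩
    · rintro _ ⟨u, hu, rfl⟩
      exact (h9 ⟨u, hu⟩).symm ▸ (φ _).2
    · rintro _ ⟨w, hw, rfl⟩
      obtain ⟨u, hu⟩ := φ.surjective ⟨w, hw⟩
      obtain rfl : φ u = w := congrArg Subtype.val hu
      exact (h10 u).symm ▸ u.2

variable [Finite F]

theorem ost_odd (h2 : (2 : F) ≠ 0) (hk : 0 < k) (hd : finrank F V = 2 * k * t) (g : SpG B) {z : F}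
    (hg : g.1.toLinearMap ^ 2 = algebraMap F _ z) : OSt B (2 * k) (Fin t) g.1.toLinearMap := by
  induction t generalizing V with
  | zero => exact ost_zero hd
  | succ t ih =>
    have hW := isWittPair_alt B hB hA
    obtain ⟨N, h1, h3⟩ : Fx (ND B (2 * k)) g.1.toLinearMap := by
      rw [mul_add] at hd
      by_cases h : ∃ c : F, g.1.toLinearMap = algebraMap F _ c
      · obtain ⟨c, hc⟩ := h
        rw [hc, Algebra.algebraMap_eq_smul_one]
        exact (fx_one (exists_ND_alt hB hA (by omega))).smul c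
      · exact elu_two_sp_nd h2 hB hA (by omega) (by omega) _ g.2 ⟨z, hg⟩ (not_exists.1 h)
    obtain ⟨x, rfl⟩ := exists_glue hW h1.2 g h3
    have h4 := h1.perp hW
    refine ost_succ hW h1 (ih (h4.alt hB hA).1 (h4.alt hB hA).2 (by rw [h4.1, hd, mul_add]; omega)
      x.2 (LinearMap.ext fun w => Subtype.ext ?_))
    simpa [pow_two, glue_right] using LinearMap.congr_fun hg w

theorem ost_two (h2 : (2 : F) = 0) (hk : 0 < k) (hd : finrank F V = 2 * (k * t)) (g : SpG B)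
    {s : ℕ} {b : Prop} (hg : IT B g.1 s b) : OSt B (2 * k) (Fin t) g.1.toLinearMap := by
  induction t using Nat.strong_induction_on generalizing V s b with | _ t ih
  rcases t with _ | t
  · exact ost_zero hd
  have hW := isWittPair_alt B hB hA
  have h1 := (ik_sp h2 hB hA hd s b).1 ⟨g, hg⟩
  rw [mul_add k, mul_one] at hd h1
  by_cases h3 : b ∧ Odd k ∧ s = k * t + k
  · obtain ⟨h3, h4, rfl⟩ := h3
    obtain ⟨h5, -⟩ := h1.1 h3
    rcases t with _ | t
    · simp [← Nat.not_odd_iff_even, h4] at h5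
    rw [mul_add k, mul_one] at hd h5 hg
    obtain ⟨N, hN⟩ := exists_ND_alt hB hA (m := 2 * k) (by omega)
    have h6 := hN.perp hW
    have h7 : finrank F (perp B N) = 2 * (k * t) := by rw [h6.1]; omega
    obtain ⟨x, h8, h9⟩ := ost_swap (hN.alt hB hA).1 (hN.alt hB hA).2 h2 hN.1
    obtain ⟨y, hy⟩ := (ik_sp h2 (h6.alt hB hA).1 (h6.alt hB hA).2 h7 (k * t) True).2
      ⟨fun _ => ⟨by rw [Nat.even_iff] at *; omega, le_rfl⟩, by simp⟩
    refine (show 2 + t = t + 1 + 1 by omega) ▸ (ost_glue hW hN.2 (x := (x, y)) h9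
      (ih t (by omega) (h6.alt hB hA).1 (h6.alt hB hA).2 h7 y hy)).of_isConj
        ((it_glue hW hN.2 h8 hy).isConj hW h2 hA (fun _ _ _ _ _ => rfl) ?_)
    convert hg using 1
    · omega
    · simp [h3]
  obtain ⟨N, hN⟩ := exists_ND_alt hB hA (m := k) (by omega)
  have h6 := hN.perp hW
  have h7 : finrank F (perp B N) = 2 * (k * t) := by rw [h6.1]; omega
  have h8 := ik_sp h2 (hN.alt hB hA).1 (hN.alt hB hA).2 hN.1
  have h9 := ik_sp h2 (h6.alt hB hA).1 (h6.alt hB hA).2 h7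
  obtain ⟨s₁, s₂, a₁, a₂, ⟨x, hx⟩, ⟨y, hy⟩, rfl, rfl⟩ : ∃ s₁ s₂ a₁ a₂,
      (∃ x : IU B (fun _ => 0) N, IT (B.domRestrict₁₂ N N) x.1 s₁ a₁) ∧
      (∃ y : IU B (fun _ => 0) (perp B N), IT (B.domRestrict₁₂ _ _) y.1 s₂ a₂) ∧
      s = s₁ + s₂ ∧ b = (a₁ ∧ a₂) := by
    simp only [h8 _ _, h9 _ _, Nat.even_iff, Nat.odd_iff] at h1 h3 ⊢
    by_cases hb : b
    · have := h1.1 hb
      simp only [hb, true_and] at h3
      exact ⟨min s (2 * (k / 2)), s - min s (2 * (k / 2)), True, True, by simp; omega,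
        by simp; omega, by omega, by simp [hb]⟩
    · have := h1.2 hb
      exact ⟨min s k, s - min s k, False, s ≤ k, by simp; omega, by omega, by omega,
        by simp [hb]⟩
  exact (ost_succ hW hN (x := (x, y)) (ih t (by omega) (h6.alt hB hA).1 (h6.alt hB hA).2 h7 y
    hy)).of_isConj ((it_glue hW hN.2 hx hy).isConj hW h2 hA (fun _ _ _ _ _ => rfl) hg)

theorem elu_two_ost (hk : 0 < k) (ht : 0 < t) (hd : finrank F V = 2 * k * t) :
    Elu (SpG B) 2 (OSt B (2 * k) (Fin t)) := by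
  have : Nontrivial V := (finrank_pos_iff (R := F)).1 (by rw [hd]; positivity)
  by_cases h2 : (2 : F) = 0
  · exact (elu_char_two h2 (isWittPair_alt B hB hA) le_rfl).2 fun g s b _ h _ =>
      ost_two hB hA h2 hk (by rw [hd, mul_assoc]) g h
  · exact fun g hg ⟨z, hz⟩ _ => ost_odd hB hA h2 hk hd ⟨g, hg⟩ hz

omit [Finite F] in
theorem OD.exists_isom {ι : Type} [Fintype ι] [DecidableEq ι] {D D' : ι → Submodule F V}
    (hd : Fintype.card ι * a = finrank F V) (h : OD B a D) (h' : OD B a D') :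
    ∃ g : SpG B, (fun j => (D j).map g.1.toLinearMap) = D' := by
  choose φ hφ using fun j => exists_equiv_alt ((h.1 j).alt hB hA).1 ((h.1 j).alt hB hA).2
    ((h'.1 j).alt hB hA).1 ((h'.1 j).alt hB hA).2 ((h.1 j).1.trans (h'.1 j).1.symm)
  let E := LinearEquiv.ofBijective (DirectSum.coeLinearMap D) (h.isInternal hd)
  let g : V ≃ₗ[F] V := E.symm ≪≫ₗ DFinsupp.mapRange.linearEquiv φ ≪≫ₗ
    LinearEquiv.ofBijective (DirectSum.coeLinearMap D') (h'.isInternal hd)
  have h1 : ∀ j (u : D j), g u = φ j u := fun j u => by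
    rw [show (u : V) = E (DFinsupp.single j u) from (DirectSum.coeLinearMap_of D j u).symm]
    simp only [g, LinearEquiv.trans_apply, LinearEquiv.symm_apply_apply]
    exact (congrArg (DirectSum.coeLinearMap D') (DFinsupp.mapRange_single (f := fun i => φ i)
      (hf := fun i => map_zero _))).trans (DirectSum.coeLinearMap_of D' j _)
  refine ⟨⟨g, fun u v => ?_, fun _ => rfl⟩, funext fun j => le_antisymm ?_ fun w hw =>
    ⟨_, ((φ j).symm ⟨w, hw⟩).2, by simp [h1]⟩⟩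
  · induction (h.2.2.ge (Submodule.mem_top (x := u))) using Submodule.iSup_induction' with
    | zero => simp
    | add _ _ _ _ h2 h3 => simp [h2, h3]
    | mem i u hu =>
      induction (h.2.2.ge (Submodule.mem_top (x := v))) using Submodule.iSup_induction' with
      | zero => simp
      | add _ _ _ _ h2 h3 => simp [h2, h3]
      | mem j v hv =>
        rw [h1 i ⟨u, hu⟩, h1 j ⟨v, hv⟩]
        rcases eq_or_ne i j with rfl | e
        · exact hφ i _ _
        · rw [h.2.1 i j e hv u hu, h'.2.1 i j e (φ j _).2 _ (φ i _).2]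
  · rintro _ ⟨u, hu, rfl⟩
    exact (h1 j ⟨u, hu⟩).symm ▸ (φ j _).2

omit [Finite F] in
theorem OD.card_dvd {ι : Type} [Fintype ι] [DecidableEq ι] {D : ι → Submodule F V}
    (hd : Fintype.card ι * a = finrank F V) (h : OD B a D) :
    Nat.card {D : ι → Submodule F V // OD B a D} ∣ Nat.card (SpG B) := by
  rw [card_eq_mul_of_coset (⨅ j, stabSet (SpG B) (D j))
    (fun g : SpG B => fun j => (D j).map g.1.toLinearMap) fun g g' => ?_]
  · refine Dvd.intro _ (congrArg (· * _) (Nat.card_congr (Equiv.subtypeEquivRight fun D' => ?_)))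
    exact ⟨h.exists_isom hB hA hd, by rintro ⟨g, rfl⟩; exact h.map g.1 g.2.1⟩
  · rw [funext_iff, Subgroup.mem_iInf]
    refine forall_congr' fun j => ?_
    rw [mem_stabSet_iff_map_eq, ← (Submodule.map_injective_of_injective g.1.injective).eq_iff
      (b := D j), ← Submodule.map_comp, eq_comm]
    congr! 2
    ext; simp

end Sp

theorem factorial_dvd_card_OD {F V : Type*} [Field F] [AddCommGroup V] [Module F V] {σ : F →+* F}
    {B : V →ₛₗ[σ] V →ₗ[F] F} {a t : ℕ} (ha : 0 < a) :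
    t.factorial ∣ Nat.card {D : Fin t → Submodule F V // OD B a D} := by
  let _ : MulAction (Equiv.Perm (Fin t)) {D : Fin t → Submodule F V // OD B a D} :=
    { smul := fun τ D => ⟨_, D.2.comp τ.symm⟩
      one_smul := fun _ => rfl
      mul_smul := fun _ _ _ => rfl }
  rw [Nat.card_congr (MulAction.selfEquivOrbitsQuotientProd (G := Equiv.Perm (Fin t)) fun D =>
    (Subgroup.eq_bot_iff_forall _).2 fun τ hτ => ?_), Nat.card_prod, Nat.card_perm, Nat.card_fin]
  · exact dvd_mul_left _ _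
  refine inv_eq_one.1 (Equiv.ext fun i => by_contra fun h => ?_)
  have h1 := D.2.2.1 _ _ h
  have h2 := (D.2.1 i).1
  rw [show D.1 (τ⁻¹ i) = D.1 i from congrFun (congrArg Subtype.val hτ) i] at h1
  rw [(D.2.1 i).2.eq_bot_of_le h1, finrank_bot] at h2
  omega

section Odd

variable {F : Type u} [Field F] [Fintype F] {V : Type v} [AddCommGroup V] [Module F V]
  [FiniteDimensional F V] (p : ℕ) [Fact p.Prime] [CharP F p] {r : ℕ} [hr : Fact r.Prime]
  (hr2 : r ≠ 2) (hrp : r ≠ p) {B : LinearMap.BilinForm F V} (hB : B.Nondegenerate) (hA : B.IsAlt)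
  {k t : ℕ}
include hr2 hrp hB hA

local notation "𝐢" => orderOf (Fintype.card F : ZMod r)

theorem ost_of_card_nt_le (hd : finrank F V = 2 * k * t) (g : SpG B)
    (hs : Sb (facs F r) (cr (RingHom.id F)) (nt g.1.toLinearMap))
    (h1 : (nt g.1.toLinearMap).card ≤ ww 𝐢 * (t * (2 * k / cc 𝐢))) :
    OSt B (2 * k) (Fin t) g.1.toLinearMap := by
  induction t generalizing V with
  | zero => exact ost_zero hd
  | succ t ih =>
    have hW := isWittPair_alt B hB hA
    have hC := cb_id (F := F) p hr2 hrp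
    obtain ⟨N, hN⟩ := exists_ND_alt hB hA (m := k) (by rw [hd, mul_add]; omega)
    have h2 := hN.perp hW
    have h3 : finrank F (perp B N) = 2 * k * t := by rw [h2.1, hd, mul_add]; omega
    have h5 := (rk_sp p hr2 hrp (hN.alt hB hA).1 (hN.alt hB hA).2 hN.1).1
    have h6 := (rk_sp p hr2 hrp (h2.alt hB hA).1 (h2.alt hB hA).2 h3).1
    obtain ⟨l, hl⟩ := hC.dvd hs
    obtain ⟨s₁, s₂, h7, h8, h9, h10⟩ := hC.split (min l (2 * k / cc 𝐢)) hs
      (hl ▸ Nat.mul_le_mul_left _ (min_le_left _ _))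
    have h11 : s₂.card ≤ ww 𝐢 * (t * (2 * k / cc 𝐢)) := by
      rw [h7, Multiset.card_add, h10] at hl h1
      rcases le_total l (2 * k / cc 𝐢) with h | h
      · rw [min_eq_left h] at hl; omega
      · rw [min_eq_right h, add_mul, mul_add, one_mul] at h1; omega
    obtain ⟨x, hx, rfl⟩ := (h5 _).2 ⟨h8, h10 ▸ Nat.mul_le_mul_left _ (min_le_right _ _)⟩
    obtain ⟨y, hy, rfl⟩ := (h6 _).2 ⟨h9, h11.trans (Nat.mul_le_mul_left _
      (by rw [mul_comm _ t]; exact Nat.mul_div_le_mul_div_assoc _ _ _))⟩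
    exact (ost_succ hW hN (x := (x, y)) (ih (h2.alt hB hA).1 (h2.alt hB hA).2 h3 y h9
      h11)).of_isConj (uq_sp p hrp hB hA _ _ ((glue_pow_eq_one hW hN.2).2 ⟨hx, hy⟩)
        ((sim_iff_nt rfl).2 ((nt_add (ed_glue hW hN.2 (x, y))).trans h7.symm)))

theorem elu_ost (hk : 0 < k) (ht : 0 < t) (hd : finrank F V = 2 * k * t)
    (hΩ : r ∣ Nat.card {D : Fin t → Submodule F V // OD B (2 * k) D} / t.factorial) :
    Elu (SpG B) r (OSt B (2 * k) (Fin t)) ↔
      cc 𝐢 ≤ 2 * k ∧ 2 * k * t % cc 𝐢 = t * (2 * k % cc 𝐢) := by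
  have : Nontrivial V := (finrank_pos_iff (R := F)).1 (by rw [hd]; positivity)
  have hW := isWittPair_alt B hB hA
  have hC := cb_id (F := F) p hr2 hrp
  have hw := hC.w_pos
  have hK := rk_sp p hr2 hrp hB hA hd
  have hc := cc_pos (orderOf_card_pos (F := F) p hr.out hrp)
  have hd' : Fintype.card (Fin t) * (2 * k) = finrank F V := by simp [hd, mul_comm]
  have h1 := Nat.div_add_mod (2 * k * t) (cc 𝐢)
  have h2 : cc 𝐢 * (t * (2 * k / cc 𝐢)) + t * (2 * k % cc 𝐢) = 2 * k * t := by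
    conv_rhs => rw [← Nat.div_add_mod (2 * k) (cc 𝐢)]
    ring
  rw [elu_sp_iff hB hA (hr.out.odd_of_ne_two hr2) OSt.of_neg]
  refine ⟨fun H => ?_, fun H g hg _ => ?_⟩
  swap
  · obtain ⟨h3, h4⟩ := (hK.1 _).1 ⟨g, hg, rfl⟩
    exact ost_of_card_nt_le p hr2 hrp hB hA hd g h3 (h4.trans (Nat.mul_le_mul_left _
      (Nat.le_of_mul_le_mul_left (by omega) hc)))
  have h3 : 0 < 2 * k * t / cc 𝐢 := Nat.pos_of_ne_zero fun h => by
    obtain ⟨D, hD, -⟩ := ost_of_card_nt_le p hr2 hrp hB hA hd 1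
      (by exact nt_one (F := F) (V := V) ▸ sb_zero)
      (by exact nt_one (F := F) (V := V) ▸ Nat.zero_le _)
    have h4 := one_le_padicValNat_of_dvd (card_sub_ne_zero _) ((hΩ.trans (Nat.div_dvd_of_dvd
      (factorial_dvd_card_OD (by omega)))).trans (hD.card_dvd hB hA hd'))
    simp [hK.2, h, vs] at h4
  have key : ∀ K, 0 < K → K ≤ 2 * k * t / cc 𝐢 → K ≤ t * (2 * k / cc 𝐢) ∨
      (2 * k + cc 𝐢 * K ≤ 2 * k * t ∧ (r - 1) * (2 * k) ≤ cc 𝐢 * K) := fun K h4 h5 => by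
    obtain ⟨s, h6, h7, -⟩ := hC.sharp K
    obtain ⟨g, hg, rfl⟩ := (hK.1 s).2 ⟨h6, h7 ▸ Nat.mul_le_mul_left _ h5⟩
    obtain ⟨D, hD, τ, h8⟩ := H g hg (by
      rintro rfl
      rw [show (1 : SpG B).1.toLinearMap = 1 from rfl, nt_one, Multiset.card_zero, eq_comm,
        Nat.mul_eq_zero] at h7
      omega)
    by_cases h9 : ∀ j, τ j = j
    · have := hD.card_nt_le hW hd' (fun j => (rk_sp p hr2 hrp ((hD.1 j).alt hB hA).1
        ((hD.1 j).alt hB hA).2 (hD.1 j).1).1) hg fun j v hv => h9 j ▸ h8 j ▸ ⟨v, hv, rfl⟩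
      rw [h7, Fintype.card_fin, mul_left_comm] at this
      exact .inl (Nat.le_of_mul_le_mul_left this hw)
    obtain ⟨j, hj⟩ := not_forall.1 h9
    have h10 := (sub_pow_eq_one_iff g r).1 hg
    have h11 := hD.moved (by omega) hr.out h10 h8 hj
    have h12 := card_nt_le p hr.out hrp h10
    have h13 := LinearMap.finrank_range_add_finrank_ker (g.1.toLinearMap - 1)
    rw [h7, mul_right_comm, ← cc_eq] at h12
    omega
  have h4 : cc 𝐢 ≤ r - 1 := by
    have h4 := (facs_spec (F := F) p hr.out hrp).2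
    have h5 := hr.out.two_le
    obtain ⟨m, hm⟩ := hr.out.odd_of_ne_two hr2
    refine Nat.le_of_dvd (by omega) ?_
    rcases Nat.even_or_odd 𝐢 with h | h
    · exact (cc_even h).symm ▸ Dvd.intro_left _ h4
    · exact (cc_odd h).symm ▸ (Nat.coprime_two_left.2 h).mul_dvd_of_dvd_of_dvd ⟨m, by omega⟩
        (Dvd.intro_left _ h4)
  have h5 : cc 𝐢 ≤ 2 * k := by
    rcases key 1 one_pos h3 with h | ⟨-, h⟩
    · exact (Nat.div_pos_iff.1 (Nat.pos_of_mul_pos_left h)).2
    · nlinarith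
  refine ⟨h5, ?_⟩
  have h6 := Nat.mod_lt (2 * k * t) hc
  rcases key _ h3 le_rfl with h | ⟨h, -⟩
  · have := Nat.mul_le_mul_left (cc 𝐢) h
    have h7 : t * (2 * k / cc 𝐢) ≤ 2 * k * t / cc 𝐢 := by
      rw [mul_comm _ t]; exact Nat.mul_div_le_mul_div_assoc _ _ _
    have := Nat.mul_le_mul_left (cc 𝐢) h7
    omega
  · omega

end Odd

theorem od_sp_iff {F : Type*} [Field F] {d a t : ℕ} (hat : 2 * d = a * t) (ha : 0 < a) (ht : 2 ≤ t)
    (D : Fin t → Submodule F (Fin d ⊕ Fin d → F)) : (Cfsg.Geo.IsMDecomposition a D ∧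
      (∀ j, ∀ u ∈ D j, u ≠ 0 → ∃ v ∈ D j, Cfsg.sympForm d F u v ≠ 0) ∧
      (∀ j j', j ≠ j' → ∀ u ∈ D j, ∀ v ∈ D j', Cfsg.sympForm d F u v = 0)) ↔
        OD (sympBilin d F) a D := by
  have hW := isWittPair_alt _ (sympBilin_nondegenerate (F := F) d) (sympBilin_isAlt d)
  simp only [← sympBilin_apply, ← disjoint_perp_iff hW]
  exact ⟨fun h => ⟨fun j => ⟨h.1.3 j, h.2.1 j⟩, fun j j' e v hv u hu => h.2.2 j j' e u hu v hv,
    h.1.5⟩, fun h => ⟨⟨ht, ha, fun j => (h.1 j).1, (h.isInternal (by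
      simp [← two_mul, hat, mul_comm])).submodule_iSupIndep, h.2.2⟩, fun j => (h.1 j).2,
        fun j j' e u hu v hv => h.2.1 j j' e hv u hu⟩⟩

end CF.Cls
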