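/-
Elements of prime order and field extension subgroups of symplectic groups.
-/
import Cfsg.Agent.Cls.El14
import Cfsg.Agent.MaxSub.F3U
import Cfsg.Agent.MaxSub.F3P

set_option autoImplicit false

namespace CF.Cls

open Polynomial Module CF.Geom CF.Classical CF.MaxSub

universe u v

section Rk

variable {F V : Type*} [Field F] [AddCommGroup V] [Module F V] [FiniteDimensional F V] {r : ℕ}
  {x y : V ≃ₗ[F] V} {G H : Subgroup (V ≃ₗ[F] V)}

theorem finrank_RU_add_fix (g : V ≃ₗ[F] V) :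
    finrank F (RU g) + finrank F (fixSp g) = finrank F V :=
  LinearMap.finrank_range_add_finrank_ker _

theorem finrank_RU_of_sim (h : Sim x.toLinearMap y.toLinearMap) :
    finrank F (RU x) = finrank F (RU y) := by
  have h1 := finrank_RU_add x
  rw [sim_iff_ed.1 h, ← finrank_RU_add y] at h1
  omega

theorem ne_scalar_of_RU (h0 : 0 < finrank F (RU x)) (h1 : finrank F (RU x) < finrank F V) (z : F) :
    x.toLinearMap ≠ algebraMap F _ z := fun h => by
  rcases eq_or_ne z 1 with rfl | hz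
  · rw [RU, h, map_one, sub_self, LinearMap.range_zero, finrank_bot] at h0
    omega
  · rw [RU, h, ← map_one (algebraMap F (End F V)), ← map_sub, LinearMap.range_eq_top.2
      ((End.isUnit_iff _).1 ((sub_ne_zero.2 hz).isUnit.map _)).2, finrank_top] at h1
    omega

theorem not_elu_cj (hx : x ∈ G) (h1 : x.toLinearMap ^ r = 1)
    (h2 : ∀ z, x.toLinearMap ≠ algebraMap F _ z)
    (h3 : ∀ y ∈ H, y.toLinearMap ^ r = 1 → finrank F (RU y) ≠ finrank F (RU x)) :
    ¬ Elu G r (Cj G H) := fun h => by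
  obtain ⟨g, -, y, h4, h5⟩ := h x hx ⟨1, by simpa using h1⟩ h2
  have h6 : Sim y.toLinearMap x.toLinearMap := ⟨g, fun v => (h5 v).symm⟩
  have h7 := (h6.aeval_eq_zero_iff (X ^ r - 1)).2 (by simp [h1])
  rw [map_sub, map_pow, aeval_X, map_one, sub_eq_zero] at h7
  exact h3 y h4 h7 (finrank_RU_of_sim h6)

omit [FiniteDimensional F V] in
theorem ne_scalar_of_odd [Nontrivial V] {B : LinearMap.BilinForm F V} {Q : V → F}
    (h : IsWittPair (RingHom.id F) B Q) (hx : x ∈ Isom B Q) (hr : Odd r)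
    (h1 : x.toLinearMap ^ r = 1) (h2 : 0 < finrank F (RU x)) (z : F) :
    x.toLinearMap ≠ algebraMap F _ z := fun hz => by
  have : x.toLinearMap = 1 := by
    rcases sq_eq_one_of_scalar h hx ((pow_one _).trans hz) with rfl | rfl
    · simpa using hz
    · rwa [hz, ← map_pow, hr.neg_one_pow, ← hz] at h1
  rw [RU, this, sub_self, LinearMap.range_zero, finrank_bot] at h2
  omega

theorem even_RU_alt {B : LinearMap.BilinForm F V} (hB : B.Nondegenerate) (hA : B.IsAlt)
    (hx : x ∈ SpG B) (hr : (r : F) ≠ 0) (h1 : x.toLinearMap ^ r = 1) : Even (finrank F (RU x)) := by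
  have h := (eh_alt hB hA).disjoint_Rg (A := x.toLinearMap) hx.1 (c := 1) (by simp) hr h1
  rw [Rg, map_one] at h
  exact even_finrank_of_alt (ND.alt hB hA ⟨rfl, h⟩).1 (ND.alt hB hA ⟨rfl, h⟩).2

theorem exists_inv_RU {σ : F →+* F} {B : V →ₛₗ[σ] V →ₗ[F] F} {Q : V → F} (hW : IsWittPair σ B Q)
    (hQ : ∀ v, Q (-v) = Q v) (h2 : (2 : F) ≠ 0) {N : Submodule F V} (hN : Disjoint N (perp B N)) :
    ∃ x ∈ Isom B Q, x.toLinearMap ^ 2 = 1 ∧ RU x = N := by
  let g := glue hW hN (⟨LinearEquiv.neg F, fun _ _ => by simp, fun v => hQ _⟩, 1)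
  refine ⟨g.1, g.2, (sub_pow_eq_one_iff _ 2).1 ((glue_pow_eq_one hW hN).2
    ⟨Subtype.ext (by ext; simp [pow_two]), one_pow 2⟩), le_antisymm ?_ fun u hu =>
      ⟨-(2 : F)⁻¹ • u, ?_⟩⟩
  · rintro _ ⟨v, rfl⟩
    obtain ⟨u, hu, w, hw, rfl⟩ := Submodule.mem_sup.1
      ((hW.isCompl_perp hN).sup_eq_top.ge (Submodule.mem_top (x := v)))
    have : g.1 (u + w) = -u + w := glue_apply hW hN _ ⟨u, hu⟩ ⟨w, hw⟩
    simp only [LinearMap.sub_apply, LinearEquiv.coe_coe, this, End.one_apply, add_sub_add_right_eq_sub]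
    exact N.sub_mem (N.neg_mem hu) hu
  · have : g.1 u = -u := glue_left hW hN _ ⟨u, hu⟩
    simp only [map_smul, LinearMap.sub_apply, LinearEquiv.coe_coe, this, End.one_apply]
    match_scalars
    field_simp
    norm_num

variable [Fintype F] (p : ℕ) [Fact p.Prime] [CharP F p] [hr : Fact r.Prime] (hrp : r ≠ p)
  {σ : F →+* F} {w T K : ℕ} (hC : CB (facs F r) (cr σ) w T)
include hrp

theorem finrank_RU_eq_card (h : x.toLinearMap ^ r = 1) : finrank F (RU x) =
    (nt x.toLinearMap).card * orderOf (Fintype.card F : ZMod r) := by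
  have h1 := card_nt_le p hr.out hrp h
  have h2 := LinearMap.finrank_range_add_finrank_ker (x.toLinearMap - 1)
  unfold RU
  omega

theorem sim_of_RU (h : (facs F r).card = 1) (hx : x.toLinearMap ^ r = 1)
    (hy : y.toLinearMap ^ r = 1) (h1 : finrank F (RU x) = finrank F (RU y)) :
    Sim x.toLinearMap y.toLinearMap := by
  obtain ⟨π, h⟩ := Finset.card_eq_one.1 h
  rw [finrank_RU_eq_card p hrp hx, finrank_RU_eq_card p hrp hy,
    Nat.mul_left_inj (orderOf_card_pos (F := F) p hr.out hrp).ne'] at h1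
  rw [pow_eq_one_iff_nt p hr.out hrp, h] at hx hy
  rw [sim_iff_nt rfl, Multiset.eq_replicate_card.2 fun a ha => Finset.mem_singleton.1 (hx a ha), h1,
    ← Multiset.eq_replicate_card.2 fun a ha => Finset.mem_singleton.1 (hy a ha)]

include hC

theorem RzK.dvd_RU (h : RzK σ G r K) (hx : x ∈ G) (h1 : x.toLinearMap ^ r = 1) :
    w * orderOf (Fintype.card F : ZMod r) ∣ finrank F (RU x) := by
  rw [finrank_RU_eq_card p hrp h1]
  exact Nat.mul_dvd_mul_right (hC.dvd ((h _).1 ⟨⟨x, hx⟩, (sub_pow_eq_one_iff _ _).2 h1, rfl⟩).1) _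

theorem RzK.exists_RU (h : RzK σ G r (w * K)) (hK : 0 < K) : ∃ x : G, x ^ r = 1 ∧
    finrank F (RU x.1) = w * orderOf (Fintype.card F : ZMod r) := by
  obtain ⟨s, h1, h2, -⟩ := hC.sharp 1
  obtain ⟨x, hx, rfl⟩ := (h s).2 ⟨h1, h2 ▸ Nat.mul_le_mul_left w hK⟩
  exact ⟨x, hx, by rw [finrank_RU_eq_card p hrp ((sub_pow_eq_one_iff _ _).1 hx), h2, mul_one]⟩

end Rk

theorem vs_mul {r k : ℕ} {a : ℕ → ℕ} (hk : 0 < k) (h : ∀ j, r ∣ a j → k ∣ j + 1) (e : ℕ) :
    vs r a (k * e) = vs r (fun j => a (k * j + (k - 1))) e := by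
  induction e with
  | zero => rfl
  | succ e ih =>
    have h1 := vs_eq h (k * e + (k - 1))
    rw [Nat.mul_add_div hk, Nat.div_eq_of_lt (by omega : k - 1 < k), add_zero, ih] at h1
    rw [show k * (e + 1) = k * e + (k - 1) + 1 by rw [mul_add]; omega]
    unfold vs at *
    rw [Finset.sum_range_succ, Finset.sum_range_succ, h1]

theorem aq_pow (q : ℕ) {k : ℕ} (hk : 0 < k) : aq (q ^ k) = fun j => aq q (k * j + (k - 1)) :=
  funext fun j => by
    rw [aq, aq, ← pow_mul, add_assoc, Nat.sub_add_cancel hk]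
    congr 2; ring

theorem not_dvd_of_val {r ω N N' : ℕ} [Fact r.Prime] (h0 : N ≠ 0) (h : ω * N' ∣ N)
    (h1 : padicValNat r N = padicValNat r N') : ¬ r ∣ ω := fun h2 => by
  have h3 := ne_zero_of_dvd_ne_zero h0 h
  have h4 := (padicValNat_dvd_iff_le h0).1 ((pow_padicValNat_dvd (p := r)).trans h)
  rw [padicValNat.mul (left_ne_zero_of_mul h3) (right_ne_zero_of_mul h3)] at h4
  have := one_le_padicValNat_of_dvd (left_ne_zero_of_mul h3) h2
  omega

section Ext

variable {F K V : Type*} [Field F] [Field K] [Algebra F K] [AddCommGroup V] [Module F V]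
  [Module K V] [IsScalarTower F K V] {y : V ≃ₗ[F] V} {r : ℕ}

theorem exists_semi_aut [Nontrivial V] [FiniteDimensional F K] (hy : y ∈ SemiG F K V) :
    ∃ s : K ≃ₐ[F] K, ∀ (k : K) v, y (k • v) = s k • y v := by
  choose s hs using hy.1
  obtain ⟨v, hv⟩ := exists_ne (0 : V)
  have h1 : ∀ a b : K, a • y v = b • y v → a = b := fun a b =>
    (smul_left_injective K (y.map_ne_zero_iff.2 hv) ·)
  let t : K →ₐ[F] K :=
    { toFun := s
      map_one' := h1 _ _ (by rw [← hs, one_smul, one_smul])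
      map_mul' := fun a b => h1 _ _ (by rw [← hs, mul_smul, mul_smul, hs, hs])
      map_zero' := h1 _ _ (by rw [← hs]; simp)
      map_add' := fun a b => h1 _ _ (by rw [← hs, add_smul, add_smul, map_add, hs, hs])
      commutes' := fun a => h1 _ _ (by rw [← hs]; simp) }
  exact ⟨.ofBijective t (Algebra.IsAlgebraic.algHom_bijective t), hs⟩

theorem lin_of_coprime [Finite K] (hy : y ∈ SemiG F K V) (h1 : y.toLinearMap ^ r = 1)
    (hc : r.Coprime (finrank F K)) (k : K) (v : V) : y (k • v) = k • y v := by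
  rcases subsingleton_or_nontrivial V with h | h
  · exact Subsingleton.elim _ _
  obtain ⟨s, hs⟩ := exists_semi_aut hy
  have h2 : ∀ k m v, (y.toLinearMap ^ m) (k • v) = (s ^ m) k • (y.toLinearMap ^ m) v :=
    fun k m v => by
      induction m with
      | zero => rfl
      | succ m ih => rw [pow_succ', pow_succ', End.mul_apply, ih]; exact hs _ _
  have := Finite.of_injective _ (algebraMap F K).injective
  obtain ⟨w, hw⟩ := exists_ne (0 : V)
  have h3 : s ^ r = 1 := AlgEquiv.ext fun k => smul_left_injective K hw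
    (by simpa [h1] using (h2 k r w).symm)
  have h4 : s ^ finrank F K = 1 := IsGalois.card_aut_eq_finrank F K ▸ pow_card_eq_one'
  rw [hs, show s = 1 by simpa [hc.gcd_eq_one] using pow_gcd_eq_one.2 ⟨h3, h4⟩]
  rfl

omit [Module F V] [IsScalarTower F K V] in
theorem exists_invol [Finite K] (hr : finrank F K = 2) :
    ∃ s : K ≃ₐ[F] K, (s : K →+* K) ≠ RingHom.id K ∧ ∀ k, s (s k) = k := by
  have := Finite.of_injective _ (algebraMap F K).injective
  have h := (IsGalois.card_aut_eq_finrank F K).trans hr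
  have := Finite.one_lt_card_iff_nontrivial.1 (h.ge : 1 < _)
  obtain ⟨s, hs⟩ := exists_ne (1 : K ≃ₐ[F] K)
  exact ⟨s, fun e => hs (AlgEquiv.ext (RingHom.ext_iff.1 e)), fun k =>
    congrArg (· k) ((pow_two s).symm.trans (h ▸ pow_card_eq_one'))⟩

variable (F) in
/-- Restriction of scalars. -/
def resHom : (V ≃ₗ[K] V) →* (V ≃ₗ[F] V) where
  toFun z := z.restrictScalars F
  map_one' := rfl
  map_mul' _ _ := rfl

theorem resHom_injective : Function.Injective (resHom F : (V ≃ₗ[K] V) → _) :=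
  fun _ _ h => LinearEquiv.ext fun v => LinearEquiv.congr_fun h v

theorem card_dvd_of_res {G : Subgroup (V ≃ₗ[K] V)} {H : Subgroup (V ≃ₗ[F] V)}
    (h : ∀ z ∈ G, z.restrictScalars F ∈ H) : Nat.card G ∣ Nat.card H :=
  (Subgroup.card_map_of_injective (K := G) (resHom_injective (F := F))).symm.dvd.trans
    (Subgroup.card_dvd_of_le (by rintro _ ⟨z, hz, rfl⟩; exact h z hz))

theorem finrank_RU_res [FiniteDimensional F K] (z : V ≃ₗ[K] V) :
    finrank F (RU (z.restrictScalars F)) = finrank F K * finrank K (RU z) := by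
  rw [finrank_mul_finrank]; rfl

theorem res_pow_eq (z : V ≃ₗ[K] V) {c : F} : (z.restrictScalars F).toLinearMap ^ r =
    algebraMap F _ c ↔ z.toLinearMap ^ r = algebraMap K _ (algebraMap F K c) := by
  simp only [LinearMap.ext_iff, End.pow_apply, algebraMap_end_apply, algebraMap_smul]; rfl

theorem res_pow_eq_one (z : V ≃ₗ[K] V) :
    (z.restrictScalars F).toLinearMap ^ r = 1 ↔ z.toLinearMap ^ r = 1 := by
  simpa using res_pow_eq (F := F) (r := r) z (c := 1)

theorem exists_semi {ι : Type*} [Fintype ι] (b : Basis ι K V) (s : K ≃ₐ[F] K) {l : K}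
    (hl : l ≠ 0) : ∃ y : V ≃ₗ[F] V, (∀ (k : K) v, y (k • v) = s k • y v) ∧
      ∀ j, y (b j) = l • b j := by
  classical
  refine ⟨b.equivFun.restrictScalars F ≪≫ₗ LinearEquiv.piCongrRight (fun _ => s.toLinearEquiv) ≪≫ₗ
    (b.equivFun.symm ≪≫ₗ LinearEquiv.smulOfNeZero K V l hl).restrictScalars F, fun k v => ?_,
      fun j => ?_⟩
  · simp [Finset.smul_sum, mul_smul, smul_comm l]
  · simp [Finsupp.single_apply, apply_ite]

variable {ι : Type*} [Fintype ι] (b : Basis ι K V) {s : K ≃ₐ[F] K}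
  (hy : ∀ (k : K) v, y (k • v) = s k • y v)
include hy

omit [Fintype ι] in
theorem semi_mem : y ∈ SemiG F K V :=
  ⟨fun k => ⟨_, hy k⟩, fun k => ⟨s.symm k, fun v => by rw [hy, s.apply_symm_apply]⟩⟩

theorem semi_sq (hs : ∀ k, s (s k) = k) {l : K} (h : ∀ j, y (b j) = l • b j) {c : F}
    (hc : s l * l = algebraMap F K c) : y.toLinearMap ^ 2 = algebraMap F _ c :=
  LinearMap.ext fun v => by
    rw [← b.sum_repr v]
    simp only [pow_two, map_sum, End.mul_apply, LinearEquiv.coe_coe, hy, h, hs, smul_smul,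
      algebraMap_end_apply, ← algebraMap_smul K c, ← hc, map_mul]
    exact Finset.sum_congr rfl fun j _ => by congr 1; ring

theorem form_semi {τ : K →+* K} {Bk : V →ₛₗ[τ] V →ₗ[K] K} (hτ : ∀ k, τ (s k) = s (τ k)) {c : K}
    (h : ∀ i j, Bk (y (b i)) (y (b j)) = c * s (Bk (b i) (b j))) (u v : V) :
    Bk (y u) (y v) = c * s (Bk u v) := by
  rw [← b.sum_repr u, ← b.sum_repr v]
  simp only [map_sum, hy, LinearMap.sum_apply, map_smul, LinearMap.map_smulₛₗ₂, smul_eq_mul, h,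
    map_mul, hτ, Finset.mul_sum]
  exact Finset.sum_congr rfl fun _ _ => Finset.sum_congr rfl fun _ _ => by ring

omit hy in
theorem exists_lin {σ : F →+* F} {τ : K →+* K} {B : V →ₛₗ[σ] V →ₗ[F] F} {Bk : V →ₛₗ[τ] V →ₗ[K] K}
    {ν : Dual F K} (hν : ν ≠ 0) (e : ∀ x y, B x y = ν (Bk x y))
    (hy : ∀ u v, B (y u) (y v) = B u v) (hl : ∀ (k : K) v, y (k • v) = k • y v) :
    ∃ z : V ≃ₗ[K] V, z.restrictScalars F = y ∧ ∀ u v, Bk (z u) (z v) = Bk u v :=
  ⟨{ y with map_smul' := hl }, rfl, fun u v => sub_eq_zero.1 (eq_zero_of_nu hν fun k => by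
    have := hy u (k • v)
    rw [hl, e, e, (Bk _).map_smul, (Bk _).map_smul] at this
    rw [mul_sub, map_sub, sub_eq_zero]
    exact this)⟩

end Ext

section Sp

variable {F V : Type u} [Field F] [Fintype F] [AddCommGroup V] [Module F V] [FiniteDimensional F V]
  (p : ℕ) [hp : Fact p.Prime] [CharP F p] {r d ω : ℕ} [hr : Fact r.Prime]
  {B : LinearMap.BilinForm F V} (hB : B.Nondegenerate) (hA : B.IsAlt) (hd : finrank F V = 2 * d)
include hB hA hd

local notation "𝐢" => orderOf (Fintype.card F : ZMod r)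

omit [Fintype F] in
theorem exists_sq_neg_sp : ∃ g : SpG B, g.1.toLinearMap ^ 2 = -1 := by
  obtain ⟨E, hE⟩ := exists_equiv_sympBilin hB hA hd
  obtain ⟨g, hg⟩ := exists_sp_J (F := F) d
  exact ⟨⟨E ≪≫ₗ g.1 ≪≫ₗ E.symm, fun u v => by simp [← hE, g.2.1], fun _ => rfl⟩,
    LinearMap.ext fun v => E.injective (by simpa [pow_two] using LinearMap.congr_fun hg (E v))⟩

theorem isConj_sq_neg_sp (h2 : (2 : F) ≠ 0) {x y : SpG B} (hx : x.1.toLinearMap ^ 2 = -1)
    (hy : y.1.toLinearMap ^ 2 = -1) : IsConj x y :=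
  isConj_SpG_of_sim hB hA (m := 2 * 2) (by rw [Nat.cast_mul]; exact mul_ne_zero h2 h2)
    ((sub_pow_eq_one_iff x _).2 (by rw [pow_mul, hx, neg_one_sq])) ((ss_of_sq_neg h2 hx).sim
      (ss_of_sq_neg h2 hy) ((charpoly_sq_neg h2 hx ((eh_alt hB hA).ed_pres x.2.1) hd).trans
        (charpoly_sq_neg h2 hy ((eh_alt hB hA).ed_pres y.2.1) hd).symm))

omit hd in
theorem isConj_inv_sp (h2 : 2 ≠ p) {x y : SpG B} (hx : x.1.toLinearMap ^ 2 = 1)
    (hy : y.1.toLinearMap ^ 2 = 1) (h : finrank F (RU x.1) = finrank F (RU y.1)) : IsConj x y :=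
  uq_sp p h2 hB hA _ _ ((sub_pow_eq_one_iff x _).2 hx) (sim_of_RU p h2
    (Nat.eq_one_of_mul_eq_one_right (facs_spec (F := F) p Nat.prime_two h2).2) hx hy h)

theorem not_elu_char {H : Subgroup (V ≃ₗ[F] V)} (h0 : 0 < d)
    (h : ∀ y ∈ H, finrank F (RU y) ≠ 1) : ¬ Elu (SpG B) p (Cj (SpG B) H) := by
  obtain ⟨g, hg⟩ := exists_uj_sp p hB hA (μ := {2} + .replicate (2 * d - 2) 1)
    (by simp +contextual [Multiset.mem_replicate]) (by simp; omega)
    ((pa_of_not (by simp)).add (pa_replicate (.inl ⟨d - 1, by omega⟩)))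
  have h1 := hg.finrank_range
  simp only [Multiset.card_add, Multiset.card_singleton, Multiset.card_replicate] at h1
  have h2 : finrank F (RU g.1) = 1 := by unfold RU; omega
  exact not_elu_cj g.2 ((hg.pow_eq_one_iff p).2 (by
    simp +contextual [Multiset.mem_replicate, hp.out.two_le, hp.out.one_le]))
      (ne_scalar_of_RU (by omega) (by omega)) fun y hy _ => h2 ▸ h y hy

theorem not_elu_odd {H : Subgroup (V ≃ₗ[F] V)} (hr2 : r ≠ 2) (hrp : r ≠ p)
    (h1 : r ∣ Nat.card (SpG B))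
    (h : ∀ y ∈ H, y.toLinearMap ^ r = 1 → finrank F (RU y) ≠ cc 𝐢) :
    ¬ Elu (SpG B) r (Cj (SpG B) H) := by
  have hK := rk_sp p hr2 hrp hB hA hd
  obtain ⟨g, h2, h3⟩ := hK.1.exists_RU p hrp (cb_id p hr2 hrp) (Nat.pos_of_ne_zero fun h2 => by
    have := one_le_padicValNat_of_dvd (card_sub_ne_zero _) h1
    simp [hK.2, h2, vs] at this)
  have h4 := cc_pos (orderOf_card_pos (F := F) p hr.out hrp)
  rw [← cc_eq] at h3
  have : Nontrivial V := (finrank_pos_iff (R := F)).1 ((h3 ▸ h4).trans_le (RU g.1).finrank_le)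
  rw [sub_pow_eq_one_iff] at h2
  exact not_elu_cj g.2 h2 (ne_scalar_of_odd (isWittPair_alt B hB hA) g.2
    (hr.out.odd_of_ne_two hr2) h2 (h3 ▸ h4)) (h3 ▸ h)

omit hB hA hd in
theorem cc_le (hr2 : r ≠ 2) (hrp : r ≠ p) : cc 𝐢 ≤ r - 1 := by
  have h4 := (facs_spec (F := F) p hr.out hrp).2
  have h5 := hr.out.two_le
  obtain ⟨m, hm⟩ := hr.out.odd_of_ne_two hr2
  refine Nat.le_of_dvd (by omega) ?_
  rcases Nat.even_or_odd 𝐢 with h | h
  · exact (cc_even h).symm ▸ Dvd.intro_left _ h4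
  · exact (cc_odd h).symm ▸ (Nat.coprime_two_left.2 h).mul_dvd_of_dvd_of_dvd ⟨m, by omega⟩
      (Dvd.intro_left _ h4)

variable {K : Type u} [Field K] [Finite K] [Algebra F K] [Module K V] [IsScalarTower F K V]

theorem elu_sp_field (hk : (finrank F K).Prime) (hs : ∀ (k : K) x y, B (k • x) y = B x (k • y))
    (ha : ∀ (k : K) x, B (k • x) x = 0) (h2 : 2 ≤ d) (h1 : r ∣ ω)
    (hω : ω * Nat.card ↥(SpG B ⊓ SemiG F K V) = Nat.card (SpG B)) :
    Elu (SpG B) r (Cj (SpG B) (SpG B ⊓ SemiG F K V)) ↔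
      r = 2 ∧ d = 2 ∧ finrank F K = 2 ∧ p ≠ 2 := by
  have : FiniteDimensional K V := Module.Finite.of_restrictScalars_finite F K V
  have : Nontrivial V := (finrank_pos_iff (R := F)).1 (by omega)
  have := Fintype.ofFinite K
  have ν0 := Algebra.trace_ne_zero F K
  obtain ⟨Bk, e⟩ := exists_kform (τ := RingHom.id K) B hs ν0
  have hA' : LinearMap.IsAlt Bk := fun x => eq_zero_of_nu ν0 fun k => by simpa [e] using ha k x
  have hB' : ∀ x, (∀ y, Bk x y = 0) → x = 0 := fun x h => hB.1 x fun y => by simp [e, h]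
  replace hB' : LinearMap.Nondegenerate Bk := ⟨hB', fun y h => hB' y fun x => hA'.isRefl _ _ (h x)⟩
  obtain ⟨m, hm⟩ := (even_finrank_of_alt hB' hA').two_dvd
  have h3 : d = finrank F K * m := by
    have := finrank_mul_finrank F K V
    rw [hm, hd, mul_left_comm] at this
    omega
  have h4 := hk.two_le
  have h5 : 0 < m := Nat.pos_of_ne_zero (by rintro rfl; omega)
  have := charP_of_injective_algebraMap (algebraMap F K).injective p
  have h6 : ∀ z ∈ SpG Bk, z.restrictScalars F ∈ SpG B ⊓ SemiG F K V := fun z hz =>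
    ⟨⟨fun u v => by simp [e, hz.1], fun _ => rfl⟩, restrict_mem_semiG z⟩
  have h7 : ∀ y ∈ SpG B ⊓ SemiG F K V, (∃ z ∈ SpG Bk, z.restrictScalars F = y) ∨
      2 * d ≤ finrank F (RU y) + 2 * m ∧ ∀ s, y.toLinearMap ^ s = 1 → ¬ s.Coprime (finrank F K) :=
    fun y hy => or_iff_not_imp_left.2 fun h => by
      have h7 : ¬ ∀ (k : K) v, y (k • v) = k • y v := fun h7 => h <|
        (exists_lin ν0 e hy.1.1 h7).imp fun z hz => ⟨⟨hz.2, fun _ => rfl⟩, hz.1⟩
      have := (semiG_lin_or hk hy.2).resolve_left h7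
      have := finrank_RU_add_fix y
      exact ⟨by omega, fun s h8 h9 => h7 (lin_of_coprime hy.2 h8 h9)⟩
  have h8 : ∀ z ∈ SpG Bk, r ≠ p → (z.restrictScalars F).toLinearMap ^ r = 1 →
      2 * finrank F K ∣ finrank F (RU (z.restrictScalars F)) := fun z hz h8 h9 => by
    rw [finrank_RU_res, mul_comm 2]
    exact Nat.mul_dvd_mul_left _ (even_RU_alt hB' hA' hz (cast_ne_zero_of_ne p h8)
      ((res_pow_eq_one z).1 h9)).two_dvd
  refine ⟨fun H => ?_, ?_⟩
  · rcases eq_or_ne r p with rfl | hrp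
    · refine (not_elu_char r hB hA hd (by omega) (fun y hy h9 => ?_) H).elim
      rcases h7 y hy with ⟨z, -, rfl⟩ | ⟨h, -⟩
      · rw [finrank_RU_res] at h9
        exact hk.one_lt.ne' (Nat.eq_one_of_mul_eq_one_right h9)
      · nlinarith
    rcases eq_or_ne r 2 with rfl | hr2
    · obtain ⟨N, hN⟩ := exists_ND_alt hB hA (m := 1) (by omega)
      obtain ⟨x, a1, a2, a3⟩ := exists_inv_RU (isWittPair_alt B hB hA) (fun _ => rfl)
        ((two_ne_zero_iff p).2 hrp.symm) hN.2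
      have a4 : finrank F (RU x) = 2 := a3 ▸ hN.1
      by_contra a5
      refine not_elu_cj a1 a2 (ne_scalar_of_RU (by omega) (by omega)) (fun y hy a6 a7 => ?_) H
      rw [a4] at a7
      rcases h7 y hy with ⟨z, hz, rfl⟩ | ⟨h, -⟩
      · have := Nat.le_of_dvd two_pos (a7 ▸ h8 z hz hrp a6)
        omega
      · obtain rfl : m = 1 := by nlinarith
        exact a5 ⟨rfl, by omega, by omega, hrp.symm⟩
    refine (not_elu_odd p hB hA hd hr2 hrp (h1.trans (Dvd.intro _ hω)) (fun y hy a6 a7 => ?_) H).elim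
    rcases h7 y hy with ⟨z, hz, rfl⟩ | ⟨h, a8⟩
    · have a8 := h8 z hz hrp a6
      rw [a7, cc_eq', Nat.mul_dvd_mul_iff_left two_pos] at a8
      refine not_dvd_of_val (card_sub_ne_zero _)
        ((Nat.mul_dvd_mul_left ω (card_dvd_of_res h6)).trans hω.dvd) ?_ h1
      rw [(rk_sp p hr2 hrp hB hA hd).2, (rk_sp p hr2 hrp hB' hA' hm).2, cc_eq', cc_eq',
        Nat.mul_div_mul_left _ _ two_pos, Nat.mul_div_mul_left _ _ two_pos, ← vs_aq, ← vs_aq, h3,
        Module.card_eq_pow_finrank (K := F) (V := K), aq_pow _ hk.pos]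
      exact vs_mul hk.pos (fun j hj => a8.trans (ch_dvd_iff.2
        ((dvd_pow_sub_one_iff Fintype.card_pos _).1 hj))) m
    · obtain rfl := (Nat.coprime_primes hr.out hk).not.1 (a8 r a6) |> not_not.1
      have := cc_le p hr2 hrp (F := F)
      have : finrank F (RU y) + 1 ≤ finrank F K := by omega
      nlinarith
  rintro ⟨rfl, rfl, h9, h10⟩
  have a0 : (2 : F) ≠ 0 := (two_ne_zero_iff p).2 h10
  obtain rfl : m = 1 := by rw [h9] at h3; omega
  refine (elu_two_iff a0 (isWittPair_alt B hB hA) le_rfl).2 ⟨fun g _ a1 a2 =>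
    (cj_iff inf_le_left).2 ?_, fun g _ a1 => (cj_iff inf_le_left).2 ?_⟩
  · have a3 : ∀ x ∈ SpG B, x.toLinearMap ^ 2 = 1 → (∀ z, x.toLinearMap ≠ algebraMap F _ z) →
        finrank F (RU x) = 2 := fun x b1 b2 b3 => by
      obtain ⟨l, hl⟩ := even_RU_alt hB hA b1 a0 b2
      have b4 : finrank F (RU x) ≠ 0 := fun h => b3 1 (by rw [finrank_RU_eq_zero.1 h]; simp; rfl)
      have b5 : finrank F (RU x) ≠ finrank F V := fun h => b3 (-1) (LinearMap.ext fun v => by
        obtain ⟨w, rfl⟩ := (Submodule.eq_top_of_finrank_eq h).ge (Submodule.mem_top (x := v))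
        simpa [pow_two] using LinearMap.congr_fun b2 w)
      have := (RU x).finrank_le
      omega
    obtain ⟨s, a4, a5⟩ := exists_invol h9
    obtain ⟨E, hE⟩ := exists_equiv_sympBilin hB' hA' hm
    obtain ⟨y, a6, a7⟩ := exists_semi ((Pi.basisFun K _).map E.symm) s one_ne_zero
    have a8 := semi_sq _ a6 a5 a7 (c := 1) (by simp)
    have a9 := form_semi ((Pi.basisFun K _).map E.symm) a6 (Bk := Bk) (fun _ => rfl) (c := 1) (by
      simp only [a7, one_smul, ← hE]
      rintro (i | i) (j | j) <;> simp [sympBilin_apply, Cfsg.sympForm, Pi.single_apply, Matrix.J,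
        Matrix.one_apply, apply_ite s])
    have b1 : y ∈ SpG B := ⟨fun u v => by
      rw [e, e, a9, one_mul, Algebra.trace_eq_of_algEquiv], fun _ => rfl⟩
    rw [map_one] at a8
    refine ⟨⟨y, b1, semi_mem a6⟩, isConj_inv_sp p hB hA h10.symm a8 a1 ((a3 y b1 a8 fun z hz =>
      a4 (RingHom.ext fun k => ?_)).trans (a3 _ g.2 a1 a2).symm)⟩
    obtain ⟨v, hv⟩ := exists_ne (0 : V)
    have b2 : ∀ v, y v = z • v := LinearMap.congr_fun hz
    exact smul_left_injective K (y.map_ne_zero_iff.2 hv) ((a6 k v).symm.trans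
      (by simp only [b2, smul_comm z]; rfl))
  · obtain ⟨z, hz⟩ := exists_sq_neg_sp hB' hA' hm
    exact ⟨⟨_, h6 _ z.2⟩, isConj_sq_neg_sp hB hA hd a0 (by
      simpa using (res_pow_eq z.1 (c := (-1 : F))).2 (by simpa using hz)) a1⟩

theorem elu_sp_unit (hp2 : p ≠ 2) (hk : finrank F K = 2)
    (hs : ∀ k : K, ∃ k' : K, ∀ x y, B (k • x) y = B x (k' • y))
    (hn : ¬ ∀ (k : K) x y, B (k • x) y = B x (k • y)) (h2 : 2 ≤ d) (h1 : r ∣ ω)
    (hω : ω * Nat.card ↥(SpG B ⊓ SemiG F K V) = Nat.card (SpG B)) :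
    Elu (SpG B) r (Cj (SpG B) (SpG B ⊓ SemiG F K V)) ↔ r = 2 := by
  have : FiniteDimensional K V := Module.Finite.of_restrictScalars_finite F K V
  have : Nontrivial V := (finrank_pos_iff (R := F)).1 (by omega)
  have := Fintype.ofFinite K
  have := charP_of_injective_algebraMap (algebraMap F K).injective p
  obtain ⟨τ, t1, t2⟩ := exists_tau (σ := RingHom.id F) B hB.2 hs
  have t3 : τ ≠ RingHom.id K := by rintro rfl; exact hn t1
  have t4 := tau_invol hB (ε := -1) (fun x y => by simp [hA.neg_eq]) t1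
  let s : K ≃ₐ[F] K := .ofBijective ⟨τ, t2⟩ (Function.Involutive.bijective t4)
  have t5 : ∀ k, τ k = k ^ Fintype.card F := fun k => by
    obtain ⟨⟨j, hj⟩, h⟩ := (FiniteField.bijective_frobeniusAlgHom_pow F K).2 ⟨τ, t2⟩
    obtain rfl | rfl : j = 0 ∨ j = 1 := by omega
    · exact (t3 (RingHom.ext fun k => (AlgHom.congr_fun h k).symm)).elim
    · simpa using (AlgHom.congr_fun h k).symm
  obtain ⟨κ, κ0, hκ⟩ := exists_skew_ne_zero t3 t4
  let ν : Dual F K := Algebra.trace F K ∘ₗ LinearMap.mulLeft F κ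
  have ν0 : ν ≠ 0 := fun h => Algebra.trace_ne_zero F K (LinearMap.ext fun k => by
    simpa [ν, κ0] using LinearMap.congr_fun h (κ⁻¹ * k))
  have ν1 : ∀ k, ν (τ k) = -ν k := fun k => by
    have := Algebra.trace_eq_of_algEquiv s (κ * k)
    rw [show s (κ * k) = -(κ * τ k) by rw [← neg_mul, ← hκ, ← map_mul]; rfl, map_neg] at this
    exact eq_neg_of_add_eq_zero_left (neg_eq_iff_add_eq_zero.1 this)
  obtain ⟨Bk, e⟩ := exists_kform (σ := RingHom.id F) B t1 ν0
  have hE : EH τ 1 Bk := ⟨t4, fun x h => hB.1 x fun y => by simp [e, h], fun x y =>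
    sub_eq_zero.1 (eq_zero_of_nu ν0 fun k => by
      have := hA.neg_eq (k • y) x
      rw [e, e, ← ν1] at this
      simpa [mul_sub, sub_eq_zero, t4] using this.symm)⟩
  have h3 : finrank K V = d := by
    have := finrank_mul_finrank F K V
    rw [hk, hd] at this
    omega
  have hF : Fintype.card K = Fintype.card F ^ 2 := hk ▸ Module.card_eq_pow_finrank
  have h6 : ∀ z ∈ UG Bk, z.restrictScalars F ∈ SpG B ⊓ SemiG F K V := fun z hz =>
    ⟨⟨fun u v => by simp [e, hz.1], fun _ => rfl⟩, restrict_mem_semiG z⟩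
  have a0 : (2 : F) ≠ 0 := (two_ne_zero_iff p).2 hp2
  refine ⟨fun H => by_contra fun hr2 => ?_, ?_⟩
  · rcases eq_or_ne r p with rfl | hrp
    · refine not_elu_char r hB hA hd (by omega) (fun y hy h9 => ?_) H
      rcases semiG_lin_or (hk ▸ Nat.prime_two) hy.2 with h | h
      · obtain ⟨z, rfl, -⟩ := exists_lin ν0 e hy.1.1 h
        rw [finrank_RU_res, hk] at h9
        omega
      · have := finrank_RU_add_fix y
        omega
    refine not_elu_odd p hB hA hd hr2 hrp (h1.trans (Dvd.intro _ hω)) (fun y hy a6 a7 => ?_) H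
    obtain ⟨z, rfl, hz⟩ := exists_lin ν0 e hy.1.1 (lin_of_coprime hy.2 a6
      (hk ▸ (Nat.coprime_primes hr.out Nat.prime_two).2 hr2))
    have a1 := (hE.rk hF p t5 t3 hr2 hrp h3).1.dvd_RU p hrp (hE.cb' hF p t5 hr2 hrp)
      (x := z) ⟨hz, fun v => hz v v⟩ ((res_pow_eq_one z).1 a6)
    rw [finrank_RU_res, hk, cc_eq', Nat.mul_right_inj two_ne_zero] at a7
    rw [a7, ord_sq hF, ← cU_eq] at a1
    have a2 := orderOf_card_pos (F := F) p hr.out hrp
    have a3 : 𝐢 % 4 = 2 := by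
      have := Nat.le_of_dvd (by have := cc_pos a2; rw [cc_eq'] at this; omega) a1
      simp only [cU, ch, Nat.even_iff] at this
      split_ifs at this <;> omega
    have hq := Fintype.one_lt_card (α := F)
    obtain ⟨j, -, a4⟩ := exists_dvd_of_card (n := d) (q := Fintype.card F) (e := d ^ 2)
      (a := fun j => if Even j then Fintype.card F ^ (j + 1) - 1 else Fintype.card F ^ (j + 1) + 1)
      (b := aU (Fintype.card F)) h1 ((Nat.mul_dvd_mul_left ω (card_dvd_of_res h6)).trans hω.dvd)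
      (by rw [card_UG hF t5 d (hE.isHerm t3) hE.nondegenerate h3]; exact Dvd.intro_left _ rfl)
      (aU_ne_zero hq) (fun h => q_ne_zero hF p hrp ((ZMod.natCast_eq_zero_iff _ _).2 h)) (by
        rw [card_SpG hB hA hd, Nat.card_eq_fintype_card]
        refine congrArg _ (Finset.prod_congr rfl fun j _ => ?_)
        rw [aU, mul_comm 2, pow_mul, ← one_pow 2, Nat.sq_sub_sq]
        split_ifs <;> simp [mul_comm])
    split_ifs at a4 with a5
    · rw [dvd_pow_sub_one_iff Fintype.card_pos] at a4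
      have := (show 2 ∣ 𝐢 by omega).trans a4
      rw [Nat.even_iff] at a5
      omega
    · have a8 : r ∣ Fintype.card F ^ (j + 1) - 1 := by
        have a8 := a4.mul_right (Fintype.card F ^ (j + 1) - 1)
        rw [← Nat.sq_sub_sq, one_pow, ← pow_mul, dvd_pow_sub_one_iff Fintype.card_pos] at a8
        obtain ⟨m, hm⟩ : 2 ∣ 𝐢 := by omega
        rw [Nat.even_iff] at a5
        rw [dvd_pow_sub_one_iff Fintype.card_pos, hm]
        rw [hm, mul_comm, Nat.mul_dvd_mul_iff_right two_pos] at a8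
        exact (Nat.coprime_two_left.2 (Nat.odd_iff.2 (by omega))).mul_dvd_of_dvd_of_dvd
          (by omega) a8
      have := Nat.dvd_sub a4 a8
      have a9 := Nat.one_le_pow (j + 1) _ (Fintype.card_pos (α := F))
      rw [show _ + 1 - (_ - 1) = 2 by omega] at this
      exact hr2 ((Nat.prime_dvd_prime_iff_eq hr.out Nat.prime_two).1 this)
  rintro rfl
  refine (elu_two_iff a0 (isWittPair_alt B hB hA) le_rfl).2 ⟨fun g _ a1 a2 =>
    (cj_iff inf_le_left).2 ?_, fun g _ a1 => (cj_iff inf_le_left).2 ?_⟩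
  · obtain ⟨m, hm⟩ := (even_RU_alt hB hA g.2 a0 a1).two_dvd
    have := (RU g.1).finrank_le
    obtain ⟨N, hN⟩ := hE.exists_ND t3 (m := m) (by omega)
    obtain ⟨z, a3, a4, a5⟩ := exists_inv_RU (hE.wp t3) (by simp) ((two_ne_zero_iff p).2 hp2) hN.2
    exact ⟨⟨_, h6 z a3⟩, isConj_inv_sp p hB hA hp2.symm ((res_pow_eq_one z).2 a4) a1
      (by rw [finrank_RU_res, hk, a5, hN.1, hm])⟩
  · obtain ⟨b, hb⟩ := exists_orthonormal_basis t3 t4 (hE.isHerm t3).symm hE.nondegenerate h3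
    obtain ⟨l, hl⟩ := exists_norm_eq t3 t4 (c := -1) (by simp)
    obtain ⟨y, a2, a3⟩ := exists_semi b s (l := l) (by rintro rfl; simp at hl)
    have a4 := form_semi b a2 (Bk := Bk) (fun _ => rfl) (c := -1) fun i j => by
      simp only [a3, hb, map_smul, LinearMap.map_smulₛₗ₂, smul_eq_mul]
      split_ifs
      · simp [← hl, mul_comm]
      · simp
    exact ⟨⟨y, ⟨fun u v => by
      rw [e, e, a4, neg_one_mul, map_neg]; exact neg_eq_iff_eq_neg.2 (ν1 _), fun _ => rfl⟩, semi_mem a2⟩, isConj_sq_neg_sp hB hA hd a0 (by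
        simpa using semi_sq b a2 t4 a3 (c := -1) (hl.trans (by simp))) a1⟩

end Sp

end CF.Cls
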