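/-
Elements of prime order and field extension subgroups of orthogonal groups.
-/
import Cfsg.Agent.Cls.El15

set_option autoImplicit false

namespace CF.Cls

open Polynomial Module CF.Geom CF.Classical CF.MaxSub QuadraticMap

universe u

section Gen

variable {F V : Type*} [Field F] [AddCommGroup V] [Module F V] [FiniteDimensional F V]
  {Q : QuadraticForm F V} (h2 : (2 : F) ≠ 0) (hQ : (polarBilin Q).Nondegenerate)
include h2 hQ

theorem finrank_RU_ne_one (p : ℕ) [Fact p.Prime] [CharP F p] {z : V ≃ₗ[F] V} (hz : z ∈ OG Q)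
    (h : z.toLinearMap ^ p = 1) : finrank F (RU z) ≠ 1 := fun h1 => by
  have h3 := uj_of_pow p h
  have h4 := h3.pa_symm h2 (eh_polar hQ) hz.1 2 even_two
  have h5 : ∀ μ : Multiset ℕ, (∀ d ∈ μ, 0 < d) →
      μ.card + μ.count 2 ≤ μ.sum ∧ (μ.sum = μ.card + 1 → μ.count 2 = 1) := fun μ => by
    induction μ using Multiset.induction_on with
    | empty => simp
    | cons a μ ih =>
      simp only [Multiset.forall_mem_cons, Multiset.card_cons, Multiset.count_cons,
        Multiset.sum_cons]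
      exact fun h => by have := ih h.2; split_ifs <;> omega
  have h6 := h3.finrank_range
  rw [(h5 _ (jt_pos _)).2 (by rw [h3.sum]; unfold RU at h1; omega)] at h4
  exact Nat.not_even_one h4

variable [Finite F]

theorem isConj_sq_neg_o {x y : OG Q} (hx : x.1.toLinearMap ^ 2 = -1)
    (hy : y.1.toLinearMap ^ 2 = -1) : IsConj x y := by
  obtain ⟨d, hd⟩ := (ds_of_sq_neg h2 hQ hx).1.two_dvd
  have h4 : ∀ c : F, c * c = 1 → ∀ v, x.1.toLinearMap v = c • v → v = 0 := fun c hc v hv => by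
    have := LinearMap.congr_fun hx v
    rw [pow_two, End.mul_apply, hv, map_smul, hv, smul_smul, hc, one_smul] at this
    exact (smul_eq_zero.1 ((two_smul F v).trans (eq_neg_iff_add_eq_zero.1 this))).resolve_left h2
  obtain ⟨E, h5, h6⟩ := quad_isom_of_unit hQ hQ (mem_OG.1 x.2) (mem_OG.1 y.2)
    (SS.sim (ss_of_sq_neg h2 hx) (ss_of_sq_neg h2 hy) ((charpoly_sq_neg h2 hx
      ((eh_polar hQ).ed_pres x.2.1) hd).trans
      (charpoly_sq_neg h2 hy ((eh_polar hQ).ed_pres y.2.1) hd).symm))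
    (fun v hv => h4 1 (one_mul 1) v (by rw [hv, one_smul]))
    fun v hv => h4 (-1) (by simp) v (by rw [hv, neg_one_smul])
  exact isConj_sub_of (mem_OG.2 h5) h6

theorem cj_om {S : Subgroup (V ≃ₗ[F] V)} {g y : OG Q} (hg : g.1 ∈ Om Q) (hc : IsConj y g)
    (h : ∀ t : ℤˣ, ∃ v, Q v ≠ 0 ∧ sqSign (Q v) = t ∧ (oRefl Q v * y * (oRefl Q v)⁻¹).1 ∈ S ∧
      ∃ w, Q w ≠ 0 ∧ sqSign (Q w) = 1 ∧
        (oRefl Q v * oRefl Q w * y * (oRefl Q v * oRefl Q w)⁻¹).1 ∈ S) :
    Cj (Om Q) (Om Q ⊓ S) g.1.toLinearMap := by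
  obtain ⟨c, rfl⟩ := isConj_iff.1 hc
  have h1 : ∀ a b : OG Q, LinearMap.det (a * b).1.toLinearMap =
      LinearMap.det a.1.toLinearMap * LinearMap.det b.1.toLinearMap := fun a b => map_mul _ _ _
  have h3 : ∀ v, Q v ≠ 0 → sn (oRefl Q v) = sqSign (Q v) := fun v hv => by
    simpa using (sn_prod hQ [v] (by simpa)).2
  obtain ⟨c', h4, h5⟩ : ∃ c' : OG Q, c * c'⁻¹ ∈ commutator (OG Q) ∧ (c' * y * c'⁻¹).1 ∈ S := by
    obtain ⟨v, a1, a2, a3, w, a4, a5, a6⟩ := h (sn c)
    rcases det_OG hQ c with h | h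
    · refine ⟨_, (mem_commutator_iff_sn h2 hQ _).2 ?_, a6⟩
      simp [oRefl_inv, h1, h, det_oRefl a1, det_oRefl a4, sn_mul h2 hQ, h3 v a1, h3 w a4, a2, a5]
    · refine ⟨_, (mem_commutator_iff_sn h2 hQ _).2 ?_, a3⟩
      simp [oRefl_inv, h1, h, det_oRefl a1, sn_mul h2 hQ, h3 v a1, a2]
  refine ⟨_, mem_Om.2 h4, _, ⟨mem_Om.2 ?_, h5⟩, fun v => by simp⟩
  convert Subgroup.Normal.conj_mem' inferInstance _ (mem_Om.1 hg) (c * c'⁻¹) using 1
  group

theorem card_Om (hn : 2 ≤ finrank F V) : Nat.card (Om Q) * 4 = Nat.card (OG Q) := by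
  rw [Om, Subgroup.card_map_of_injective (Subgroup.subtype_injective _),
    ← index_commutator_odd hQ h2 hn, Subgroup.card_mul_index]

theorem card_dvd_Om (hn : 2 ≤ finrank F V) {A : Type*} [Group A] {φ : A →* (V ≃ₗ[F] V)}
    (h : Function.Injective φ) {S : Subgroup (V ≃ₗ[F] V)} (h1 : ∀ a, φ a ∈ OG Q ∧ φ a ∈ S) :
    Nat.card A ∣ Nat.card ↥(Om Q ⊓ S) * 4 := by
  let ψ := φ.codRestrict (OG Q) fun a => (h1 a).1
  rw [← ((commutator (OG Q)).comap ψ).card_mul_index]
  refine mul_dvd_mul ((Subgroup.card_map_of_injective h).symm.dvd.trans (Subgroup.card_dvd_of_le ?_))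
    ?_
  · rintro _ ⟨a, ha, rfl⟩
    exact ⟨(mem_Om (g := ψ a)).2 ha, (h1 a).2⟩
  · rw [Subgroup.index_comap, ← index_commutator_odd hQ h2 hn]
    exact Subgroup.relIndex_dvd_index_of_normal _ _

end Gen

variable {F K : Type u} {V W : Type*} [Field F] [Field K] [Algebra F K] [AddCommGroup V]
  [Module F V] [Module K V] [IsScalarTower F K V] [AddCommGroup W] [Module F W] [Module K W]
  [IsScalarTower F K W] {Q : QuadraticForm K V} {Q' : QuadraticForm K W}

variable (F) in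
/-- The trace of a quadratic form. -/
noncomputable def trQ (Q : QuadraticForm K V) : QuadraticForm F V :=
  (Algebra.trace F K).compQuadraticMap' Q

theorem trQ_apply (v : V) : trQ F Q v = Algebra.trace F K (Q v) := rfl

theorem polar_trQ (x y : V) : polar (trQ F Q) x y = Algebra.trace F K (polar Q x y) := by
  simp [polar, trQ_apply]

theorem res_mem_OG {z : V ≃ₗ[K] V} (hz : z ∈ OG Q) : z.restrictScalars F ∈ OG (trQ F Q) :=
  mem_OG.2 fun v => congrArg (Algebra.trace F K) (mem_OG.1 hz v)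

theorem isPlus_trQ [FiniteDimensional F K] (h : IsPlus Q) : IsPlus (trQ F Q) := by
  obtain ⟨U, h1, h2⟩ := h
  refine ⟨U.restrictScalars F, ?_, fun u hu => by rw [trQ_apply, h2 u hu, map_zero]⟩
  rw [← finrank_mul_finrank F K V, ← h1, mul_left_comm, finrank_mul_finrank]
  rfl

variable [Finite K]

theorem tr_ne_zero : Algebra.trace F K ≠ 0 :=
  have := Finite.of_injective _ (algebraMap F K).injective
  Algebra.trace_ne_zero F K

theorem nd_trQ (hQ : (polarBilin Q).Nondegenerate) : (polarBilin (trQ F Q)).Nondegenerate :=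
  nondegenerate_of_left _ fun x h => hQ.1 x fun y => eq_zero_of_nu (F := F) tr_ne_zero fun k => by
    simpa [polar_trQ] using h (k • y)

theorem disjoint_kl (h2 : (2 : K) ≠ 0) {v : V} (hv : Q v ≠ 0) :
    Disjoint (kl F K v) (perp (polarBilin (trQ F Q)) (kl F K v)) :=
  Submodule.disjoint_def.2 fun u hu h => by
    obtain ⟨k, rfl⟩ := mem_kl.1 hu
    have := eq_zero_of_nu (F := F) tr_ne_zero (a := k * (2 * Q v)) fun k' => by
      simpa [polar_trQ, polar_self', mul_left_comm] using h _ (smul_mem_kl k' v)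
    rw [(mul_eq_zero.1 this).resolve_right (mul_ne_zero h2 hv), zero_smul]

theorem sqSign_norm (h2 : (2 : F) ≠ 0) {a : K} (ha : a ≠ 0) :
    sqSign (Algebra.norm F a) = sqSign a := by
  have := Finite.of_injective _ (algebraMap F K).injective
  have h1 : ∀ a : K, IsSquare a → IsSquare (Algebra.norm F a) := fun a h => h.map _
  by_cases h : IsSquare a
  · rw [sqSign_eq_one_iff.2 h, sqSign_eq_one_iff.2 (h1 a h)]
  obtain ⟨c, h3, h4⟩ := exists_sqSign h2 (-1)
  obtain ⟨b, rfl⟩ := FiniteField.norm_surjective F K c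
  have h5 : b ≠ 0 := by rintro rfl; simp at h3
  have h6 : ¬ IsSquare b := fun h => by simp [sqSign_eq_one_iff.2 (h1 b h)] at h4
  have h7 := sqSign_eq_one_iff.2 (h1 (a * b) (sqSign_eq_one_iff.1 (by
    rw [sqSign_mul _ _ ha h5, sqSign_of_not h, sqSign_of_not h6]; simp)))
  rw [map_mul, sqSign_mul _ _ (Algebra.norm_ne_zero_iff.2 ha) h3, h4] at h7
  rw [sqSign_of_not h, ← neg_inj, ← mul_neg_one, h7, neg_neg]

variable [FiniteDimensional F V] [FiniteDimensional K V] [FiniteDimensional F W]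
  [FiniteDimensional K W] (h2 : (2 : F) ≠ 0)
include h2

omit [Finite K] [FiniteDimensional F V] [FiniteDimensional K V] in
theorem two_ne_zero_ext : (2 : K) ≠ 0 := by
  rwa [← map_ofNat (algebraMap F K), _root_.map_ne_zero]

omit [FiniteDimensional F V] in
theorem exists_trQ {Q : QuadraticForm F V} (hQ : (polarBilin Q).Nondegenerate)
    (hs : ∀ (k : K) x y, polar Q (k • x) y = polar Q x (k • y)) :
    ∃ Qk : QuadraticForm K V, (polarBilin Qk).Nondegenerate ∧ trQ F Qk = Q := by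
  have := Finite.of_injective _ (algebraMap F K).injective
  obtain ⟨Bk, e⟩ := exists_kform (τ := RingHom.id K) (polarBilin Q) hs tr_ne_zero
  simp only [polarBilin_apply_apply] at e
  have h3 := two_ne_zero_ext (K := K) h2
  have h1 : ∀ x y, Bk x y = Bk y x := fun x y => sub_eq_zero.1 (eq_zero_of_nu (F := F) tr_ne_zero
    fun k => by
      have := e x (k • y)
      rw [polar_comm, e, (Bk x).map_smul, Bk.map_smul] at this
      simpa [mul_sub, sub_eq_zero] using this.symm)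
  have h4 : ∀ x y, polar ((2 : K)⁻¹ • LinearMap.BilinMap.toQuadraticMap Bk) x y = Bk x y :=
    fun x y => by
      simp only [polar, _root_.smul_apply, LinearMap.BilinMap.toQuadraticMap_apply, map_add,
        LinearMap.add_apply, h1 y x, smul_eq_mul]
      field_simp
      ring
  refine ⟨(2 : K)⁻¹ • LinearMap.BilinMap.toQuadraticMap Bk, nondegenerate_of_left _ fun x h =>
    hQ.1 x fun y => ?_, QuadraticMap.ext fun v => quad_eq_of_polar_eq h2 ?_⟩
  · rw [polarBilin_apply_apply, e, ← h4, h, map_zero]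
  · rw [polarBilin_apply_apply, polarBilin_apply_apply, polar_trQ, h4, e]

theorem ds_trQ (hQ : (polarBilin Q).Nondegenerate) (hQ' : (polarBilin Q').Nondegenerate)
    (hd : finrank K V = finrank K W) : ds (trQ F Q) * ds Q = ds (trQ F Q') * ds Q' := by
  have := Finite.of_injective _ (algebraMap F K).injective
  obtain ⟨φ⟩ := FiniteDimensional.nonempty_linearEquiv_of_finrank_eq hd
  have h1 : (polarBilin (Q'.comp φ.toLinearMap)).Nondegenerate :=
    nondegenerate_of_left _ fun x h => φ.map_eq_zero_iff.1 (hQ'.1 _ fun y => by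
      simpa [polar] using h (φ.symm y))
  rw [ds_equiv h1 φ one_ne_zero fun v => (one_mul _).symm, ds_equiv (Q' := trQ F Q') (nd_trQ h1)
    (φ.restrictScalars F) one_ne_zero fun v => (one_mul _).symm, sqSign_one, sqSign_one, one_pow,
    one_pow, one_mul, one_mul]
  generalize Q'.comp φ.toLinearMap = Q₁ at h1
  obtain ⟨T, hT⟩ := exists_dual' (fun _ => rfl) hQ.1 h1.1 rfl rfl
  have h3 : ∀ {L : Type u} [Field L] [Finite L] [Module L V] [FiniteDimensional L V]
      {Q Q₁ : QuadraticForm L V} (T : V ≃ₗ[L] V), (polarBilin Q₁).Nondegenerate →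
      (∀ x y, polar Q₁ x (T y) = polar Q x y) →
      ds Q = ds Q₁ * sqSign (LinearMap.det T.toLinearMap) := fun {L} _ _ _ _ Q Q₁ T h3 h4 => by
    rw [ds, ds, ← sqSign_mul _ _ (det_gram_ne_zero h3 _) T.isUnit_det'.ne_zero,
      ← LinearMap.det_toMatrix (finBasis L V), gram_eq_toMatrix (polarBilin Q₁), ← Matrix.det_mul,
      ← LinearMap.BilinForm.toMatrix_compRight, gram_eq_toMatrix]
    congr 3
    exact LinearMap.ext₂ fun x y => (h4 x y).symm
  rw [h3 T h1 hT, h3 (T.restrictScalars F) (nd_trQ h1) fun x y => by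
    rw [polar_trQ, polar_trQ]; exact congrArg _ (hT x y), det_restrict,
    sqSign_norm h2 T.isUnit_det'.ne_zero, mul_mul_mul_comm, Int.units_mul_self, mul_one]

theorem isPlus_trQ_iff (hQ : (polarBilin Q).Nondegenerate) (hk : finrank F K = 2)
    (he : Even (finrank K V)) : IsPlus (trQ F Q) ↔ IsPlus Q := by
  have := Finite.of_injective _ (algebraMap F K).injective
  obtain ⟨m, hm⟩ := he.two_dvd
  have h3 := two_ne_zero_ext (K := K) h2
  have h4 := qPlus_nondegenerate (F := K) m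
  have h5 := ds_trQ h2 hQ h4 (by simp [hm, two_mul])
  rw [(isPlus_iff_ds h4 h3 (k := m) (by simp [two_mul])).1 (isPlus_qPlus m), (isPlus_iff_ds
    (nd_trQ h4) h2 (k := 2 * m) (by rw [← finrank_mul_finrank F K, hk]; simp [two_mul])).1
      (isPlus_trQ (isPlus_qPlus m))] at h5
  rw [isPlus_iff_ds hQ h3 hm, isPlus_iff_ds (nd_trQ hQ) h2 (k := 2 * m)
    (by rw [← finrank_mul_finrank F K, hk, hm])]
  exact ⟨fun h => mul_left_cancel (h ▸ h5), fun h => mul_right_cancel (h ▸ h5)⟩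

variable (hQ : (polarBilin Q).Nondegenerate)
include hQ

omit h2 [FiniteDimensional K V] in
theorem mem_semiG_of_pm {N : Submodule F V} (hN : ∀ (k : K), ∀ v ∈ N, k • v ∈ N)
    (hd : Disjoint N (perp (polarBilin (trQ F Q)) N)) {g : V ≃ₗ[F] V} (h1 : ∀ v ∈ N, g v = -v)
    (h3 : ∀ v ∈ perp (polarBilin (trQ F Q)) N, g v = v) : g ∈ SemiG F K V :=
  semi_mem (s := 1) fun k v => by
    obtain ⟨u, hu, w, hw, rfl⟩ := Submodule.mem_sup.1 (((isWittPair_quad _ (nd_trQ hQ)).isCompl_perp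
      hd).sup_eq_top.ge (Submodule.mem_top (x := v)))
    rw [smul_add, map_add, map_add, h1 u hu, h3 w hw, h1 _ (hN k u hu), h3 (k • w) fun x hx => by
      simpa [polar_trQ] using hw _ (hN k x hx)]
    simp

omit [FiniteDimensional K V] in
theorem refl_mul_mem (hk : finrank F K = 2) {y : OG (trQ F Q)} (hy : y.1.toLinearMap ^ 2 = -1)
    {v : V} (hv : trQ F Q v ≠ 0) (h : y.1 v ∈ kl F K v) :
    (oRefl (trQ F Q) v * oRefl (trQ F Q) (y.1 v)).1 ∈ SemiG F K V := by
  have h1 : polar (trQ F Q) v (y.1 v) = 0 := by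
    have h1 : polar (trQ F Q) (y.1 v) (y.1 (y.1 v)) = polar (trQ F Q) v (y.1 v) :=
      y.2.1 v (y.1 v)
    rw [show y.1 (y.1 v) = -v from LinearMap.congr_fun (pow_two y.1.toLinearMap ▸ hy) v,
      polar_neg_right, polar_comm] at h1
    exact (mul_eq_zero.1 (by linear_combination -h1)).resolve_left h2
  have h3 : trQ F Q (y.1 v) ≠ 0 := by rwa [mem_OG.1 y.2]
  obtain ⟨μ, hμ⟩ := mem_kl.1 h
  refine mem_semiG_of_pm hQ (N := kl F K v) (fun k u hu => ?_) (disjoint_kl (two_ne_zero_ext h2)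
    fun h => hv (by rw [trQ_apply, h, map_zero])) (fun u hu => ?_) fun u hu => ?_
  · obtain ⟨k', rfl⟩ := mem_kl.1 hu
    exact smul_smul k k' v ▸ smul_mem_kl _ _
  · obtain ⟨k, rfl⟩ := mem_kl.1 hu
    obtain ⟨s, t, rfl⟩ := exists_coord_two hk (ω := μ) (fun a ha => h3 (by
      rw [← hμ, ha, algebraMap_smul, polar_smul_right, polar_self'] at h1
      rw [← hμ, ha, (smul_eq_zero.1 h1).resolve_right (mul_ne_zero h2 hv)]
      simp)) k
    simp [add_smul, hμ, oRefl_self h3, oRefl_self hv, oRefl_of_polar_eq_zero h1,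
      oRefl_of_polar_eq_zero ((polar_comm _ _ _).trans h1), add_comm]
  · simp [oRefl_of_polar_eq_zero (hu _ h), oRefl_of_polar_eq_zero (hu _ (self_mem_kl v))]

omit hQ [Finite K] [FiniteDimensional F V] [FiniteDimensional K V] in
theorem exists_semi_neg {s : K ≃ₐ[F] K} (hs : ∀ k, s (s k) = k) {l a : K} (hl : s l * l = -1)
    (ha : s a = l * l * a) {n : ℕ} (b : Basis (Fin n) K V)
    (hb : ∀ i j, polar Q (b i) (b j) = if i = j then 2 * a else 0) : ∃ y : OG (trQ F Q),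
      y.1.toLinearMap ^ 2 = -1 ∧ (∀ (k : K) v, y.1 (k • v) = s k • y.1 v) ∧
        ∀ j, y.1 (b j) = l • b j := by
  obtain ⟨y, h1, h3⟩ := exists_semi b s (l := l) (by rintro rfl; simp at hl)
  have h4 := form_semi b h1 (Bk := polarBilin Q) (fun _ => rfl) (c := 1) fun i j => by
    simp only [h3, polarBilin_apply_apply, polar_smul_left, polar_smul_right, hb, smul_eq_mul]
    split_ifs
    · rw [map_mul, ha, map_ofNat]; ring
    · simp
  exact ⟨⟨y, mem_OG.2 fun v => quad_eq_of_polar_eq h2 (by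
    simp only [polarBilin_apply_apply, polar_trQ] at h4 ⊢
    rw [h4, one_mul, Algebra.trace_eq_of_algEquiv])⟩, by
      simpa using semi_sq b h1 hs h3 (c := -1) (hl.trans (by simp)), h1, h3⟩

theorem cj_sq_neg (hk : finrank F K = 2) (hn : 2 ≤ finrank K V) {g : OG (trQ F Q)}
    (hg : g.1 ∈ Om (trQ F Q)) (h1 : g.1.toLinearMap ^ 2 = -1) :
    Cj (Om (trQ F Q)) (Om (trQ F Q) ⊓ SemiG F K V) g.1.toLinearMap := by
  have := Finite.of_injective _ (algebraMap F K).injective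
  have h3 := two_ne_zero_ext (K := K) h2
  have hQ' := nd_trQ (F := F) hQ
  obtain ⟨s, s1, s2⟩ := exists_invol hk
  obtain ⟨l, hl⟩ := exists_norm_eq s1 s2 (c := -1) (by simp)
  replace hl : s l * l = -1 := hl
  obtain ⟨a, a0, ha⟩ : ∃ a, a ≠ 0 ∧ s a = l * l * a := by
    by_cases h : l * l = -1
    · obtain ⟨κ, h4, h5⟩ := exists_skew_ne_zero s1 s2
      exact ⟨κ, h4, h5.trans (by rw [h, neg_one_mul])⟩
    · refine ⟨1 + s (l * l), fun h4 => h ?_, ?_⟩
      · simpa [s2, add_eq_zero_iff_eq_neg'] using congrArg s h4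
      · simp only [map_add, map_one, s2, map_mul]
        linear_combination (1 - s l * l) * hl
  let Q₁ : QuadraticForm K (Fin (finrank K V) → K) := weightedSumSquares K fun _ => a
  have h4 : ∀ i j, polar Q₁ (Pi.basisFun K _ i) (Pi.basisFun K _ j) = if i = j then 2 * a else 0 :=
    fun i j => by
      rw [Pi.basisFun_apply, Pi.basisFun_apply]
      split_ifs with h
      · simp [h, polar_self', Q₁, Pi.single_apply]
      · simp [polar, Q₁, Pi.single_apply, add_mul, mul_add, Finset.sum_add_distrib, h, Ne.symm h]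
  have h5 : (polarBilin Q₁).Nondegenerate := nondegenerate_of_left _ fun x hx => funext fun j => by
    have := hx (Pi.basisFun K _ j)
    rw [← (Pi.basisFun K _).sum_repr x, ← polarBilin_apply_apply, map_sum] at this
    simpa [-Pi.basisFun_apply, h4, h3, a0] using this
  obtain ⟨y₁, h6, -⟩ := exists_semi_neg h2 s2 hl ha _ h4
  have h7 := ds_trQ h2 h5 hQ (by simp)
  rw [(ds_of_sq_neg h2 hQ' h1).2, (ds_of_sq_neg h2 (nd_trQ h5) h6).2, one_mul, one_mul] at h7
  obtain ⟨E, hE⟩ := exists_equiv_of_ds h5 h3 hQ (by simp) h7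
  let b := (Pi.basisFun K _).map E
  have hb : ∀ i j, polar Q (b i) (b j) = if i = j then 2 * a else 0 := fun i j => by
    simp only [← h4, b, Basis.map_apply, polar, ← map_add, hE]
  obtain ⟨y, y1, y2, y3⟩ := exists_semi_neg h2 s2 hl ha b hb
  have h8 : ∀ j (t : ℤˣ), ∃ v ∈ kl F K (b j), trQ F Q v ≠ 0 ∧ sqSign (trQ F Q v) = t ∧
      y.1 v ∈ kl F K (b j) ∧ (oRefl (trQ F Q) v * oRefl (trQ F Q) (y.1 v)).1 ∈ SemiG F K V :=
    fun j t => by
      obtain ⟨c, c0, rfl⟩ := exists_sqSign h2 t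
      obtain ⟨v, v1, rfl⟩ := exists_quad_eq_mem (disjoint_kl (F := F) h3 (v := b j) (Q := Q)
        fun h => by simpa [polar_self', h, h3, a0] using hb j j)
          (by rw [finrank_kl (b.ne_zero j), hk]) c0
      have h8 : y.1 v ∈ kl F K (b j) := by
        obtain ⟨k, rfl⟩ := mem_kl.1 v1
        rw [y2, y3, smul_smul]
        exact smul_mem_kl _ _
      exact ⟨v, v1, c0, rfl, h8, refl_mul_mem h2 hQ hk y1 c0
        (by rwa [kl_eq_of_mem v1 (by rintro rfl; simp at c0)])⟩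
  refine cj_om h2 hQ' hg (isConj_sq_neg_o h2 hQ' y1 h1) fun t => ?_
  obtain ⟨v, a1, a2, a3, -, a4⟩ := h8 ⟨0, by omega⟩ t
  obtain ⟨w, a5, a6, a7, a8, a9⟩ := h8 ⟨1, by omega⟩ 1
  have b1 : oRefl (trQ F Q) v * y * (oRefl (trQ F Q) v)⁻¹ =
      oRefl (trQ F Q) v * oRefl (trQ F Q) (y.1 v) * y := by
    rw [← conj_oRefl, oRefl_inv]; group
  have b2 : ∀ u ∈ kl F K (b ⟨1, by omega⟩), oRefl (trQ F Q) v * oRefl (trQ F Q) u =
      oRefl (trQ F Q) u * oRefl (trQ F Q) v := fun u hu => by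
    obtain ⟨k, rfl⟩ := mem_kl.1 hu
    obtain ⟨k', rfl⟩ := mem_kl.1 a1
    rw [← mul_inv_eq_iff_eq_mul, conj_oRefl, oRefl_of_polar_eq_zero (by simp [polar_trQ, hb])]
  have b3 := (SemiG F K V).mul_mem a4 (semi_mem y2)
  refine ⟨v, a2, a3, b1 ▸ b3, w, a6, a7, ?_⟩
  rw [show oRefl (trQ F Q) v * oRefl (trQ F Q) w * y * (oRefl (trQ F Q) v * oRefl (trQ F Q) w)⁻¹ =
    oRefl (trQ F Q) v * oRefl (trQ F Q) w * (y * oRefl (trQ F Q) w * y⁻¹) * y *
      (oRefl (trQ F Q) v)⁻¹ by rw [mul_inv_rev, oRefl_inv w]; group, conj_oRefl, b2 w a5,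
    mul_assoc _ (oRefl _ v), b2 _ a8, ← mul_assoc, mul_assoc _ (oRefl _ v), mul_assoc _ (_ * y), b1]
  exact (SemiG F K V).mul_mem a9 b3

theorem cj_inv (hk : finrank F K = 2) {g : OG (trQ F Q)} (hg : g.1 ∈ Om (trQ F Q))
    (h1 : g.1.toLinearMap ^ 2 = 1) (h3 : ∀ z : F, g.1.toLinearMap ≠ algebraMap F _ z) :
    Cj (Om (trQ F Q)) (Om (trQ F Q) ⊓ SemiG F K V) g.1.toLinearMap := by
  have := Finite.of_injective _ (algebraMap F K).injective
  have hQ' := nd_trQ (F := F) hQ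
  obtain ⟨N₀, k, a1, a2, a3, a4, a5⟩ := exists_split_inv h2 hQ' hg h1 h3
  rw [← finrank_mul_finrank F K V, hk] at a3
  have : FiniteDimensional F K := .of_finrank_pos (by omega)
  have : ∀ N : Submodule K V, FiniteDimensional F N := fun N => Module.Finite.trans K N
  have h4 := exists_NS hQ (two_ne_zero_ext h2) a2 (by omega)
  obtain ⟨N₁, h5⟩ := h4 1
  obtain ⟨N, h6⟩ := h4 (ds (trQ F (qr Q N₁)))
  have h7 := ds_trQ h2 h6.1.nd h5.1.nd (h6.1.1.trans h5.1.1.symm)
  rw [h6.2, h5.2, mul_one, mul_eq_right] at h7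
  have h8 := ns_range (Q := trQ F Q) (nd_trQ h6.1.nd) (φ := N.subtype.restrictScalars F)
    fun _ => rfl
  rw [h7, ← finrank_mul_finrank F K, hk, h6.1.1] at h8
  generalize hM : LinearMap.range (N.subtype.restrictScalars F) = M at h8
  obtain ⟨c, c1, rfl⟩ := orbit_NS hQ' h2 h8 a1
  let y : OG (trQ F Q) := (⟨c, c1⟩ : OG _)⁻¹ * g * ⟨c, c1⟩
  have y1 : ∀ v ∈ M, y.1 v = -v := fun v hv => c.injective (by
    simpa [y] using a4 ⟨c v, v, hv, rfl⟩)
  have y2 := mem_semiG_of_pm hQ (fun k v hv => by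
    subst hM
    obtain ⟨v, rfl⟩ := hv
    exact ⟨k • v, rfl⟩) h8.1.2 y1 fun v hv => c.injective (by
      simpa [y] using a5 ⟨c v, map_le_perp le_rfl c1.1 ⟨v, hv, rfl⟩⟩)
  have h9 : ∀ t : ℤˣ, ∃ v, trQ F Q v ≠ 0 ∧ sqSign (trQ F Q v) = t ∧
      oRefl (trQ F Q) v * y = y * oRefl (trQ F Q) v := fun t => by
    obtain ⟨a, a0, rfl⟩ := exists_sqSign h2 t
    obtain ⟨v, v1, rfl⟩ := exists_quad_eq_mem h8.1.2 (by rw [h8.1.1]; omega) a0
    exact ⟨v, a0, rfl, by rw [eq_comm, ← mul_inv_eq_iff_eq_mul, conj_oRefl, y1 v v1, oRefl_neg]⟩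
  refine cj_om h2 hQ' hg (y := y) (isConj_iff.2 ⟨⟨c, c1⟩, by simp [y, mul_assoc]⟩) fun t => ?_
  obtain ⟨v, b1, b2, b3⟩ := h9 t
  obtain ⟨w, b4, b5, b6⟩ := h9 1
  exact ⟨v, b1, b2, by rwa [b3, mul_inv_cancel_right], w, b4, b5, by
    rwa [mul_assoc _ _ y, b6, ← mul_assoc, b3, mul_assoc y, mul_inv_cancel_right]⟩

omit h2 hQ in
theorem elu_om_field {V : Type u} [AddCommGroup V] [Module F V] [Module K V] [IsScalarTower F K V]
    [FiniteDimensional F V] [Fintype F] (p : ℕ) [hp : Fact p.Prime] [CharP F p] (hp2 : p ≠ 2)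
    {Q : QuadraticForm F V} (hQ : (polarBilin Q).Nondegenerate) (hk : finrank F K = 2)
    (hs : ∀ (k : K) x y, polar Q (k • x) y = polar Q x (k • y)) {d : ℕ} (hd : finrank F V = 2 * d)
    (h3 : 3 ≤ d) {r ω : ℕ} [hr : Fact r.Prime] (h1 : r ∣ ω)
    (hω : ω * Nat.card ↥(Om Q ⊓ SemiG F K V) = Nat.card (Om Q)) :
    Elu (Om Q) r (Cj (Om Q) (Om Q ⊓ SemiG F K V)) ↔ r = 2 := by
  have : FiniteDimensional K V := Module.Finite.of_restrictScalars_finite F K V
  have : Nontrivial V := (finrank_pos_iff (R := F)).1 (by omega)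
  have := Fintype.ofFinite K
  have := charP_of_injective_algebraMap (algebraMap F K).injective p
  have h2 := (two_ne_zero_iff (F := F) p).2 hp2
  obtain ⟨Q, hQ', rfl⟩ := exists_trQ h2 hQ hs
  have h4 : finrank K V = d := by
    have := finrank_mul_finrank F K V
    rw [hk, hd] at this
    omega
  refine ⟨fun H => by_contra fun hr2 => ?_, by
    rintro rfl
    exact (elu_two_iff h2 (isWittPair_quad _ hQ) (Om_le _)).2 ⟨fun g => cj_inv h2 hQ' hk,
      fun g => cj_sq_neg h2 hQ' hk (by omega)⟩⟩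
  have ho := hr.out.odd_of_ne_two hr2
  have key : ∀ x : OG (trQ F Q), x ^ r = 1 → 0 < finrank F (RU x.1) → ∃ z ∈ OG Q,
      z.toLinearMap ^ r = 1 ∧ 2 * finrank K (RU z) = finrank F (RU x.1) := fun x a1 a2 => by
    by_contra! a3
    have a4 := (sub_pow_eq_one_iff x r).1 a1
    refine not_elu_cj (mem_Om_of_odd hQ (by omega) ho x a1) a4
      (ne_scalar_of_odd (isWittPair_quad _ hQ) x.2 ho a4 a2) (fun y hy a5 => ?_) H
    obtain ⟨z, rfl, hz⟩ := exists_lin (Bk := polarBilin Q) tr_ne_zero polar_trQ (Om_le _ hy.1).1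
      (lin_of_coprime hy.2 a5 (hk ▸ (Nat.coprime_primes hr.out Nat.prime_two).2 hr2))
    rw [finrank_RU_res, hk]
    exact a3 z (mem_OG.2 fun v => quad_eq_of_polar_eq (two_ne_zero_ext h2) (hz v v))
      ((res_pow_eq_one z).1 a5)
  rcases eq_or_ne r p with rfl | hrp
  · obtain ⟨g, hg⟩ := exists_uj_s r h2 hQ (s := .replicate (2 * d - 4) 1) (k := 1)
      (by simp +contextual [Multiset.mem_replicate]) (by simp [← Multiset.card_eq_zero]; omega)
      (by simp; omega)
    have a1 := hg.finrank_range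
    simp only [Multiset.card_add, Multiset.card_replicate] at a1
    obtain ⟨z, a2, a3, a4⟩ := key g ((sub_pow_eq_one_iff g r).2 ((hg.pow_eq_one_iff r).2 (by
      simp +contextual [Multiset.mem_replicate, hr.out.two_le, hr.out.one_le, or_imp])))
        (by unfold RU; omega)
    exact finrank_RU_ne_one (two_ne_zero_ext h2) hQ' r a2 a3 (by unfold RU at *; omega)
  have a1 : ω * Nat.card (OG Q) ∣ Nat.card (OG (trQ F Q)) := by
    rw [← card_Om h2 hQ (by omega), ← hω, mul_assoc]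
    exact Nat.mul_dvd_mul_left ω (card_dvd_Om h2 hQ (by omega) (φ := (resHom F).comp (OG Q).subtype)
      (resHom_injective.comp Subtype.val_injective) fun z => ⟨res_mem_OG z.2, restrict_mem_semiG _⟩)
  have hK := rk_o p hr2 hrp hQ hd Iff.rfl
  have hK' := rk_o p hr2 hrp hQ' h4 Iff.rfl
  have a2 := orderOf_card_pos (F := F) p hr.out hrp
  obtain ⟨x, a3, a4⟩ := hK.1.exists_RU p hrp (cb_id p hr2 hrp) (Nat.pos_of_ne_zero fun h => by
    have := one_le_padicValNat_of_dvd (card_sub_ne_zero _) (h1.trans (Dvd.dvd.trans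
      (Dvd.intro _ rfl) a1))
    simp [hK.2, h, vs] at this)
  rw [← cc_eq] at a4
  obtain ⟨z, a5, a6, a7⟩ := key x a3 (a4 ▸ cc_pos a2)
  have a8 := hK'.1.dvd_RU p hrp (cb_id p hr2 hrp) a5 a6
  have hF : Fintype.card K = Fintype.card F ^ 2 := hk ▸ Module.card_eq_pow_finrank
  rw [a4, cc_eq', Nat.mul_right_inj two_ne_zero] at a7
  rw [a7, ← cc_eq, cc_eq'] at a8
  obtain ⟨m, hm⟩ : 4 ∣ orderOf (Fintype.card F : ZMod r) := by
    have := (dvd_mul_right 2 _).trans a8
    simp only [ch, Nat.even_iff] at this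
    split_ifs at this <;> omega
  have a9 : orderOf (Fintype.card K : ZMod r) = 2 * m := by
    rw [ord_sq hF, hm, bU, if_pos ⟨2 * m, by omega⟩]; omega
  refine not_dvd_of_val (card_sub_ne_zero _) a1 ?_ h1
  have b1 : ch (4 * m) = 2 * m := by rw [ch, if_pos ⟨2 * m, by omega⟩]; omega
  have b2 : ch (2 * m) = m := by rw [ch, if_pos (even_two_mul m)]; omega
  rw [hK.2, hK'.2, a9, hm, b1, b2, hF, aq_pow _ two_pos, mul_assoc,
    vs_mul (a := aq (Fintype.card F)) two_pos fun j hj =>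
    (dvd_mul_right 2 m).trans (b1 ▸ ch_dvd_iff.2 (hm ▸
      (dvd_pow_sub_one_iff Fintype.card_pos _).1 hj)), kO_of_even ⟨2 * m, by omega⟩,
    kO_of_even (even_two_mul m), show 4 * m = 2 * (2 * m) by omega, Nat.mul_div_mul_left _ _ two_pos,
    Nat.mul_mod_mul_left]
  congr 3
  congr 1
  refine propext ?_
  rw [Nat.mul_eq_zero, or_iff_right two_ne_zero]
  exact and_congr_right fun h => by rw [isPlus_trQ_iff h2 hQ' hk (h4 ▸ even_iff_two_dvd.2
    ((dvd_mul_right 2 m).trans (Nat.dvd_of_mod_eq_zero h)))]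

end CF.Cls
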