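/-
Elements of prime order and tensor product subgroups of symplectic groups.
-/
import Cfsg.Agent.Cls.El15
import Cfsg.Agent.Cls.KO7
import Cfsg.Agent.Classical.EluJ
import Cfsg.Agent.MaxSub.TM

set_option autoImplicit false

namespace CF.Cls

open Polynomial Module CF.Geom CF.Classical CF.MaxSub TensorProduct

universe u

variable {F U W V : Type u} [Field F] [AddCommGroup U] [Module F U] [FiniteDimensional F U]
  [AddCommGroup W] [Module F W] [FiniteDimensional F W] [AddCommGroup V] [Module F V]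
  [FiniteDimensional F V] {g : End F U} {h : End F W}

omit [FiniteDimensional F U] [FiniteDimensional F W] in
theorem sim_map_comm (g : End F U) (h : End F W) :
    Sim (map g h : End F (U ⊗[F] W)) (map h g : End F (W ⊗[F] U)) :=
  ⟨TensorProduct.comm F U W, fun v => (map_comm h g v).symm⟩

omit [FiniteDimensional F U] [FiniteDimensional F W] in
theorem Sim.pow_eq (h1 : Sim g h) {m : ℕ} {z : F} (h2 : g ^ m = algebraMap F _ z) :
    h ^ m = algebraMap F _ z := by
  have := (h1.aeval_eq_zero_iff (X ^ m - C z)).1 (by simp [h2])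
  rwa [map_sub, map_pow, aeval_X, aeval_C, sub_eq_zero] at this

theorem mul_add_kd_le {k : ℕ} {u : U} (hu : LinearIndependent F fun j : Fin (k + 1) => (g ^ j.1) u)
    (h : End F W) : k * finrank F W + kd (map g h : End F (U ⊗[F] W)) (X - 1) ≤
      finrank F U * finrank F W := by
  obtain ⟨φ, hφ⟩ := (Fintype.linearCombination F _).exists_leftInverse_of_injective
    (LinearMap.ker_eq_bot.2 hu.fintypeLinearCombination_injective)
  have h1 : ∀ i j : Fin (k + 1), φ ((g ^ j.1) u) i = if i = j then 1 else 0 := fun i j => by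
    simpa [Pi.single_apply] using congrFun (LinearMap.congr_fun hφ (Pi.single j 1)) i
  let N := aeval (map g h : End F (U ⊗[F] W)) (X - 1 : F[X])
  let ψ : (Fin k → W) →ₗ[F] U ⊗[F] W := ∑ j, mk F U W ((g ^ j.1) u) ∘ₗ LinearMap.proj j
  have h3 : Function.Injective (N.rangeRestrict ∘ₗ ψ) :=
    (injective_iff_map_eq_zero _).2 fun w hw => by
      have h4 : ∀ i : Fin (k + 1), ∑ j : Fin k, (if i = j.succ then h (w j) else 0) =
          ∑ j : Fin k, if i = j.castSucc then w j else 0 := fun i => by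
        have := congrArg (fun x => TensorProduct.lid F W ((LinearMap.proj i ∘ₗ φ).rTensor W x.1)) hw
        have h2 := fun j : Fin k => h1 i j.succ
        have h3 := fun j : Fin k => h1 i j.castSucc
        simp only [Fin.val_succ, pow_succ', End.mul_apply, Fin.val_castSucc] at h2 h3
        simpa [N, ψ, h2, h3, sub_eq_zero] using this
      have h5 : ∀ n (hn : n < k), w ⟨n, hn⟩ = 0 := fun n => by
        induction n with
        | zero =>
          intro hn
          have := h4 (Fin.castSucc ⟨0, hn⟩)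
          simp only [Fin.castSucc_inj, Finset.sum_ite_eq] at this
          simpa [Fin.ext_iff] using this.symm
        | succ n ih =>
          intro hn
          have := h4 (Fin.castSucc ⟨n + 1, hn⟩)
          simp only [Fin.castSucc_inj, Finset.sum_ite_eq] at this
          rw [Finset.sum_eq_single ⟨n, by omega⟩ (by simp +contextual [Fin.ext_iff, eq_comm])
            (by simp), ih] at this
          simpa using this.symm
      exact funext fun j => h5 j.1 j.2
  rw [← finrank_tensorProduct, ← N.finrank_range_add_finrank_ker]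
  exact Nat.add_le_add_right (by simpa [finrank_pi_fintype] using
    LinearMap.finrank_le_finrank_of_injective h3) _

theorem exists_scalar_of_map [Nontrivial W] (hh : IsUnit h) {z : F}
    (h1 : (map g h : End F (U ⊗[F] W)) = algebraMap F _ z) : ∃ c, g = algebraMap F _ c := by
  by_contra! h3
  have h4 := add_kd_le_of_map h3 hh z
  rw [kd, map_sub, aeval_X, aeval_C, h1, sub_self, LinearMap.ker_zero, finrank_top,
    finrank_tensorProduct] at h4
  have := finrank_pos (R := F) (M := W)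
  omega

theorem ed_map_scalar (c : F) (h : End F W) :
    ed (map (algebraMap F (End F U) c) h : End F (U ⊗[F] W)) = finrank F U • ed (c • h) := by
  rw [Algebra.algebraMap_eq_smul_one, map_smul_left, ← map_smul_right, ed_map_one]

theorem dvd_RU_of_ed {y : V ≃ₗ[F] V} {a : ℕ} (ha : a ∣ finrank F V) {t : Multiset F[X]}
    (h : ed y.toLinearMap = a • t) : a ∣ finrank F (RU y) := by
  have := finrank_RU_add y
  rw [h, Multiset.map_nsmul, Multiset.sum_nsmul] at this
  exact (Nat.dvd_add_left (Dvd.intro _ rfl)).1 (this ▸ ha)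

variable [Fintype F] (p : ℕ) [hp : Fact p.Prime] [CharP F p] {r : ℕ} [hr : Fact r.Prime]

local notation "𝐢" => orderOf (Fintype.card F : ZMod r)

theorem pred_mul_add_kd_le (hrp : r ≠ p) (h1 : g ^ r = 1) (h2 : g ≠ 1) (h : End F W) :
    𝐢 ≤ finrank F U ∧ (𝐢 - 1) * finrank F W + kd (map g h : End F (U ⊗[F] W)) (X - 1) ≤
      finrank F U * finrank F W := by
  obtain ⟨π, h3⟩ : ∃ π, π ∈ nt g := Multiset.exists_mem_of_ne_zero fun h3 => h2
    ((eq_scalar_of_ed (f := g) (c := 1) fun a ha => by_contra fun h =>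
      Multiset.notMem_zero a (h3 ▸ mem_nt.2 ⟨ha, h⟩)).trans (map_one _))
  have h4 := (pow_eq_one_iff_nt p hr.out hrp g).1 h1 π h3
  have h5 := (facs_spec (F := F) p hr.out hrp).1 π h4
  obtain ⟨s, hs⟩ := Multiset.exists_cons_of_mem (mem_nt.1 h3).1
  obtain ⟨n, b, -, h6⟩ := (hs ▸ hasED_ed g).exists_prod
  obtain ⟨E, hE⟩ := h6.symm
  obtain ⟨k, hk⟩ := Nat.exists_eq_add_one.2 (orderOf_card_pos (F := F) p hr.out hrp)
  let ψ := E.toLinearMap ∘ₗ LinearMap.inl F _ _
  have h7 : LinearIndependent F fun j : Fin (k + 1) => (g ^ j.1) (ψ 1) := by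
    let B := AdjoinRoot.powerBasis (mem_facs.1 h4).2.1.ne_zero
    have := ((B.basis.reindex (finCongr (h5.trans hk))).linearIndependent.map' ψ
      (LinearMap.ker_eq_bot.2 (E.injective.comp LinearMap.inl_injective)))
    refine (congrArg (fun v => LinearIndependent F v) (funext fun j => ?_)).mp this
    rw [← pow_intertwine (f := cyc π) ψ fun x => by simp [ψ, ← hE], ← aeval_X_pow (R := F), aeval_cyc]
    simp [B]
    rfl
  rw [hk]
  exact ⟨by simpa using h7.fintype_card_le_finrank, mul_add_kd_le h7 h⟩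

theorem exists_map_pow_eq_one [Nontrivial U] [Nontrivial W] (h0 : ¬ r ∣ Fintype.card F - 1)
    (hg : IsUnit g) (hh : IsUnit h) (h1 : (map g h : End F (U ⊗[F] W)) ^ r = 1) :
    ∃ (g' : End F U) (h' : End F W), map g' h' = map g h ∧ g' ^ r = 1 ∧ h' ^ r = 1 := by
  rw [TensorProduct.map_pow] at h1
  obtain ⟨c, hc⟩ := exists_scalar_of_map (hh.pow r) (h1.trans (map_one _).symm)
  obtain ⟨d, rfl⟩ := exists_pow_eq_of_not_dvd h0 c
  have hd : d ≠ 0 := by rintro rfl; exact (hg.pow r).ne_zero (by simp [hc, hr.out.ne_zero])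
  obtain ⟨u, hu⟩ := exists_ne (0 : U)
  obtain ⟨φ, hφ⟩ := Geom.exists_dual_eq_one (F := F) hu
  refine ⟨d⁻¹ • g, d • h, by simp [map_smul_left, map_smul_right, smul_smul, hd], by
    rw [_root_.smul_pow, hc, Algebra.algebraMap_eq_smul_one, smul_smul, ← mul_pow,
      inv_mul_cancel₀ hd, one_pow, one_smul], LinearMap.ext fun w => ?_⟩
  rw [hc] at h1
  simpa [-map_pow, hφ, _root_.smul_pow] using congrArg (fun x => TensorProduct.lid F W (φ.rTensor W x))
    (LinearMap.congr_fun h1 (u ⊗ₜ w))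

variable {B : LinearMap.BilinForm F V} (hB : B.Nondegenerate) (hA : B.IsAlt)
include hB hA

theorem not_ed_nsmul (hr2 : r ≠ 2) (hrp : r ≠ p) {y : V ≃ₗ[F] V} (hy : y ∈ SpG B)
    (h1 : y.toLinearMap ^ r = 1) (h2 : finrank F (RU y) = cc 𝐢) {a : ℕ} (ha : 2 ≤ a)
    {t : Multiset F[X]} : ed y.toLinearMap ≠ a • t := fun h => by
  have h3 := (eh_alt hB hA).nt_pres hy.1
  have h4 := (pow_eq_one_iff_nt p hr.out hrp _).1 h1
  rw [finrank_RU_eq_card p hrp h1, cc_eq,
    Nat.mul_left_inj (orderOf_card_pos (F := F) p hr.out hrp).ne'] at h2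
  rw [nt, h, Multiset.filter_nsmul] at h2 h3 h4
  rw [Multiset.map_nsmul, nsmul_right_inj (by omega)] at h3
  obtain ⟨k, hk⟩ := (cb_id p hr2 hrp).dvd ⟨fun x hx => h4 x
    ((Multiset.mem_nsmul_of_ne_zero (by omega)).2 hx), h3⟩
  rw [Multiset.card_nsmul, hk, mul_left_comm,
    Nat.mul_eq_left (cb_id (F := F) p hr2 hrp).w_pos.ne'] at h2
  exact absurd (Nat.eq_one_of_mul_eq_one_right h2) (by omega)

theorem elu_sp_ten (hp2 : p ≠ 2) (κ : U ⊗[F] W ≃ₗ[F] V) {B₁ : LinearMap.BilinForm F U}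
    {B₂ : LinearMap.BilinForm F W} (h₁ : B₁.Nondegenerate) (a₁ : B₁.IsAlt) (h₂ : B₂.Nondegenerate)
    (a₂ : ∀ x y, B₂ x y = B₂ y x) {c : F}
    (e : ∀ x y s t, B (κ (x ⊗ₜ s)) (κ (y ⊗ₜ t)) = c * B₁ x y * B₂ s t) (ha : 2 ≤ finrank F U)
    (hb : 3 ≤ finrank F W) (h1 : r ∣ Nat.card (SpG B)) :
    Elu (SpG B) r (Cj (SpG B) (SpG B ⊓ (TenG F U W).comap (autCongr κ.symm).toMonoidHom)) ↔
      r = 2 ∧ finrank F U = 2 := by
  have : Nontrivial U := (finrank_pos_iff (R := F)).1 (by omega)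
  have : Nontrivial W := (finrank_pos_iff (R := F)).1 (by omega)
  have h2 := (two_ne_zero_iff (F := F) p).2 hp2
  obtain ⟨a, ha'⟩ := even_finrank_of_alt h₁ a₁
  have hd : finrank F V = 2 * (a * finrank F W) := by
    rw [← κ.finrank_eq, finrank_tensorProduct, ha']; ring
  have : Nontrivial V := (finrank_pos_iff (R := F)).1 (by nlinarith)
  have h3 : ∀ y ∈ SpG B ⊓ (TenG F U W).comap (autCongr κ.symm).toMonoidHom, ∃ (g : End F U)
      (h : End F W), IsUnit g ∧ IsUnit h ∧ Sim (map g h : End F _) y.toLinearMap ∧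
        finrank F (RU y) + kd (map g h : End F _) (X - 1) = finrank F U * finrank F W := by
    rintro y ⟨-, g, h, hy⟩
    have h3 : Sim (map g.toLinearMap h.toLinearMap : End F _) y.toLinearMap := ⟨κ, fun v =>
      (congrArg κ (LinearEquiv.congr_fun hy v).symm).trans (κ.apply_symm_apply _)⟩
    exact ⟨_, _, (End.isUnit_iff _).2 g.bijective, (End.isUnit_iff _).2 h.bijective, h3, by
      rw [h3.kd_eq, kd_eq_ed, finrank_RU_add, ← κ.finrank_eq, finrank_tensorProduct]⟩
  have h4 : ∀ y ∈ SpG B ⊓ (TenG F U W).comap (autCongr κ.symm).toMonoidHom,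
      (∃ t, ed y.toLinearMap = finrank F U • t) ∨ finrank F W ≤ finrank F (RU y) := fun y hy => by
    obtain ⟨g, h, -, hh, h4, h5⟩ := h3 y hy
    by_cases h6 : ∃ c, g = algebraMap F _ c
    · obtain ⟨c, rfl⟩ := h6
      exact .inl ⟨_, (sim_iff_ed.1 h4).symm.trans (ed_map_scalar _ _)⟩
    · have := add_kd_le_of_map (not_exists.1 h6) hh 1
      rw [C_1] at this
      omega
  have h5 : ∀ y ∈ SpG B ⊓ (TenG F U W).comap (autCongr κ.symm).toMonoidHom,
      finrank F U ∣ finrank F (RU y) ∨ finrank F W ≤ finrank F (RU y) := fun y hy =>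
    (h4 y hy).imp_left fun ⟨_, h⟩ => dvd_RU_of_ed ⟨finrank F W, by rw [hd, ha']; ring⟩ h
  have h6 : ∀ (g : U ≃ₗ[F] U) (h : W ≃ₗ[F] W), (∀ x y, B₁ (g x) (g y) = B₁ x y) →
      (∀ x y, B₂ (h x) (h y) = B₂ x y) → autCongr κ (congr g h) ∈
        SpG B ⊓ (TenG F U W).comap (autCongr κ.symm).toMonoidHom := fun g h hg hh =>
    ⟨mem_SpG.2 fun u v => by
      obtain ⟨u, rfl⟩ := κ.surjective u
      obtain ⟨v, rfl⟩ := κ.surjective v
      simp only [autCongr_apply, LinearEquiv.symm_apply_apply]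
      induction u with
      | zero => simp
      | add _ _ h h' => simp [h, h']
      | tmul x s => induction v with
        | zero => simp
        | add _ _ h h' => simp only [map_add, h, h']
        | tmul y t => simp [e, hg, hh], g, h, by ext; simp [autCongr_apply]⟩
  have h7 : ∀ (g : U ≃ₗ[F] U) (h : W ≃ₗ[F] W), Sim (map g.toLinearMap h.toLinearMap : End F _)
      (autCongr κ (congr g h)).toLinearMap := fun g h => ⟨κ, fun v => by simp [autCongr_apply]; rfl⟩
  refine ⟨fun H => ?_, ?_⟩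
  · rcases eq_or_ne r p with rfl | hrp
    · refine (not_elu_char r hB hA hd (by nlinarith) (fun y hy h9 => ?_) H).elim
      rcases h5 y hy with h | h
      · have := Nat.le_of_dvd (by omega) h; omega
      · omega
    rcases eq_or_ne r 2 with rfl | hr2
    · obtain ⟨N, hN⟩ := exists_ND_alt hB hA (m := 1) (by nlinarith)
      obtain ⟨x, a1, a2, a3⟩ := exists_inv_RU (isWittPair_alt B hB hA) (fun _ => rfl) h2 hN.2
      have a4 : finrank F (RU x) = 2 := a3 ▸ hN.1
      by_contra a5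
      refine not_elu_cj a1 a2 (ne_scalar_of_RU (by omega) (by nlinarith)) (fun y hy a6 a7 => ?_) H
      rcases h5 y hy with h | h
      · have := Nat.le_of_dvd (by omega) h; omega
      · omega
    refine (not_elu_odd p hB hA hd hr2 hrp h1 (fun y hy a6 a7 => ?_) H).elim
    have a8 := fun a ha t => not_ed_nsmul p hB hA hr2 hrp hy.1 a6 a7 (a := a) ha (t := t)
    by_cases a9 : r ∣ Fintype.card F - 1
    · rw [ord_eq_one_iff.2 a9, cc_odd odd_one] at a7
      exact (h4 y hy).elim (fun ⟨t, h⟩ => a8 _ ha t h) (by omega)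
    obtain ⟨g, h, b1, b2, b3, b4⟩ := h3 y hy
    obtain ⟨g, h, b5, b6, b7⟩ := exists_map_pow_eq_one a9 b1 b2 (b3.symm.pow_eq
      (z := 1) (a6.trans (map_one _).symm) |>.trans (map_one _))
    rw [← b5] at b3 b4
    have c1 := pred_mul_add_kd_le p hrp b6 (by
      rintro rfl; exact a8 _ ha _ ((sim_iff_ed.1 b3).symm.trans (ed_map_one _))) h
    have c2 := pred_mul_add_kd_le p hrp b7 (by
      rintro rfl
      exact a8 _ (by omega) _ ((sim_iff_ed.1 ((sim_map_comm _ _).trans b3)).symm.trans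
        (ed_map_one _))) g
    rw [(sim_map_comm h g).kd_eq, mul_comm (finrank F W)] at c2
    have c3 := mt ord_eq_one_iff.1 a9
    have c4 := orderOf_card_pos (F := F) p hr.out hrp
    generalize 𝐢 = i at *
    obtain ⟨i, rfl⟩ : ∃ j, i = j + 1 := ⟨i - 1, by omega⟩
    rw [Nat.add_sub_cancel] at c1 c2
    rcases (i + 1).even_or_odd with h | h
    · rw [cc_even h] at a7
      nlinarith [c1.2, Nat.pos_of_ne_zero (show i ≠ 0 by omega)]
    · rw [cc_odd h] at a7
      obtain ⟨j, hj⟩ := h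
      nlinarith [c2.2, show i + 2 ≤ finrank F U by omega, show 2 ≤ i by omega]
  rintro ⟨rfl, hU⟩
  obtain rfl : a = 1 := by omega
  refine (elu_two_iff h2 (isWittPair_alt B hB hA) le_rfl).2 ⟨fun x _ a1 _ => ?_, fun x _ a1 => ?_⟩
  · obtain ⟨k, hk⟩ := even_RU_alt hB hA x.2 (by simpa using h2) a1
    obtain ⟨Q, rfl⟩ : ∃ Q : QuadraticForm F W, QuadraticMap.polarBilin Q = B₂ :=
      Tri.exists_polar h2 ⟨W, B₂, 1, eh_symm (fun _ => rfl) h₂ ⟨a₂⟩, fun _ _ => rfl⟩
    obtain ⟨N, hN⟩ := exists_ND h₂ h2 (m := k) (by have := (RU x.1).finrank_le; omega)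
    obtain ⟨h, b1, b2, b3⟩ := exists_inv_RU (isWittPair_quad Q h₂) Q.map_neg h2 hN.2
    have b4 := h6 1 h (fun _ _ => rfl) b1.1
    refine (cj_iff inf_le_left).2 ⟨⟨_, b4⟩, isConj_inv_sp p hB hA hp2.symm (((h7 1 h).pow_eq
      (z := 1) (by simp [TensorProduct.map_pow, b2, ← End.one_eq_id])).trans (map_one _)) a1 ?_⟩
    have b5 := finrank_RU_add (autCongr κ (congr 1 h))
    have b6 := finrank_RU_add h
    rw [← sim_iff_ed.1 (h7 1 h), LinearEquiv.coe_toLinearMap_one, ← End.one_eq_id, ed_map_one,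
      Multiset.map_nsmul, Multiset.sum_nsmul, hU, two_smul] at b5
    rw [b3, hN.1] at b6
    dsimp only
    omega
  · obtain ⟨J, hJ⟩ := exists_sq_neg_sp h₁ a₁ (d := 1) hU
    refine (cj_iff inf_le_left).2 ⟨⟨_, h6 J.1 1 J.2.1 fun _ _ => rfl⟩,
      isConj_sq_neg_sp hB hA hd h2 ?_ a1⟩
    refine ((h7 J.1 1).pow_eq (z := -1) ?_).trans (by simp)
    rw [TensorProduct.map_pow, hJ]
    ext; simp [neg_tmul]

end CF.Cls
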