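/-
Quadratic forms over the field with two elements sharing a polar form.
-/
import Cfsg.Agent.Geom.Orders
import Cfsg.Agent.Geom.OGen

set_option autoImplicit false

namespace CF.Cls

open Module CF.Geom QuadraticMap

variable {V : Type*} [AddCommGroup V] [Module (ZMod 2) V] {Q : QuadraticForm (ZMod 2) V}

theorem z2_mul_self (x : ZMod 2) : x * x = x := by revert x; decide

/-- The shifted form `Q + f (·, w)`. -/
def shQ (Q : QuadraticForm (ZMod 2) V) (w : V) : QuadraticForm (ZMod 2) V :=
  Q + linMulLin (polarBilin Q w) (polarBilin Q w)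

theorem shQ_apply (w v : V) : shQ Q w v = Q v + polar Q v w := by
  simp [shQ, z2_mul_self, polar_comm Q w]

theorem polarBilin_shQ (w : V) : polarBilin (shQ Q w) = polarBilin Q := by
  ext u v
  simp only [polarBilin_apply_apply, polar, shQ_apply]
  simp only [← polar_add_left, ← QuadraticMap.polar.eq_1]
  have := polar_add_left Q u v w
  simp only [polar] at this ⊢
  linear_combination this

variable [FiniteDimensional (ZMod 2) V]

theorem exists_shQ (hQ : (polarBilin Q).Nondegenerate) {q : V → ZMod 2}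
    (hq : ∀ u v, q (u + v) = q u + q v + (Q (u + v) - Q u - Q v)) : ∃ w, ⇑(shQ Q w) = q := by
  obtain ⟨w, hw⟩ := (LinearMap.BilinForm.toDual (polarBilin Q) hQ).surjective
    ((AddMonoidHom.mk' (fun v => q v - Q v) fun u v => by rw [hq]; ring).toZModLinearMap 2)
  refine ⟨w, funext fun v => ?_⟩
  have h : polar Q w v = q v - Q v := LinearMap.congr_fun hw v
  rw [shQ_apply, polar_comm, h]; ring

/-- The forms with the same polarisation are parametrised by the vectors. -/
noncomputable def shEquiv (hQ : (polarBilin Q).Nondegenerate) :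
    V ≃ {q : V → ZMod 2 // ∀ u v, q (u + v) = q u + q v + (Q (u + v) - Q u - Q v)} :=
  Equiv.ofBijective (fun w => ⟨shQ Q w, fun u v => by
    simp only [shQ_apply, polar_add_left]; ring⟩) ⟨fun a b h => sub_eq_zero.1 (hQ.2 _ fun v => by
      have := congrFun (congrArg Subtype.val h) v
      simp only [shQ_apply, add_right_inj] at this
      simp [this]), fun q => (exists_shQ hQ q.2).imp fun _ h => Subtype.ext h⟩

theorem card_shQ (hQ : (polarBilin Q).Nondegenerate) (R : (V → ZMod 2) → Prop) (S : V → Prop)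
    (h : ∀ w, S w ↔ R (shQ Q w)) : Nat.card {q : V → ZMod 2 //
      (∀ u v, q (u + v) = q u + q v + (Q (u + v) - Q u - Q v)) ∧ R q} = Nat.card {w // S w} :=
  (Nat.card_congr (((shEquiv hQ).subtypeEquiv h).trans
    (Equiv.subtypeSubtypeEquivSubtypeInter _ R))).symm

theorem card_zero_add {m : ℕ} (hV : finrank (ZMod 2) V = 2 * (m + 1)) :
    Nat.card {w // Q w = 0} + Nat.card {w // ¬ Q w = 0} = 4 * (2 ^ m) ^ 2 := by
  classical
  have := Module.finite_of_finite (ZMod 2) (M := V)
  rw [← Nat.card_sum, Nat.card_congr (Equiv.sumCompl _), natCard_eq_pow_finrank (K := ZMod 2), hV,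
    Nat.card_zmod]
  ring

theorem shQ_iso_iff (hQ : (polarBilin Q).Nondegenerate) {m : ℕ}
    (hV : finrank (ZMod 2) V = 2 * (m + 1)) (w : V) :
    (∃ g : V ≃ₗ[ZMod 2] V, ∀ v, shQ Q w v = Q (g v)) ↔ Q w = 0 := by
  have h0 : polarBilin Q w w = 0 := by simp [polar_self, CharTwo.two_eq_zero]
  refine ⟨fun ⟨g, hg⟩ => by_contra fun h => ?_, fun h => ⟨LinearEquiv.transvection h0, fun v => ?_⟩⟩
  · have h1 : Nat.card {v // Q v = 0} = Nat.card {v // ¬ Q v = 0} :=
      Nat.card_congr ((g.symm.toEquiv.trans (Equiv.addRight w)).subtypeEquiv fun v => by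
        obtain ⟨v, rfl⟩ := g.surjective v
        have h2 : Q (v + w) = Q (g v) + Q w := by rw [← hg, shQ_apply, polar]; ring
        simp only [Equiv.trans_apply, LinearEquiv.coe_toEquiv, LinearEquiv.symm_apply_apply,
          Equiv.coe_addRight, h2]
        revert h
        generalize Q (g v) = a; generalize Q w = b
        revert a b; decide)
    have h2 := card_zero_add (Q := Q) hV
    obtain ⟨x, hx⟩ : ∃ x, 2 ^ m = x + 1 := Nat.exists_eq_add_one.2 (by positivity)
    by_cases hp : IsPlus Q
    · rw [← h1, card_singular_plus hQ hp hV, Nat.card_zmod, pow_succ 2, hx,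
        show (x + 1) * 2 - 1 = 2 * x + 1 by omega] at h2
      nlinarith
    · rw [← h1, card_singular_minus hQ hp hV, Nat.card_zmod, pow_succ 2, hx,
        Nat.add_sub_cancel] at h2
      nlinarith
  · change _ = Q (v + polarBilin Q w v • w)
    rw [QuadraticMap.map_add Q, Q.map_smul, h, polar_smul_right, shQ_apply]
    simp [polar_comm Q w, z2_mul_self]

theorem aniso_z2 : ∀ z₁ z₂ : ZMod 2, z₁ ^ 2 + 1 * z₁ * z₂ + 1 * z₂ ^ 2 = 0 → z₁ = 0 ∧ z₂ = 0 := by
  decide

end CF.Cls
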