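import Cfsg.Agent.Cls.SpO3
import Cfsg.Agent.Cls.Cnt

/-! Field reduction of forms. -/

set_option autoImplicit false

namespace CF.Cls

open Module CF.Geom QuadraticMap

section
variable {F K : Type*} [Field F] [Field K]

theorem exists_fix_emb [Fintype F] [Fintype K] {q : ℕ} (hK : Fintype.card K = q ^ 2)
    (hF : Fintype.card F = q) {σ : K →+* K} (hσ : ∀ x, σ x = x ^ q) :
    ∃ i : F →+* K, ∀ x, σ x = x ↔ ∃ y, i y = x := by
  classical
  let L := RingHom.eqLocusField σ (RingHom.id K)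
  have h1 : Fintype.card F = Fintype.card L := by
    rw [hF, ← Nat.card_eq_fintype_card, ← card_fixed_eq hK]
    exact Nat.card_congr (Equiv.subtypeEquivRight (fun x => by rw [← hσ]; rfl))
  let e := FiniteField.ringEquivOfCardEq h1
  exact ⟨L.subtype.comp e.toRingHom, fun x => ⟨fun h => ⟨e.symm ⟨x, h⟩, by simp⟩,
    fun ⟨y, hy⟩ => hy ▸ (e y).2⟩⟩

theorem finrank_eq_of_card [Fintype F] [Fintype K] [Algebra F K] {d : ℕ}
    (h : Fintype.card K = Fintype.card F ^ d) : finrank F K = d := by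
  rw [Module.card_eq_pow_finrank (K := F)] at h
  exact Nat.pow_right_injective Fintype.one_lt_card h

variable [Algebra F K] {V : Type*} [AddCommGroup V] [Module F V] [Module K V] [IsScalarTower F K V]
  {σ : K →+* K}

/-- restriction of scalars -/
def resHom (F K V : Type*) [Field F] [Field K] [Algebra F K] [AddCommGroup V] [Module F V]
    [Module K V] [IsScalarTower F K V] : (V ≃ₗ[K] V) →* (V ≃ₗ[F] V) where
  toFun g := g.restrictScalars F
  map_one' := rfl
  map_mul' _ _ := rfl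

@[simp] theorem resHom_apply (g : V ≃ₗ[K] V) (v : V) : resHom F K V g v = g v := rfl

theorem resHom_injective : Function.Injective (resHom F K V) :=
  fun _ _ h => LinearEquiv.ext (fun v => LinearEquiv.congr_fun h v)

/-- the form `l ∘ B` over the smaller field -/
def trForm (B : V →ₛₗ[σ] V →ₗ[K] K) (hσ : ∀ a, σ (algebraMap F K a) = algebraMap F K a)
    (l : K →ₗ[F] F) : LinearMap.BilinForm F V :=
  LinearMap.mk₂ F (fun u v => l (B u v)) (fun _ _ _ => by simp)
    (fun c u v => by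
      rw [← algebraMap_smul K c u, LinearMap.map_smulₛₗ, hσ, LinearMap.smul_apply, algebraMap_smul,
        map_smul]) (fun _ _ _ => by simp)
    (fun c u v => by rw [← algebraMap_smul K c v, map_smul, algebraMap_smul, map_smul])

@[simp] theorem trForm_apply (B : V →ₛₗ[σ] V →ₗ[K] K)
    (hσ : ∀ a, σ (algebraMap F K a) = algebraMap F K a) (l : K →ₗ[F] F) (u v : V) :
    trForm B hσ l u v = l (B u v) := rfl

theorem eq_of_lin_mul {l : K →ₗ[F] F} (hl : l ≠ 0) {x y : K} (h : ∀ c, l (c * x) = l (c * y)) :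
    x = y := by
  by_contra h1
  refine hl (LinearMap.ext (fun z => ?_))
  have := h (z * (x - y)⁻¹)
  rw [← sub_eq_zero, ← map_sub, ← mul_sub, inv_mul_cancel_right₀ (sub_ne_zero.2 h1)] at this
  exact this

theorem trForm_nondegenerate {B : V →ₛₗ[σ] V →ₗ[K] K} (hB : B.Nondegenerate)
    (hσ : ∀ a, σ (algebraMap F K a) = algebraMap F K a) (hs : Function.Surjective σ)
    {l : K →ₗ[F] F} (hl : l ≠ 0) : (trForm B hσ l).Nondegenerate :=
  ⟨fun x hx => hB.1 x (fun y => eq_of_lin_mul hl (fun c => by simpa using hx (c • y))),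
    fun x hx => hB.2 x (fun y => eq_of_lin_mul hl (fun c => by
      obtain ⟨c, rfl⟩ := hs c
      simpa using hx (c • y)))⟩

theorem exists_hom_Sp [FiniteDimensional F V] {B : V →ₛₗ[σ] V →ₗ[K] K} {B' : LinearMap.BilinForm F V}
    (h1 : B'.Nondegenerate) (h2 : B'.IsAlt) (h3 : ∀ g : V ≃ₗ[K] V, (∀ u v, B (g u) (g v) = B u v) →
      ∀ u v, B' (g u) (g v) = B' u v) {m : ℕ} (hm : finrank F V = 2 * m) {G : Type*} [Group G]
    (ρ : G →* (V ≃ₗ[K] V)) (hρ : Function.Injective ρ) (h4 : ∀ g u v, B (ρ g u) (ρ g v) = B u v) :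
    ∃ φ : G →* Matrix.symplecticGroup (Fin m) F, Function.Injective φ := by
  obtain ⟨e, he⟩ := exists_equiv_sympBilin h1 h2 hm
  let ψ : G →* SpG B' := ((resHom F K V).comp ρ).codRestrict _ (fun g => mem_SpG.2 (h3 _ (h4 g)))
  let E : SpG B' ≃* _ := (isomCongr e he (fun _ => rfl)).trans (spEquiv m F).symm
  exact ⟨E.toMonoidHom.comp ψ, fun a b h =>
    hρ (resHom_injective (F := F) (congrArg Subtype.val (E.injective h)))⟩

theorem exists_lin_alt (h2 : finrank F K = 2) : ∃ l : K →ₗ[F] F, l ≠ 0 ∧ l 1 = 0 := by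
  have := Module.finite_of_finrank_eq_succ h2
  obtain ⟨θ, hθ⟩ : ∃ θ : K, θ ∉ F ∙ (1 : K) := by
    by_contra! h
    have := finrank_span_singleton (K := F) (one_ne_zero (α := K))
    rw [(Submodule.eq_top_iff' (p := F ∙ (1 : K))).2 h, finrank_top] at this
    omega
  obtain ⟨l, h3, h4⟩ := Submodule.exists_le_ker_of_notMem hθ
  exact ⟨l, by rintro rfl; exact h3 rfl, h4 (Submodule.mem_span_singleton_self _)⟩

theorem trForm_isAlt {B : V →ₛₗ[σ] V →ₗ[K] K} (hB : B.IsSymm)
    (hσ : ∀ x, σ x = x ↔ ∃ y, algebraMap F K y = x) {l : K →ₗ[F] F} (hl : l 1 = 0) :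
    (trForm B (fun a => (hσ _).2 ⟨a, rfl⟩) l).IsAlt := fun v => by
  obtain ⟨y, hy⟩ := (hσ _).1 (hB.eq v v)
  rw [trForm_apply, ← hy, Algebra.algebraMap_eq_smul_one, map_smul, hl, smul_zero]

theorem exists_quad_herm {B : V →ₛₗ[σ] V →ₗ[K] K} (hH : IsHerm B) (hB : B.Nondegenerate)
    (hσ : ∀ x, σ x = x ↔ ∃ y, algebraMap F K y = x) : ∃ Q : QuadraticForm F V,
      (polarBilin Q).Nondegenerate ∧ ∀ v, algebraMap F K (Q v) = B v v := by
  obtain ⟨l, hl⟩ := LinearMap.exists_extend_of_notMem (0 : (⊥ : Submodule F K) →ₗ[F] F)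
    (v := (1 : K)) (by simp) 1
  have h1 : ∀ x, σ x = x → algebraMap F K (l x) = x := fun x hx => by
    obtain ⟨y, rfl⟩ := (hσ x).1 hx
    rw [Algebra.algebraMap_eq_smul_one y, map_smul, hl.2, smul_eq_mul, mul_one,
      Algebra.algebraMap_eq_smul_one]
  refine ⟨LinearMap.BilinMap.toQuadraticMap (trForm B (fun a => (hσ _).2 ⟨a, rfl⟩) l),
    nondegenerate_of_left _ (fun x hx => hB.1 x (fun y => ?_)), fun v => h1 _ (hH.eq v v)⟩
  by_contra h
  obtain ⟨t, ht⟩ := exists_trace_ne_zero σ (Or.inl hH.ne_id)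
  have h2 := hx ((t * (B x y)⁻¹) • y)
  rw [LinearMap.BilinMap.polar_toQuadraticMap, trForm_apply, trForm_apply, ← map_add,
    ← hH.eq x, map_smul, smul_eq_mul, inv_mul_cancel_right₀ h] at h2
  have h3 := h1 (t + σ t) (by rw [map_add, hH.invol, add_comm])
  rw [h2, map_zero] at h3
  exact ht h3.symm

theorem isPlus_iff_even [Fintype F] [Fintype K] [FiniteDimensional K V] {q : ℕ}
    (hK : Fintype.card K = q ^ 2) (hF : Fintype.card F = q) (hσ : ∀ x, σ x = x ^ q)
    {B : V →ₛₗ[σ] V →ₗ[K] K} (hH : IsHerm B) (hB : B.Nondegenerate) {Q : QuadraticForm F V}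
    (hQ : (polarBilin Q).Nondegenerate) (h : ∀ v, algebraMap F K (Q v) = B v v) :
    IsPlus Q ↔ Even (finrank K V) := by
  have h1 : finrank F V = 2 * finrank K V := by
    rw [← finrank_mul_finrank F K V, finrank_eq_of_card (hK.trans (by rw [hF]))]
  have : FiniteDimensional F V := Module.Finite.trans K V
  have h2 := card_isotropic hK hσ hH hB rfl
  rw [← Nat.card_congr (Equiv.subtypeEquivRight (p := fun v => Q v = 0)
    (q := fun v => B v v = 0) (fun v => by rw [← h]; simp))] at h2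
  generalize finrank K V = n at h1 h2
  rcases n with _ | n
  · exact iff_of_true ⟨⊥, by simpa using h1.symm, by simp +contextual⟩ (by simp)
  have hq := two_le_of_card_eq_sq hK
  obtain ⟨a, ha⟩ : ∃ a, q ^ n = a + 1 := Nat.exists_eq_succ_of_ne_zero (by positivity)
  obtain ⟨b, hb⟩ : ∃ b, q ^ (n + 1) = b + 1 := Nat.exists_eq_succ_of_ne_zero (by positivity)
  have hab : a < b := by rw [pow_succ, ha] at hb; nlinarith
  by_cases hp : IsPlus Q
  · refine iff_of_true hp (by_contra fun h3 => ?_)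
    rw [card_singular_plus hQ hp h1, if_neg h3, Nat.card_eq_fintype_card, hF, Nat.add_sub_cancel,
      ha, hb, Nat.add_sub_cancel, Nat.add_sub_cancel] at h2
    nlinarith
  · refine iff_of_false hp (fun h3 => ?_)
    rw [card_singular_minus hQ hp (m := n) h1, if_pos h3, Nat.card_eq_fintype_card, hF,
      Nat.add_sub_cancel, ha, hb, Nat.add_sub_cancel, Nat.add_sub_cancel] at h2
    nlinarith

end

theorem exists_hom_GU_O {F K : Type*} [Field F] [Field K] [Fintype F] [Fintype K] {q : ℕ}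
    (hK : Fintype.card K = q ^ 2) (hF : Fintype.card F = q) (m : ℕ) {ι : Type} [Fintype ι]
    [DecidableEq ι] {Q : QuadraticForm F (ι → F)} (hQ : (polarBilin Q).Nondegenerate)
    (hι : Fintype.card ι = 2 * m) (hp : IsPlus Q ↔ Even m) :
    ∃ φ : Cfsg.GU m K q →* Cfsg.isometryGroup F Q, Function.Injective φ := by
  obtain ⟨σ, hσ, hσ1, hσ2⟩ := exists_conj hK
  obtain ⟨i, hi⟩ := exists_fix_emb hK hF hσ
  let _ := i.toAlgebra
  have e := eh_hermSesq hσ2 (Fin m)
  obtain ⟨Q', h1, h2⟩ := exists_quad_herm (F := F) (e.isHerm hσ1) e.nondegenerate hi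
  have h3 := isPlus_iff_even hK hF hσ (e.isHerm hσ1) e.nondegenerate h1 h2
  have h4 : finrank F (Fin m → K) = 2 * m := by
    rw [← finrank_mul_finrank F K, finrank_eq_of_card (hK.trans (by rw [hF])), finrank_fin_fun]
  rw [finrank_fin_fun] at h3
  obtain ⟨E, hE⟩ := exists_equiv_of_isPlus_iff h1 hQ (h3.trans hp.symm) ⟨m, by omega⟩
    (by rw [h4, finrank_fintype_fun_eq_card, hι])
  let ψ : UG (hermSesq (Fin m) σ) →* OG Q' := ((resHom F K _).comp (Subgroup.subtype _)).codRestrict _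
    (fun g => mem_OG.2 (fun v => i.injective ((h2 _).trans ((mem_UG.1 g.2 v v).trans (h2 v).symm))))
  let E' := (ogCongr E hE).trans (oEquiv Q).symm
  exact ⟨E'.toMonoidHom.comp (ψ.comp (guEquiv m hσ).toMonoidHom), fun a b h =>
    (guEquiv m hσ).injective (Subtype.ext (resHom_injective (F := F)
      (congrArg Subtype.val (E'.injective h))))⟩

end CF.Cls
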