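/-
Homocyclic Sylow subgroups of linear and symplectic groups.
-/
import Cfsg.Agent.Cls.Spec5
import Cfsg.Agent.Cls.Red
import Cfsg.Agent.Geom.Orders
import Cfsg.Agent.Classical.Linear
import Cfsg.Agent.Fgs2.Zsigmondy

set_option autoImplicit false

namespace CF.Cls

open Polynomial Module CF.Geom Matrix CF.Fgs2

/-- `G` contains the homocyclic group `(Z/N)^a`. -/
def HC (G : Type*) [Monoid G] (a N : ℕ) : Prop :=
  ∃ φ : (Fin a → Multiplicative (ZMod N)) →* G, Function.Injective φ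

section Abs

variable {G H : Type*} {a N : ℕ}

theorem HC.map [Monoid G] [Monoid H] (h : HC G a N) (f : G →* H) (hf : Function.Injective f) :
    HC H a N := let ⟨φ, h⟩ := h; ⟨f.comp φ, hf.comp h⟩

theorem hc_zero [Monoid G] : HC G 0 N := ⟨1, fun _ _ _ => Subsingleton.elim _ _⟩

theorem HC.cons [Group H] [Monoid G] {g : H} (hg : orderOf g = N) (h : HC G a N) :
    HC (H × G) (a + 1) N := by
  obtain ⟨φ, hφ⟩ := h
  have e := zmodCyclicMulEquiv (G := Subgroup.zpowers g) inferInstance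
  rw [Nat.card_zpowers, hg] at e
  let ψ := (Subgroup.zpowers g).subtype.comp e.toMonoidHom
  have hψ : Function.Injective ψ := Subtype.val_injective.comp e.injective
  refine ⟨(ψ.comp (Pi.evalMonoidHom _ 0)).prod
    (φ.comp (MonoidHom.pi fun i => Pi.evalMonoidHom _ i.succ)), fun x y hxy => ?_⟩
  have h1 : x 0 = y 0 := hψ (congrArg Prod.fst hxy)
  have h2 := hφ (congrArg Prod.snd hxy)
  exact funext fun i => Fin.cases h1 (fun j => congrFun h2 j) i

theorem HC.units [Monoid G] (h : HC G a N) : HC Gˣ a N :=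
  let ⟨φ, h⟩ := h; ⟨φ.toHomUnits, fun _ _ e => h (congrArg Units.val e)⟩

theorem HC.sylow [Group G] [Finite G] {r k : ℕ} [hr : Fact r.Prime] (h : HC G a (r ^ k))
    (hc : (Nat.card G).factorization r = a * k) (P : Sylow r G) :
    Nonempty (P ≃* (Fin a → Multiplicative (ZMod (r ^ k)))) := by
  obtain ⟨φ, hφ⟩ := h
  have : NeZero (r ^ k) := ⟨pow_ne_zero _ hr.out.ne_zero⟩
  have h1 : Nat.card φ.range = r ^ (Nat.card G).factorization r := by
    rw [← Nat.card_congr (MonoidHom.ofInjective hφ).toEquiv, hc, mul_comm, pow_mul]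
    simp
  exact ⟨(P.equiv (Sylow.ofCard φ.range h1)).trans (MonoidHom.ofInjective hφ).symm⟩

end Abs

theorem fact_pow_sub_one {r q e : ℕ} (hr : r.Prime) (hq : 2 ≤ q) (he : ¬ r ∣ e) :
    (q ^ e - 1).factorization r = if orderOf (q : ZMod r) ∣ e then
      padicValNat r (Fgs2.cyc (orderOf (q : ZMod r)) q) else 0 := by
  have h0 : 0 < e := Nat.pos_of_ne_zero (by rintro rfl; simp at he)
  have h1 : q ^ e - 1 = ∏ i ∈ e.divisors, Fgs2.cyc i q := by
    have := congrArg (Polynomial.eval (q : ℤ)) (Polynomial.prod_cyclotomic_eq_X_pow_sub_one h0 ℤ)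
    zify [Nat.one_le_pow e q (by omega), cast_cyc _ hq]
    simpa [Polynomial.eval_prod] using this.symm
  have h2 : ∀ i ∈ e.divisors, Fgs2.cyc i q ≠ 0 := Finset.prod_ne_zero_iff.1
    (h1 ▸ (Nat.sub_pos_of_lt (Nat.one_lt_pow h0.ne' hq)).ne')
  have h3 : ∀ i ∈ e.divisors, i ≠ orderOf (q : ZMod r) → (Fgs2.cyc i q).factorization r = 0 :=
    fun i hi h => Nat.factorization_eq_zero_of_not_dvd fun h4 => h ((prime_dvd_cyc_iff hr q 0
      fun h5 => he (h5.trans (Nat.dvd_of_mem_divisors hi))).1 (by simpa using h4)).symm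
  rw [h1, Nat.factorization_prod_apply h2]
  split_ifs with h
  · rw [Finset.sum_eq_single_of_mem _ (Nat.mem_divisors.2 ⟨h, h0.ne'⟩) h3,
      Nat.factorization_def _ hr]
  · exact Finset.sum_eq_zero fun i hi => h3 i hi fun e => h (e ▸ Nat.dvd_of_mem_divisors hi)

theorem fact_prod_pow_sub_one {r q : ℕ} (hr : r.Prime) (hq : 2 ≤ q) {ι : Type*} (s : Finset ι)
    (e : ι → ℕ) (he : ∀ i ∈ s, ¬ r ∣ e i) : (∏ i ∈ s, (q ^ e i - 1)).factorization r =
      (s.filter fun i => orderOf (q : ZMod r) ∣ e i).card *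
        padicValNat r (Fgs2.cyc (orderOf (q : ZMod r)) q) := by
  rw [Nat.factorization_prod_apply fun i hi => (Nat.sub_pos_of_lt (Nat.one_lt_pow
    (by intro h; exact he i hi (h ▸ dvd_zero r)) hq)).ne',
    Finset.sum_congr rfl fun i hi => fact_pow_sub_one hr hq (he i hi), ← Finset.sum_filter,
    Finset.sum_const, smul_eq_mul]

/-- The order of `q` modulo `r` is positive, prime to `r`, and the `r`-part of the cyclotomic
value divides `q ^ d - 1`. -/
theorem ord_facts {r q : ℕ} [hr : Fact r.Prime] (hq : 2 ≤ q) (hrq : ¬ r ∣ q) :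
    0 < orderOf (q : ZMod r) ∧ r ^ padicValNat r (Fgs2.cyc (orderOf (q : ZMod r)) q) ∣
      q ^ orderOf (q : ZMod r) - 1 := by
  have h0 : (q : ZMod r) ≠ 0 := fun h => hrq ((ZMod.natCast_eq_zero_iff _ _).1 h)
  have h1 := ZMod.orderOf_dvd_card_sub_one h0
  have h2 := hr.out.two_le
  have h3 := Nat.pos_of_dvd_of_pos h1 (by omega)
  have h4 := fact_pow_sub_one (e := orderOf (q : ZMod r)) hr.out hq fun h => by
    have := Nat.le_of_dvd h3 h
    have := Nat.le_of_dvd (by omega) h1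
    omega
  rw [if_pos dvd_rfl] at h4
  exact ⟨h3, h4 ▸ Nat.ordProj_dvd _ _⟩

section Mat

variable {F : Type*} [Field F] {a N : ℕ}

/-- Block diagonal matrices. -/
def blkM (F : Type*) [Field F] (ι κ : Type*) [Fintype ι] [DecidableEq ι] [Fintype κ]
    [DecidableEq κ] : Matrix ι ι F × Matrix κ κ F →* Matrix (ι ⊕ κ) (ι ⊕ κ) F where
  toFun x := fromBlocks x.1 0 0 x.2
  map_one' := fromBlocks_one
  map_mul' x y := by simp [fromBlocks_multiply]

theorem blkM_injective (ι κ : Type*) [Fintype ι] [DecidableEq ι] [Fintype κ] [DecidableEq κ] :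
    Function.Injective (blkM F ι κ) := fun _ _ h =>
  have := fromBlocks_inj.1 h
  Prod.ext this.1 this.2.2.2

theorem hc_mat {d : ℕ} {g : GL (Fin d) F} (hg : orderOf g = N) (a : ℕ) :
    ∀ n, d * a ≤ n → HC (Matrix (Fin n) (Fin n) F) a N := by
  induction a with
  | zero => exact fun _ _ => hc_zero
  | succ a ih =>
    intro n hn
    obtain ⟨m, rfl⟩ : ∃ m, n = d + m := ⟨n - d, by rw [mul_add_one] at hn; omega⟩
    exact ((((ih m (by rw [mul_add_one] at hn; omega)).cons hg).map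
      ((Units.coeHom _).prodMap (MonoidHom.id _))
      (Units.val_injective.prodMap Function.injective_id)).map _ (blkM_injective _ _)).map
      (reindexAlgEquiv F F finSumFinEquiv).toMulEquiv.toMonoidHom
      (reindexAlgEquiv F F finSumFinEquiv).injective

theorem hc_SL {n : ℕ} (φ : (Fin a → Multiplicative (ZMod N)) →* Matrix (Fin n) (Fin n) F)
    (h : Function.Injective φ) (hd : ∀ x, (φ x).det = 1) :
    HC (Matrix.SpecialLinearGroup (Fin n) F) a N :=
  ⟨{ toFun := fun x => ⟨φ x, hd x⟩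
     map_one' := Subtype.ext φ.map_one
     map_mul' := fun x y => Subtype.ext (φ.map_mul x y) },
    fun _ _ e => h (congrArg Subtype.val e)⟩

theorem HC.sl_succ {n : ℕ} (h : HC (Matrix (Fin n) (Fin n) F) a N) :
    HC (Matrix.SpecialLinearGroup (Fin (n + 1)) F) a N := by
  obtain ⟨φ, hφ⟩ := h
  let δ : (Fin a → Multiplicative (ZMod N)) →* Matrix (Fin 1) (Fin 1) F :=
    (scalar (Fin 1) : F →+* _).toMonoidHom.comp (detMonoidHom.comp (φ.comp invMonoidHom))
  let E := reindexAlgEquiv F F (finSumFinEquiv (m := n) (n := 1))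
  refine hc_SL (E.toMulEquiv.toMonoidHom.comp ((blkM F _ _).comp (φ.prod δ)))
    (E.injective.comp ((blkM_injective _ _).comp fun x y e => hφ (congrArg Prod.fst e)))
    fun x => ?_
  change (E (fromBlocks (φ x) 0 0 (scalar (Fin 1) (φ x⁻¹).det))).det = 1
  rw [det_reindexAlgEquiv, det_fromBlocks_zero₂₁, det_fin_one, scalar_apply, diagonal_apply_eq,
    ← det_mul, ← map_mul, mul_inv_cancel, map_one, det_one]

theorem HC.sl [Finite F] {n : ℕ} (h : HC (Matrix (Fin n) (Fin n) F) a N)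
    (hN : N.Coprime (Nat.card F - 1)) : HC (Matrix.SpecialLinearGroup (Fin n) F) a N := by
  obtain ⟨φ, hφ⟩ := h
  refine hc_SL φ hφ fun x => ?_
  let u := (detMonoidHom.comp φ).toHomUnits x
  have h1 : u ^ N = 1 := by
    rw [← map_pow, show x ^ N = 1 from funext fun i => by
      rw [Pi.pow_apply, ← ofAdd_toAdd (x i), ← ofAdd_nsmul, nsmul_eq_mul, ZMod.natCast_self,
        zero_mul]; rfl, map_one]
  have h2 : u ^ (Nat.card F - 1) = 1 := by rw [← Nat.card_units, pow_card_eq_one']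
  exact congrArg Units.val ((pow_eq_one_iff_of_coprime hN).1 ⟨h1, h2⟩)

/-- Direct sums of linear automorphisms. -/
def prodLE (F V W : Type*) [Field F] [AddCommGroup V] [Module F V] [AddCommGroup W]
    [Module F W] : (V ≃ₗ[F] V) × (W ≃ₗ[F] W) →* ((V × W) ≃ₗ[F] (V × W)) where
  toFun x := x.1.prodCongr x.2
  map_one' := rfl
  map_mul' _ _ := rfl

theorem prodLE_injective (V W : Type*) [AddCommGroup V] [Module F V] [AddCommGroup W]
    [Module F W] : Function.Injective (prodLE F V W) := fun _ _ h =>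
  Prod.ext (LinearEquiv.ext fun v => congrArg Prod.fst (LinearEquiv.congr_fun h (v, 0)))
    (LinearEquiv.ext fun w => congrArg Prod.snd (LinearEquiv.congr_fun h (0, w)))

theorem exists_hom_Sp_prod (F : Type*) [Field F] (c m : ℕ) :
    ∃ φ : symplecticGroup (Fin c) F × symplecticGroup (Fin m) F →*
      symplecticGroup (Fin (c + m)) F, Function.Injective φ := by
  have e := (eh_alt (sympBilin_nondegenerate (F := F) c) (sympBilin_isAlt c)).osum
    (eh_alt (sympBilin_nondegenerate m) (sympBilin_isAlt m))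
  refine exists_hom_Sp (K := F) (B := osum (sympBilin c F) (sympBilin m F)) e.nondegenerate
    (isAlt_osum (sympBilin_isAlt c) (sympBilin_isAlt m)) (fun _ h => h) (by simp; ring)
    ((prodLE F _ _).comp (((SpG _).subtype.comp (spEquiv c F).toMonoidHom).prodMap
      ((SpG _).subtype.comp (spEquiv m F).toMonoidHom)))
    ((prodLE_injective _ _).comp ((Subtype.val_injective.comp (spEquiv c F).injective).prodMap
      (Subtype.val_injective.comp (spEquiv m F).injective))) fun g u v => ?_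
  rw [osum_apply, osum_apply, ← mem_SpG.1 (spEquiv c F g.1).2 u.1,
    ← mem_SpG.1 (spEquiv m F g.2).2 u.2]
  rfl

theorem hc_Sp {c : ℕ} {g : symplecticGroup (Fin c) F} (hg : orderOf g = N) (a : ℕ) :
    ∀ n, c * a ≤ n → HC (symplecticGroup (Fin n) F) a N := by
  induction a with
  | zero => exact fun _ _ => hc_zero
  | succ a ih =>
    intro n hn
    obtain ⟨m, rfl⟩ : ∃ m, n = c + m := ⟨n - c, by rw [mul_add_one] at hn; omega⟩
    obtain ⟨φ, hφ⟩ := exists_hom_Sp_prod F c m
    exact ((ih m (by rw [mul_add_one] at hn; omega)).cons hg).map φ hφ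

variable [Finite F]

theorem exists_GL_orderOf {d : ℕ} (hd : 0 < d) (hN : N ∣ Nat.card F ^ d - 1) :
    ∃ g : GL (Fin d) F, orderOf g = N := by
  obtain ⟨p, hp⟩ := CharP.exists F
  have : Fact p.Prime := ⟨CharP.char_is_prime F p⟩
  obtain ⟨x, h1, h2⟩ := (ta_ac F p).exists_dvd (pq_card (F := F) p) (m := N) hd (by
    have := Int.natCast_dvd_natCast.2 hN
    rwa [Nat.cast_sub (Nat.one_le_pow _ _ Nat.card_pos), Nat.cast_pow] at this)
  obtain ⟨f, h3, h4⟩ := exists_ev (F := F) (V := Fin d → F) p (J := bJ (Nat.card F) d x 1)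
    (by simpa using adm_bJ h2 one_pos)
  let g : GL (Fin d) F := (h3.map (Matrix.toLinAlgEquiv' (R := F) (n := Fin d)).symm).unit
  have h5 : ev (AlgebraicClosure F) (toE (Units.coeHom _) g) = _ :=
    (congrArg _ (toLin'_toMatrix' f)).trans h4
  have h6 := orderOf_dvd_iff_ev (K := AlgebraicClosure F) p
    (toE_injective (φ := Units.coeHom (Matrix (Fin d) (Fin d) F)) Units.val_injective) g
  rw [h5] at h6
  refine ⟨g, Nat.dvd_antisymm ((h6 _).2 fun y hy => ?_) ?_⟩
  · obtain ⟨i, -, rfl⟩ := mem_bJ.1 hy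
    exact ⟨by rw [← zpow_natCast, ← _root_.zpow_mul, mul_comm, _root_.zpow_mul, zpow_natCast, ← h1,
      pow_orderOf_eq_one, _root_.one_zpow], by simp⟩
  · exact h1 ▸ orderOf_dvd_of_pow_eq_one ((h6 _).1 dvd_rfl _ (self_mem_bJ hd x 1)).1

theorem exists_Sp_orderOf {c : ℕ} (hc : 0 < c)
    (hN : (N : ℤ) ∣ (Nat.card F : ℤ) ^ c - 1 ∨ (N : ℤ) ∣ (Nat.card F : ℤ) ^ c + 1) :
    ∃ g : symplecticGroup (Fin c) F, orderOf g = N := by
  obtain ⟨p, hp⟩ := CharP.exists F
  have : Fact p.Prime := ⟨CharP.char_is_prime F p⟩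
  obtain ⟨x, h1, h2⟩ := (ta_ac F p).exists_pm (pq_card (F := F) p) hc hN
  obtain ⟨g, h5⟩ := exists_Sp_ev (F := F) p (m := c) (J := sJ (Nat.card F) c x 1)
    (by simpa using spA_sJ h2 one_pos)
  have h6 := orderOf_dvd_iff_ev (K := AlgebraicClosure F) p
    (toE_injective (φ := (symplecticGroup (Fin c) F).subtype) Subtype.val_injective) g
  rw [h5] at h6
  refine ⟨g, Nat.dvd_antisymm ((h6 _).2 fun y hy => ?_) ?_⟩
  · exact ⟨orderOf_dvd_iff_pow_eq_one.1 (h1 ▸ orderOf_dvd_of_mem_sJ hy), by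
      rw [(mem_sJ hy).1]; simp⟩
  · exact h1 ▸ orderOf_dvd_of_pow_eq_one ((h6 _).1 dvd_rfl _ (self_mem_sJ hc x 1)).1

variable {r : ℕ} [hr : Fact r.Prime]

theorem fact_pow_eq_zero {q : ℕ} (hrq : ¬ r ∣ q) (e : ℕ) : (q ^ e).factorization r = 0 :=
  Nat.factorization_eq_zero_of_not_dvd fun h => hrq (hr.out.dvd_of_dvd_pow h)

theorem fact_card_GL {n : ℕ} (hrn : n < r) (hrq : ¬ r ∣ Nat.card F) :
    (Nat.card (GL (Fin n) F)).factorization r = n / orderOf (Nat.card F : ZMod r) *
      padicValNat r (Fgs2.cyc (orderOf (Nat.card F : ZMod r)) (Nat.card F)) := by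
  have := Fintype.ofFinite F
  have hq : 2 ≤ Nat.card F := Finite.one_lt_card
  rw [Matrix.card_GL_field, ← Nat.card_eq_fintype_card (α := F),
    Fin.prod_univ_eq_prod_range (fun i => Nat.card F ^ n - Nat.card F ^ i),
    Finset.prod_congr rfl (g := fun i => Nat.card F ^ i * (Nat.card F ^ (n - 1 - i + 1) - 1))
      fun i hi => by
        rw [Nat.mul_sub_one, ← pow_add, show i + (n - 1 - i + 1) = n by
          have := Finset.mem_range.1 hi; omega], Finset.prod_mul_distrib,
    Finset.prod_range_reflect (fun i => Nat.card F ^ (i + 1) - 1), Finset.prod_pow_eq_pow_sum,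
    Nat.factorization_mul (by positivity) (Finset.prod_ne_zero_iff.2 fun i _ =>
      (Nat.sub_pos_of_lt (Nat.one_lt_pow (by omega) hq)).ne'), Finsupp.add_apply,
    fact_pow_eq_zero hrq, zero_add, fact_prod_pow_sub_one hr.out hq _ (fun i => i + 1)
      fun i hi h => by
        have := Nat.le_of_dvd (by omega) h
        have := Finset.mem_range.1 hi
        omega, Nat.card_multiples]

theorem hc_mat_ord (n : ℕ) (hrq : ¬ r ∣ Nat.card F) :
    HC (Matrix (Fin n) (Fin n) F) (n / orderOf (Nat.card F : ZMod r))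
      (r ^ padicValNat r (Fgs2.cyc (orderOf (Nat.card F : ZMod r)) (Nat.card F))) := by
  obtain ⟨h1, h2⟩ := ord_facts (r := r) Finite.one_lt_card hrq
  obtain ⟨g, hg⟩ := exists_GL_orderOf h1 h2
  exact hc_mat hg _ n (Nat.mul_div_le _ _)

theorem sylow_GL {n : ℕ} (hrn : n < r) (hrq : ¬ r ∣ Nat.card F) (P : Sylow r (GL (Fin n) F)) :
    Nonempty (P ≃* (Fin (n / orderOf (Nat.card F : ZMod r)) → Multiplicative (ZMod
      (r ^ padicValNat r (Fgs2.cyc (orderOf (Nat.card F : ZMod r)) (Nat.card F)))))) :=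
  (hc_mat_ord n hrq).units.sylow (fact_card_GL hrn hrq) P

theorem dvd_pow_sub_one_iff {q e : ℕ} (hq : 0 < q) :
    r ∣ q ^ e - 1 ↔ orderOf (q : ZMod r) ∣ e := by
  rw [orderOf_dvd_iff_pow_eq_one, ← ZMod.natCast_eq_zero_iff,
    Nat.cast_sub (Nat.one_le_pow _ _ hq), Nat.cast_pow, Nat.cast_one, sub_eq_zero]

theorem sylow_SL {n : ℕ} (hrn : n < r) (hrq : ¬ r ∣ Nat.card F)
    (P : Sylow r (Matrix.SpecialLinearGroup (Fin n) F)) :
    Nonempty (P ≃* (Fin ((Finset.Icc 2 n).filter
      fun i => orderOf (Nat.card F : ZMod r) ∣ i).card → Multiplicative (ZMod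
      (r ^ padicValNat r (Fgs2.cyc (orderOf (Nat.card F : ZMod r)) (Nat.card F)))))) := by
  have hq : 2 ≤ Nat.card F := Finite.one_lt_card
  rcases n with _ | n
  · exact HC.sylow (by simpa using hc_zero) (by simp) P
  have h1 := congrArg (fun m : ℕ => m.factorization r)
    (CF.Classical.card_units_mul_card_SL (ι := Fin (n + 1)) F)
  have h2 := fact_pow_sub_one (e := 1) hr.out hq hr.out.not_dvd_one
  beta_reduce at h1
  rw [fact_card_GL hrn hrq, Nat.factorization_mul Nat.card_pos.ne' Nat.card_pos.ne',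
    Finsupp.add_apply, Nat.card_units] at h1
  rw [pow_one] at h2
  have h3 := Nat.Ioc_filter_dvd_card_eq_div (n + 1) (orderOf (Nat.card F : ZMod r))
  rw [show Finset.Ioc 0 (n + 1) = insert 1 (Finset.Icc 2 (n + 1)) by ext; simp; omega,
    Finset.filter_insert] at h3
  split_ifs at h2 h3 with h
  · rw [Finset.card_insert_of_notMem (by simp)] at h3
    have h4 := hc_mat_ord (F := F) n hrq
    have h5 := Nat.dvd_one.1 h
    refine HC.sylow ?_ ?_ P
    · rw [show (Finset.filter _ _).card = n / orderOf (Nat.card F : ZMod r) by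
        rw [h5] at h3 ⊢; simpa using h3]
      exact h4.sl_succ
    · rw [← h3, h2, add_one_mul] at h1
      omega
  · refine HC.sylow (h3 ▸ (hc_mat_ord (n + 1) hrq).sl (Nat.Coprime.pow_left _
      (hr.out.coprime_iff_not_dvd.2 fun h4 => h ((dvd_pow_sub_one_iff (by omega)).1
        (by rwa [pow_one]))))) ?_ P
    rw [h3, ← h1, h2, zero_add]

theorem sylow_Sp {n : ℕ} (hr2 : r ≠ 2) (hrn : n < r) (hrq : ¬ r ∣ Nat.card F)
    (P : Sylow r (symplecticGroup (Fin n) F)) :
    Nonempty (P ≃* (Fin ((Finset.Icc 1 n).filter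
      fun i => orderOf (Nat.card F : ZMod r) ∣ 2 * i).card → Multiplicative (ZMod
      (r ^ padicValNat r (Fgs2.cyc (orderOf (Nat.card F : ZMod r)) (Nat.card F)))))) := by
  have hq : 2 ≤ Nat.card F := Finite.one_lt_card
  obtain ⟨h1, h2⟩ := ord_facts (r := r) hq hrq
  have hz : ∀ e, ((Nat.card F ^ e - 1 : ℕ) : ℤ) = (Nat.card F : ℤ) ^ e - 1 := fun e => by
    rw [Nat.cast_sub (Nat.one_le_pow _ _ Nat.card_pos), Nat.cast_pow, Nat.cast_one]
  obtain ⟨c, hc, h3, g, hg⟩ : ∃ c, 0 < c ∧ (∀ i, orderOf (Nat.card F : ZMod r) ∣ 2 * i ↔ c ∣ i) ∧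
      ∃ g : symplecticGroup (Fin c) F, orderOf g =
        r ^ padicValNat r (Fgs2.cyc (orderOf (Nat.card F : ZMod r)) (Nat.card F)) := by
    rcases Nat.even_or_odd' (orderOf (Nat.card F : ZMod r)) with ⟨c, h | h⟩
    · refine ⟨c, by omega, fun i => by rw [h, Nat.mul_dvd_mul_iff_left two_pos],
        exists_Sp_orderOf (by omega) (Or.inr ?_)⟩
      have h4 : ¬ r ∣ Nat.card F ^ c - 1 := fun h4 => by
        have := Nat.le_of_dvd (by omega) ((dvd_pow_sub_one_iff (by omega)).1 h4)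
        omega
      nth_rw 2 [h] at h2
      rw [mul_comm, pow_mul, ← one_pow (M := ℕ) 2, Nat.sq_sub_sq] at h2
      exact_mod_cast (Nat.Coprime.pow_left _
        (hr.out.coprime_iff_not_dvd.2 h4)).dvd_of_dvd_mul_right h2
    · refine ⟨_, h1, fun i => Nat.Coprime.dvd_mul_left ?_,
        exists_Sp_orderOf h1 (Or.inl (hz _ ▸ Int.natCast_dvd_natCast.2 h2))⟩
      exact (Nat.coprime_two_right.2 ⟨c, h⟩)
  have h4 : ((Finset.Icc 1 n).filter fun i => orderOf (Nat.card F : ZMod r) ∣ 2 * i).card =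
      n / c := by
    rw [← Nat.Ioc_filter_dvd_card_eq_div, Finset.filter_congr fun i _ => h3 i]; rfl
  have : Finite (symplecticGroup (Fin n) F) := Subtype.finite
  refine HC.sylow (hc_Sp hg _ n (h4 ▸ Nat.mul_div_le _ _)) ?_ P
  rw [card_symplecticGroup, Nat.factorization_mul (by positivity) (Finset.prod_ne_zero_iff.2
      fun i _ => (Nat.sub_pos_of_lt (Nat.one_lt_pow (by omega) hq)).ne'), Finsupp.add_apply,
    fact_pow_eq_zero hrq, zero_add, fact_prod_pow_sub_one hr.out hq _ (fun i => 2 * (i + 1))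
      fun i hi h => by
        have := Nat.le_of_dvd (by omega) ((Nat.Coprime.dvd_mul_left
          ((Nat.coprime_primes hr.out Nat.prime_two).2 hr2)).1 h)
        have := Finset.mem_range.1 hi
        omega, h4, ← Nat.card_multiples, Finset.filter_congr fun i _ => h3 (i + 1)]

end Mat

end CF.Cls
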