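/-
The unipotent classes of symplectic groups in odd characteristic.
-/
import Cfsg.Agent.Cls.El9
import Cfsg.Agent.Cls.KO6

set_option autoImplicit false

namespace CF.Cls

open Polynomial Module CF.Geom CF.Classical

universe u

variable {F : Type u} [Field F] {ε : F}

namespace Tri

variable {T S : Tri F ε} {j m r r' n : ℕ} {s s' : ℤˣ}

/-- The top form on the kernel of `(f - 1) ^ (j + 1)` has a regular minor of sign `s`. -/
def TI (T : Tri F ε) (j r : ℕ) (s : ℤˣ) : Prop :=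
  ∃ e : Fin r → T.V, (∀ a, ((T.f - 1) ^ (j + 1)) (e a) = 0) ∧ (gram (T.tf j) e).det ≠ 0 ∧
    sqSign (gram (T.tf j) e).det = s

/-- The top form vanishes on the kernel of `(f - 1) ^ (j + 1)`. -/
def Nul (T : Tri F ε) (j : ℕ) : Prop :=
  ∀ u v, ((T.f - 1) ^ (j + 1)) u = 0 → ((T.f - 1) ^ (j + 1)) v = 0 → T.tf j u v = 0

/-- Scaling the form. -/
abbrev smul (T : Tri F ε) {c : F} (hc : c ≠ 0) : Tri F ε :=
  ⟨T.V, c • T.B, T.f, ⟨T.eh.invol, fun x h => T.eh.nondeg x fun y => by simpa [hc] using h y,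
    fun x y => by simp [T.eh.symm x y, mul_left_comm]⟩, fun u v => by simp [T.pres u v]⟩

theorem Iso.inv (h : Iso T S) (h1 : TI T j r s) : TI S j r s := by
  obtain ⟨Z, z1, z2⟩ := h
  obtain ⟨e, a1, a2, a3⟩ := h1
  have h3 := sub_one_pow_intertwine Z.toLinearMap z2
  have h4 : gram (S.tf j) (fun a => Z (e a)) = gram (T.tf j) e := by
    ext a b
    exact (congrArg _ (h3 j _).symm).trans (z1 _ _)
  exact ⟨fun a => Z (e a), fun a => (h3 _ _).symm.trans (by rw [a1, map_zero]), h4 ▸ a2, h4 ▸ a3⟩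

theorem add_pow_apply (k : ℕ) (v : T.V × S.V) :
    (((T.f.prodMap S.f : End F _) - 1) ^ k) v = (((T.f - 1) ^ k) v.1, ((S.f - 1) ^ k) v.2) :=
  Prod.ext (sub_one_pow_intertwine (LinearMap.fst F T.V S.V) (fun _ => rfl) k v)
    (sub_one_pow_intertwine (LinearMap.snd F T.V S.V) (fun _ => rfl) k v)

theorem tf_add (u v : T.V × S.V) : (T.add S).tf j u v = T.tf j u.1 v.1 + S.tf j u.2 v.2 := by
  rw [tf_apply, add_pow_apply]; rfl

theorem Nul.add (h : Nul T j) (h' : Nul S j) : Nul (T.add S) j := fun u v hu hv => by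
  rw [add_pow_apply, Prod.ext_iff] at hu hv
  rw [tf_add, h _ _ hu.1 hv.1, h' _ _ hu.2 hv.2, add_zero]

theorem Nul.inv_add (h : Nul S j) : TI (T.add S) j r s ↔ TI T j r s := by
  constructor
  · rintro ⟨e, a1, a2⟩
    simp only [add_pow_apply, Prod.ext_iff] at a1
    refine ⟨fun a => (e a).1, fun a => (a1 a).1, ?_⟩
    convert a2 using 4 <;> ext a b <;> rw [gram_apply, gram_apply, tf_add, h _ _ (a1 a).2 (a1 b).2,
      add_zero]
  · rintro ⟨e, a1, a2⟩
    refine ⟨fun a => (e a, 0), fun a => by simp [add_pow_apply, a1], ?_⟩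
    convert a2 using 4 <;> ext a b <;> rw [gram_apply, gram_apply, tf_add] <;> simp

theorem Free.exists_eq (h : Free m r T) {e : Fin r → T.V} (he : (gram (T.tf m) e).det ≠ 0)
    (u : T.V) : ∃ (c : Fin r → F) (y : T.V), u = ∑ a, c a • e a + (T.f - 1) y := by
  obtain ⟨φ, h1, h2, -⟩ := h.exists_equiv he
  obtain ⟨x, rfl⟩ := φ.surjective u
  obtain ⟨y, hy⟩ := exists_of_evM_eq_zero (pos_const m r)
    (m := x - ∑ a, evM (pos_const m r) x a • (Pi.single a 1 : FM F m r)) (by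
      simp only [map_sub, map_sum, map_smul, evM_single]
      ext; simp [Pi.single_apply])
  refine ⟨evM (pos_const m r) x, φ y, ?_⟩
  have h5 := congrArg φ hy
  simp only [map_sub, map_sum, map_smul, h2, LinearMap.sub_apply, h1, End.one_apply] at h5 ⊢
  rw [← h5, add_sub_cancel]

theorem Free.inv_iff (h : Free m r T) : TI T m r s ↔ T.tl m r = s := by
  have he := Classical.epsilon_spec h.2.2
  refine ⟨fun ⟨e', _, a2, a3⟩ => ?_, fun h1 => ⟨_, fun a => LinearMap.congr_fun h.1 _, he, h1⟩⟩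
  unfold tl
  generalize Classical.epsilon (fun e : Fin r → T.V => (gram (T.tf m) e).det ≠ 0) = e at he
  choose c y h1 using fun a => h.exists_eq he (e' a)
  have h2 : gram (T.tf m) e' = Matrix.of c * gram (T.tf m) e * (Matrix.of c).transpose := by
    ext a b
    have h2 : ∀ u v, T.tf m u ((T.f - 1) v) = 0 := fun u v => by
      rw [tf_apply, ← End.mul_apply, ← pow_succ, h.1]; simp
    rw [gram_apply, h1 a, h1 b]
    simp [-LinearMap.sub_apply, tf_sub h.1, h2, Matrix.mul_apply, mul_comm, Finset.mul_sum,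
      Finset.sum_comm (γ := Fin r) (f := fun x i => c a x * (c b i * T.tf m (e x) (e i))),
      mul_left_comm]
  rw [h2, Matrix.det_mul, Matrix.det_mul, Matrix.det_transpose, mul_right_comm, ← pow_two] at a2 a3
  rwa [sqSign_sq_mul fun h => a2 (by simp [h])] at a3

theorem Free.nul (h : Free m r T) (hj : m ≠ j) : Nul T j := fun u v hu hv => by
  rcases lt_or_gt_of_ne hj with hj | hj
  · rw [tf_apply, pow_eq_zero_of_le hj h.1]; simp
  obtain ⟨e, he⟩ := h.2.2
  obtain ⟨c, y, rfl⟩ := h.exists_eq he u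
  have h1 : c = 0 := Matrix.eq_zero_of_vecMul_eq_zero he (funext fun b => by
    have h1 : T.tf m (∑ a, c a • e a + (T.f - 1) y) (e b) = 0 := by
      obtain ⟨k, rfl⟩ := Nat.exists_eq_add_of_le' (Nat.succ_le_of_lt hj)
      rw [tf_symm h.1, tf_apply, pow_add (T.f - 1), End.mul_apply, hu]; simp
    simpa [-LinearMap.sub_apply, tf_sub h.1, Matrix.vecMul, dotProduct] using h1)
  have h2 := T.pres y (((T.f - 1) ^ j) v)
  rw [pow_succ', End.mul_apply, LinearMap.sub_apply, sub_eq_zero] at hv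
  simpa [h1, tf_apply, sub_eq_zero, hv] using h2

theorem nul_big {W : ℕ → Tri F ε} (h : ∀ i < n, Nul (W i) j) : Nul (big W n) j := by
  induction n with
  | zero => exact fun _ _ _ _ => rfl
  | succ n ih => exact (h n n.lt_succ_self).add (ih fun i hi => h i (by omega))

theorem inv_big {W : ℕ → Tri F ε} {ρ : ℕ → ℕ} (h : ∀ i, Free i (ρ i) (W i)) (hj : j < n) :
    TI (big W n) j r s ↔ TI (W j) j r s := by
  induction n with
  | zero => omega
  | succ n ih =>
    rcases (Nat.lt_succ_iff.1 hj).eq_or_lt with rfl | hj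
    · exact (nul_big fun i hi => (h i).nul hi.ne).inv_add
    · rw [← ih hj, ← ((h n).nul hj.ne').inv_add (T := big W n)]
      exact ⟨(iso_comm _ _).inv, (iso_comm _ _).inv⟩

theorem Free.uj (h : Free m r T) : UJ T.f (.replicate r (m + 1)) :=
  uj_of_ed (by simp +contextual [Multiset.mem_replicate]) (by rw [h.ed_eq]; simp)

theorem uj_big {W : ℕ → Tri F ε} {ρ : ℕ → ℕ} (h : ∀ i, Free i (ρ i) (W i)) (n : ℕ) :
    UJ (big W n).f (∑ j ∈ Finset.range n, .replicate (ρ j) (j + 1)) := by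
  induction n with
  | zero => exact (free_zero (ε := ε) 0).uj
  | succ n ih => rw [Finset.sum_range_succ_comm]; exact (h n).uj.prodMap ih

theorem count_big {W : ℕ → Tri F ε} {ρ : ℕ → ℕ} (h : ∀ i, Free i (ρ i) (W i))
    (h1 : Iso T (big W n)) (hj : j < n) : (jt T.f).count (j + 1) = ρ j := by
  rw [h1.sim.jt_eq, (uj_big h n).2, Multiset.count_sum', Finset.sum_eq_single j] <;>
    simp +contextual [Multiset.count_replicate, hj]

theorem free_of_uj (h : UJ T.f (.replicate r (m + 1))) : ∃ W : Tri F ε, Free m r W := by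
  obtain ⟨ρ, W, h1, h2⟩ := exists_big_unip (T := T) (n := m + 1) ((unip_pow_eq_zero_iff h.1 _).2 (by
    simp +contextual [h.2, Multiset.mem_replicate]))
  have := count_big h1 h2 m.lt_succ_self
  rw [h.2, Multiset.count_replicate_self] at this
  exact ⟨_, this ▸ h1 m⟩

variable [Finite F]

theorem TI.add (h : TI T j r s) (h' : TI S j r' s') : TI (T.add S) j (r + r') (s * s') := by
  obtain ⟨e, a1, a2, rfl⟩ := h
  obtain ⟨e', b1, b2, rfl⟩ := h'
  have h1 : (gram ((T.add S).tf j) fun a => Sum.elim (fun a => (e a, 0)) (fun a => (0, e' a))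
      (finSumFinEquiv.symm a)).det = (gram (T.tf j) e).det * (gram (S.tf j) e').det := by
    rw [← Matrix.det_submatrix_equiv_self finSumFinEquiv, ← Matrix.det_fromBlocks_zero₂₁ _ 0]
    congr 1
    ext (a | a) (b | b) <;> rw [Matrix.submatrix_apply, gram_apply, tf_add] <;> simp
  refine ⟨_, fun a => ?_, h1 ▸ mul_ne_zero a2 b2, h1 ▸ sqSign_mul _ _ a2 b2⟩
  rcases finSumFinEquiv.symm a with a | a <;> simp [add_pow_apply, a1, b1]

theorem Free.add (h : Free m r T) (h' : Free m r' S) :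
    Free m (r + r') (T.add S) ∧ (T.add S).tl m (r + r') = T.tl m r * S.tl m r' := by
  have h1 := (h.inv_iff.2 rfl).add (h'.inv_iff.2 rfl)
  have h2 : Free m (r + r') (T.add S) := ⟨LinearMap.ext fun v => by simp [add_pow_apply, h.1, h'.1],
    by rw [finrank_prod, h.2.1, h'.2.1, mul_add], h1.imp fun _ h => h.2.1⟩
  exact ⟨h2, h2.inv_iff.1 h1⟩

theorem Free.exists_tl (h2 : (2 : F) ≠ 0) (h : Free m 1 T) (h' : Free m r S) (s : ℤˣ) :
    ∃ W : Tri F ε, Free m (1 + r) W ∧ W.tl m (1 + r) = s := by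
  obtain ⟨c, hc, h1⟩ := exists_sqSign h2 (s * S.tl m r * T.tl m 1)
  obtain ⟨e, a1, a2, a3⟩ := h.inv_iff.2 rfl
  have h3 : (gram ((T.smul hc).tf m) e).det = c * (gram (T.tf m) e).det := by simp [tf_apply]
  have h4 : Free m 1 (T.smul hc) := ⟨h.1, h.2.1, e, h3 ▸ mul_ne_zero hc a2⟩
  refine ⟨_, (h4.add h').1, ?_⟩
  rw [(h4.add h').2, h4.inv_iff.1 ⟨e, a1, h3 ▸ mul_ne_zero hc a2, rfl⟩, h3, sqSign_mul _ _ hc a2, h1,
    a3, mul_assoc (s * _), Int.units_mul_self, mul_one, mul_assoc, Int.units_mul_self, mul_one]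

end Tri

open Tri

variable [Finite F] (p : ℕ) [hp : Fact p.Prime] [CharP F p]
include p

theorem exists_free_sp {m r : ℕ} (h : Even r ∨ Odd m) : ∃ W : Tri F (-1), Free m r W := by
  obtain ⟨k, hk⟩ : Even (r * (m + 1)) := h.elim (·.mul_right _) fun h => h.add_one.mul_left _
  obtain ⟨g, hg⟩ := exists_uj_sp p (sympBilin_nondegenerate (F := F) k) (sympBilin_isAlt k)
    (μ := .replicate r (m + 1)) (by simp +contextual [Multiset.mem_replicate]) (by simpa)
    (pa_replicate (h.imp_right fun h => by simpa using h.add_one))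
  exact free_of_uj (T := spTri (sympBilin_nondegenerate k) (sympBilin_isAlt k) g) hg

variable {V : Type u} [AddCommGroup V] [Module F V] [FiniteDimensional F V]
  {B : LinearMap.BilinForm F V} (hB : B.Nondegenerate) (hA : B.IsAlt) (h2 : (2 : F) ≠ 0)
include h2 hB hA

theorem exists_sp_inv {μ : Multiset ℕ} (h0 : ∀ d ∈ μ, 0 < d) (hs : μ.sum = finrank F V)
    (h : Pa Odd μ) (A : Finset ℕ) : ∃ g : SpG B, UJ g.1.toLinearMap μ ∧ ∀ j, j + 1 ∈ μ → Odd j →
      (TI (spTri hB hA g) j (μ.count (j + 1)) 1 ↔ j + 1 ∈ A) := by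
  have h3 : ∀ j, ∃ W : Tri F (-1), Free j (μ.count (j + 1)) W ∧
      (j + 1 ∈ μ → Odd j → (W.tl j (μ.count (j + 1)) = 1 ↔ j + 1 ∈ A)) := fun j => by
    by_cases h3 : j + 1 ∈ μ ∧ Odd j
    · obtain ⟨k, hk⟩ := Nat.exists_eq_add_of_le (Multiset.one_le_count_iff_mem.2 h3.1)
      obtain ⟨T, hT⟩ := exists_free_sp (F := F) p (r := 1) (.inr h3.2)
      obtain ⟨S, hS⟩ := exists_free_sp (F := F) p (r := k) (.inr h3.2)
      obtain ⟨W, h4, h5⟩ := hT.exists_tl h2 hS (if j + 1 ∈ A then 1 else -1)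
      exact ⟨W, hk ▸ h4, fun _ _ => by rw [hk, h5]; split_ifs <;> simp [*]⟩
    · refine (exists_free_sp p ?_).imp fun W hW => ⟨hW, fun a b => (h3 ⟨a, b⟩).elim⟩
      exact j.even_or_odd.symm.symm.imp_left fun h4 => h _ h4.add_one
  choose W a1 a2 using h3
  have a3 := uj_big a1 (finrank F V)
  have a5 : ∀ j, j + 1 ∈ μ → j < finrank F V := fun j hj =>
    hs ▸ Multiset.single_le_sum (fun _ _ => Nat.zero_le _) _ hj
  have a4 : ∑ j ∈ Finset.range (finrank F V), Multiset.replicate (μ.count (j + 1)) (j + 1) = μ :=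
    Multiset.ext.2 fun d => by
      by_cases hd : d ∈ μ
      · obtain ⟨j, rfl⟩ := Nat.exists_eq_add_one.2 (h0 d hd)
        rw [Multiset.count_sum', Finset.sum_eq_single j] <;>
          simp +contextual [Multiset.count_replicate, a5 j hd]
      · simp +contextual [Multiset.count_sum', Multiset.count_replicate, hd]
  rw [a4] at a3
  obtain ⟨E, hE⟩ := exists_equiv_alt (big W (finrank F V)).eh.nondegenerate (fun v => by
    have := (big W (finrank F V)).eh.symm v v
    exact (mul_eq_zero.1 (by simp at this; linear_combination this)).resolve_left h2) hB hA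
    (a3.sum.symm.trans hs)
  obtain ⟨f, hf⟩ := (big W (finrank F V)).unit
  let g : SpG B := ⟨E.symm.trans ((LinearMap.GeneralLinearGroup.toLinearEquiv f).trans E),
    mem_SpG.2 fun u v => by
      obtain ⟨u, rfl⟩ := E.surjective u
      obtain ⟨v, rfl⟩ := E.surjective v
      simp [hE, hf, (big W (finrank F V)).pres u v]⟩
  have a6 : Iso (big W (finrank F V)) (spTri hB hA g) := ⟨E, hE, fun v => by simp [g, hf]⟩
  exact ⟨g, a3.of_sim a6.symm.sim, fun j b1 b2 => by
    rw [← a2 j b1 b2, ← (a1 j).inv_iff, ← inv_big a1 (a5 j b1)]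
    exact ⟨a6.symm.inv, a6.inv⟩⟩

omit p in
theorem isConj_of_inv {x y : SpG B} {μ : Multiset ℕ} (hx : UJ x.1.toLinearMap μ)
    (hy : UJ y.1.toLinearMap μ) (h : ∀ j, j + 1 ∈ μ → Odd j →
      (TI (spTri hB hA x) j (μ.count (j + 1)) 1 ↔ TI (spTri hB hA y) j (μ.count (j + 1)) 1)) :
    IsConj x y := by
  obtain ⟨ρ, W, a1, a2⟩ := exists_big_unip (T := spTri hB hA x) (unip_pow_finrank hx.1)
  obtain ⟨ρ', W', b1, b2⟩ := exists_big_unip (T := spTri hB hA y) (unip_pow_finrank hy.1)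
  refine (a2.trans ((Iso.big fun j hj => ?_).trans b2.symm)).elim fun Z z =>
    isConj_sub_of (mem_SpG.2 z.1) z.2
  have a3 : μ.count (j + 1) = ρ j := hx.2 ▸ count_big a1 a2 hj
  have b3 : μ.count (j + 1) = ρ' j := hy.2 ▸ count_big b1 b2 hj
  refine (a1 j).iso h2 (.inr rfl) (a3 ▸ b3 ▸ b1 j) fun h1 => ?_
  by_cases h3 : j + 1 ∈ μ
  · have h4 := h j h3 (Nat.not_even_iff_odd.1 fun h4 => h2 (by
      rw [h4.neg_one_pow] at h1; linear_combination -h1))
    rw [show TI (spTri hB hA x) j _ 1 ↔ _ from ⟨a2.inv, a2.symm.inv⟩,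
      show TI (spTri hB hA y) j _ 1 ↔ _ from ⟨b2.inv, b2.symm.inv⟩, inv_big a1 hj, inv_big b1 hj,
      a3, (a1 j).inv_iff, Free.inv_iff (a3 ▸ b3 ▸ b1 j)] at h4
    rcases Int.units_eq_one_or ((W j).tl j (ρ j)) with h | h <;>
      rcases Int.units_eq_one_or ((W' j).tl j (ρ j)) with h' | h' <;> simp_all
  · rw [← a3, Multiset.count_eq_zero.2 h3, tl_zero, tl_zero]

open scoped _root_.Classical in
theorem card_unip_sp : Nat.card {C : ConjClasses (SpG B) // ∃ g, ConjClasses.mk g = C ∧ g ^ p = 1} =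
    ∑ μ ∈ Finset.univ.filter (fun μ : Nat.Partition (finrank F V) => (∀ a ∈ μ.parts, a ≤ p) ∧
      ∀ j : ℕ, Odd j → Even (μ.parts.count j)), 2 ^ (μ.parts.toFinset.filter Even).card := by
  have h1 : ∀ g : SpG B, g ^ p = 1 → UJ g.1.toLinearMap (jt g.1.toLinearMap) := fun g hg =>
    uj_of_pow p ((sub_pow_eq_one_iff g p).1 hg)
  let lab : SpG B → Multiset ℕ × Finset ℕ := fun g => (jt g.1.toLinearMap,
    ((jt g.1.toLinearMap).toFinset.filter Even).filter fun j =>
      TI (spTri hB hA g) (j - 1) ((jt g.1.toLinearMap).count j) 1)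
  rw [card_classes _ lab fun x y hx hy => ⟨fun h => ?_, fun h => ?_⟩]
  · simp only [← Finset.card_powerset]
    rw [← Finset.card_sigma, ← Nat.card_eq_finsetCard]
    refine (Nat.card_congr (Equiv.ofBijective (fun x => ⟨(x.1.1.parts, x.1.2), ?a⟩)
      ⟨fun x y h => ?b, ?c⟩)).symm
    rotate_right
    · obtain ⟨⟨μ, A⟩, h⟩ := x
      simp only [Finset.mem_sigma, Finset.mem_filter, Finset.mem_univ, true_and,
        Finset.mem_powerset] at h
      obtain ⟨g, h3, h4⟩ := exists_sp_inv p hB hA h2 (fun _ => μ.parts_pos) μ.parts_sum h.1.2 A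
      refine ⟨g, (sub_pow_eq_one_iff g p).2 ((h3.pow_eq_one_iff p).2 h.1.1), Prod.ext h3.2 ?_⟩
      ext j
      simp only [lab, h3.2, Finset.mem_filter (s := Finset.filter _ _)]
      refine (and_congr_right fun h5 => ?_).trans (and_iff_right_of_imp fun h5 => h.2 h5)
      rw [Finset.mem_filter, Multiset.mem_toFinset] at h5
      obtain ⟨j, rfl⟩ := Nat.exists_eq_add_one.2 (μ.parts_pos h5.1)
      exact h4 j h5.1 (by simpa [Nat.even_add_one] using h5.2)
    · obtain ⟨⟨μ, A⟩, _⟩ := x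
      obtain ⟨⟨ν, A'⟩, _⟩ := y
      simp only [Subtype.mk.injEq, Prod.mk.injEq] at h
      obtain ⟨h, rfl⟩ := h
      obtain rfl := Nat.Partition.ext h
      rfl
    · rintro ⟨_, g, hg, rfl⟩
      refine ⟨⟨⟨⟨_, fun h => jt_pos _ _ h, jt_sum g.1.toLinearMap⟩, _⟩, ?_⟩, rfl⟩
      simp only [Finset.mem_sigma, Finset.mem_filter, Finset.mem_univ, true_and,
        Finset.mem_powerset]
      exact ⟨⟨((h1 g hg).pow_eq_one_iff p).1 ((sub_pow_eq_one_iff g p).1 hg),
        (h1 g hg).pa_alt hB hA (mem_SpG.1 g.2)⟩, Finset.filter_subset _ _⟩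
  · have h3 := (sim_of_isConj_sub h).jt_eq
    obtain ⟨c, rfl⟩ := isConj_iff.1 h
    have h4 : Iso (spTri hB hA x) (spTri hB hA (c * x * c⁻¹)) :=
      ⟨c.1, mem_SpG.1 c.2, fun v => by simp⟩
    simp only [lab, h3, Prod.mk.injEq, true_and]
    exact Finset.filter_congr fun j _ => ⟨h4.inv, h4.symm.inv⟩
  · simp only [lab, Prod.mk.injEq] at h
    refine isConj_of_inv hB hA h2 (h1 x hx) (h.1 ▸ h1 y hy) fun j a1 a2 => ?_
    simpa [← h.1, a1, a2.add_one] using Finset.ext_iff.1 h.2 (j + 1)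

end CF.Cls
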