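import Mathlib

/-! Lang's theorem for `GL_n`: a bijective Frobenius-semilinear map over an algebraically closed
field has a basis of fixed vectors. -/

set_option autoImplicit false

namespace CF.Cls

open Polynomial Module

variable {K V : Type*} [Field K] [IsAlgClosed K] [AddCommGroup V] [Module K V]
  [FiniteDimensional K V] {φ : K →+* K} {q : ℕ}

theorem exists_root_twist (hq : 2 ≤ q) (c : ℕ → K) (hc : c 0 ≠ 0) (k : ℕ) :
    ∃ x : ℕ → K, x k ≠ 0 ∧ x 0 = c 0 * x k ^ q ∧ ∀ i, x (i + 1) = x i ^ q + c (i + 1) * x k ^ q := by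
  let P : ℕ → K[X] := fun i => Nat.rec (C (c 0) * X ^ q) (fun i p => p ^ q + C (c (i + 1)) * X ^ q) i
  have h1 : ∀ i, q ≤ (P i).natDegree ∧ X ^ 2 ∣ P i := fun i => by
    induction i with
    | zero => exact ⟨(natDegree_C_mul_X_pow q _ hc).ge, (pow_dvd_pow X hq).mul_left _⟩
    | succ i ih =>
      refine ⟨?_, dvd_add (ih.2.trans (dvd_pow_self _ (by omega))) ((pow_dvd_pow X hq).mul_left _)⟩
      have h2 : q < (P i ^ q).natDegree := by rw [natDegree_pow]; nlinarith [ih.1]
      exact h2.le.trans (natDegree_add_eq_left_of_natDegree_lt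
        ((natDegree_C_mul_X_pow_le _ _).trans_lt h2)).ge
  obtain ⟨S, hS⟩ := (h1 k).2
  have hS0 : S ≠ 0 := by
    rintro rfl
    have := (h1 k).1
    rw [hS] at this; simp at this; omega
  obtain ⟨y, hy⟩ := IsAlgClosed.exists_root (X * S - C 1) (by
    have : 0 < (X * S).degree := by
      rw [← natDegree_pos_iff_degree_pos, natDegree_X_mul hS0]; omega
    rw [degree_sub_C this]; exact this.ne')
  have hy : y * S.eval y = 1 := by simpa [sub_eq_zero] using hy
  have h3 : (P k).eval y = y := by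
    rw [hS, eval_mul, eval_pow, eval_X, pow_two, mul_assoc, hy, mul_one]
  refine ⟨fun i => (P i).eval y, ?_, ?_, fun i => ?_⟩ <;> simp only [h3]
  · exact left_ne_zero_of_mul_eq_one hy
  · simp [P]
  · simp [P]

theorem exists_fixed_ne_zero (hφ : ∀ x, φ x = x ^ q) (hq : 2 ≤ q) (T : V →ₛₗ[φ] V)
    (hT : Function.Injective T) {v : V} (hv : v ≠ 0) : ∃ w, w ≠ 0 ∧ T w = w := by
  classical
  have hs : Function.Surjective φ := fun a => by
    obtain ⟨z, hz⟩ := IsAlgClosed.exists_pow_nat_eq a (show 0 < q by omega)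
    exact ⟨z, (hφ z).trans hz⟩
  have h0 : ∃ m, ∃ c : ℕ → K, T^[m] v = ∑ i ∈ Finset.range m, c i • T^[i] v := by
    by_contra! h
    have h1 : ∀ m, LinearIndependent K (fun i : Fin m => T^[i] v) := fun m => by
      induction m with
      | zero => exact linearIndependent_empty_type
      | succ m ih =>
        refine linearIndependent_finSucc'.2 ⟨ih, fun h2 => ?_⟩
        obtain ⟨c, hc⟩ := (Submodule.mem_span_range_iff_exists_fun K).1 h2
        refine h m (fun i => if h : i < m then c ⟨i, h⟩ else 0) ?_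
        rw [Finset.sum_range]
        simpa [Fin.init] using hc.symm
    have := (h1 (finrank K V + 1)).fintype_card_le_finrank
    simp at this
  obtain ⟨c, hc⟩ := Nat.find_spec h0
  have hmin := fun k (hk : k < Nat.find h0) => Nat.find_min h0 hk
  obtain ⟨k, hk⟩ : ∃ k, Nat.find h0 = k + 1 := Nat.exists_eq_succ_of_ne_zero (fun h => by
    rw [h] at hc; exact hv (by simpa using hc))
  rw [hk] at hc hmin
  have hc0 : c 0 ≠ 0 := fun h => by
    choose d hd using fun i => hs (c (i + 1))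
    refine hmin k (Nat.lt_succ_self k) ⟨d, hT ?_⟩
    rw [Finset.sum_range_succ', h, zero_smul, add_zero, Function.iterate_succ_apply'] at hc
    rw [hc, map_sum]
    exact Finset.sum_congr rfl (fun i _ => by
      rw [LinearMap.map_smulₛₗ, hd, Function.iterate_succ_apply'])
  obtain ⟨x, h1, h2, h3⟩ := exists_root_twist hq c hc0 k
  refine ⟨∑ i ∈ Finset.range (k + 1), x i • T^[i] v, fun h => ?_, ?_⟩
  · refine hmin k (Nat.lt_succ_self k) ⟨fun i => -((x k)⁻¹ * x i), ?_⟩
    rw [Finset.sum_range_succ, add_eq_zero_iff_eq_neg', ← eq_inv_smul_iff₀ h1] at h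
    rw [h, smul_neg, Finset.smul_sum, ← Finset.sum_neg_distrib]
    simp [mul_smul]
  · rw [map_sum]
    simp only [LinearMap.map_smulₛₗ, ← Function.iterate_succ_apply' T, hφ]
    rw [Finset.sum_range_succ, hc, Finset.smul_sum, Finset.sum_range_succ', Finset.sum_range_succ',
      ← add_assoc, ← Finset.sum_add_distrib, h2]
    simp only [h3, add_smul, smul_smul, mul_comm (x k ^ q)]

theorem span_fixed_eq_top (hφ : ∀ x, φ x = x ^ q) (hq : 2 ≤ q) (T : V →ₛₗ[φ] V)
    (hT : Function.Injective T) : Submodule.span K {v | T v = v} = ⊤ := by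
  set W := Submodule.span K {v | T v = v} with hW
  have h1 : ∀ w ∈ W, T w ∈ W ∧ ∀ a : K, (∃ u ∈ W, T u = a • w) ∧ ∃ u ∈ W, u - T u = a • w := by
    intro w hw
    induction hw using Submodule.span_induction with
    | mem x hx =>
      have h2 : x ∈ W := Submodule.subset_span hx
      refine ⟨hx.symm ▸ h2, fun a => ⟨?_, ?_⟩⟩
      · obtain ⟨z, hz⟩ := IsAlgClosed.exists_pow_nat_eq a (show 0 < q by omega)
        exact ⟨z • x, W.smul_mem _ h2, by rw [LinearMap.map_smulₛₗ, hφ, hz, hx]⟩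
      · obtain ⟨z, hz⟩ := IsAlgClosed.exists_root (X ^ q - (X - C a) : K[X]) (by
          rw [degree_sub_eq_left_of_degree_lt (by
            rw [degree_X_sub_C, degree_X_pow]; exact_mod_cast hq), degree_X_pow]
          exact_mod_cast (show q ≠ 0 by omega))
        refine ⟨z • x, W.smul_mem _ h2, ?_⟩
        rw [LinearMap.map_smulₛₗ, hφ, hx, ← sub_smul]
        congr 1
        simp only [IsRoot, eval_sub, eval_pow, eval_X, eval_C] at hz
        linear_combination -hz
    | zero => exact ⟨by simp, fun a => ⟨⟨0, W.zero_mem, by simp⟩, 0, W.zero_mem, by simp⟩⟩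
    | add x y _ _ hx hy =>
      refine ⟨by rw [map_add]; exact W.add_mem hx.1 hy.1, fun a => ?_⟩
      obtain ⟨⟨u, h1, h2⟩, u', h3, h4⟩ := hx.2 a
      obtain ⟨⟨t, h5, h6⟩, t', h7, h8⟩ := hy.2 a
      exact ⟨⟨u + t, W.add_mem h1 h5, by rw [map_add, h2, h6, smul_add]⟩, u' + t', W.add_mem h3 h7,
        by rw [map_add, smul_add, ← h4, ← h8]; abel⟩
    | smul c x _ hx =>
      exact ⟨by rw [LinearMap.map_smulₛₗ]; exact W.smul_mem _ hx.1,
        fun a => by rw [smul_smul]; exact hx.2 _⟩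
  by_contra h
  obtain ⟨v, hv⟩ : ∃ v : V ⧸ W, v ≠ 0 :=
    have := Submodule.Quotient.nontrivial_iff.2 h
    exists_ne 0
  obtain ⟨w, h2, h3⟩ := exists_fixed_ne_zero hφ hq (W.mapQ W T (fun w hw => (h1 w hw).1)) (by
    rw [injective_iff_map_eq_zero]
    intro a ha
    obtain ⟨a, rfl⟩ := W.mkQ_surjective a
    obtain ⟨u, h2, h3⟩ := ((h1 _ ((Submodule.Quotient.mk_eq_zero W).1 ha)).2 1).1
    rw [one_smul] at h3
    exact (Submodule.Quotient.mk_eq_zero W).2 (hT h3 ▸ h2)) hv
  obtain ⟨w, rfl⟩ := W.mkQ_surjective w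
  obtain ⟨u, h4, h5⟩ := ((h1 _ ((Submodule.Quotient.eq W).1 h3)).2 1).2
  refine h2 ((Submodule.Quotient.mk_eq_zero W).2 ((W.add_mem_iff_left h4).1
    (Submodule.subset_span ?_)))
  rw [one_smul, sub_eq_sub_iff_add_eq_add] at h5
  show T (w + u) = w + u
  rw [map_add, ← h5, add_comm]

end CF.Cls
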