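/-
Classes of elements of prime order `r` in projective groups, `r` dividing the order of the centre.
-/
import Cfsg.Agent.Cls.KN6
import Cfsg.Agent.Cls.OrdR

set_option autoImplicit false

namespace CF.Cls

open Module CF.Geom Finset

section

variable {A : Type*} [CommGroup A] {Q : ℤ} {J : Multiset (A × ℕ)} {p r n : ℕ} {ζ z : A}

theorem tw_tw (z w : A) (J : Multiset (A × ℕ)) : tw z (tw w J) = tw (z * w) J := by
  simp [tw, mul_assoc, mul_comm z]

theorem tw_one (J : Multiset (A × ℕ)) : tw 1 J = J := by simp [tw]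

theorem tw_pow (h : tw z J = J) (k : ℕ) : tw (z ^ k) J = J := by
  induction k with
  | zero => rw [pow_zero, tw_one]
  | succ k ih => rw [pow_succ, ← tw_tw, h, ih]

theorem card_add_card_not {α : Type*} [Finite α] (P : α → Prop) :
    Nat.card {a // P a} + Nat.card {a // ¬ P a} = Nat.card α := by
  classical
  rw [← Nat.card_sum, Nat.card_congr (Equiv.sumCompl P)]

theorem card_and_add {α : Type*} [Finite α] (P R : α → Prop) :
    Nat.card {a // P a ∧ R a} + Nat.card {a // P a ∧ ¬ R a} = Nat.card {a // P a} := by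
  classical
  have := Fintype.ofFinite α
  simp only [Nat.card_eq_fintype_card, Fintype.card_subtype, ← filter_filter]
  exact card_filter_add_card_filter_not _

/-- Data of non-scalar semisimple elements whose `r`-th power is a scalar. -/
structure XR (Q : ℤ) (r n : ℕ) (J : Multiset (A × ℕ)) : Prop where
  adm : Adm Q n J
  one : ∀ x ∈ J, x.2 = 1
  pw : ∃ c, ∀ x ∈ J, x.1 ^ r = c
  ns : ∀ y, ∃ x ∈ J, x.1 ≠ y

theorem XR.tw (h : XR Q r n J) (hz : z ^ Q = z) : XR Q r n (tw z J) :=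
  ⟨h.adm.tw hz, Multiset.forall_mem_map_iff.2 h.one, h.pw.elim fun c hc =>
    ⟨c * z ^ r, Multiset.forall_mem_map_iff.2 fun x hx => by rw [mul_pow, hc x hx]⟩, fun y =>
    (h.ns (y * z⁻¹)).elim fun x hx => ⟨_, mem_tw.2 ⟨x, hx.1, rfl⟩, fun e => hx.2 (by simp [← e])⟩⟩

theorem XR.pow_eq (h : XR Q r n J) {x y : A × ℕ} (hx : x ∈ J) (hy : y ∈ J) : x.1 ^ r = y.1 ^ r :=
  h.pw.elim fun _ hc => (hc x hx).trans (hc y hy).symm

theorem XR.fixed (h : XR Q r n J) {x : A × ℕ} (hx : x ∈ J) : (x.1 ^ r) ^ Q = x.1 ^ r :=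
  h.adm.st.scalar (by rintro rfl; simp at hx) fun _ hy => h.pow_eq hy hx

instance : MulAction (Tq A Q) {J : Multiset (A × ℕ) // XR Q r n J} where
  smul z J := ⟨tw z J, J.2.tw z.2⟩
  one_smul J := Subtype.ext (tw_one J.1)
  mul_smul z w J := Subtype.ext (tw_tw z.1 w.1 J.1).symm

section
variable (hT : TA A p) (hr : r.Prime) (h1 : orderOf ζ = r) (h2 : ζ ^ Q = ζ)
include hT h1

theorem TA.exists_mul_pow {x y : A} (h : x ^ r = y ^ r) : ∃ k : ℕ, y = x * ζ ^ k := by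
  obtain ⟨k, hk⟩ := hT.cyc ζ (x⁻¹ * y) (h1 ▸ orderOf_dvd_of_pow_eq_one (by
    rw [mul_pow, inv_pow, h, inv_mul_cancel]))
  exact ⟨k, by rw [← hk, mul_inv_cancel_left]⟩

theorem TA.orbz_congr {x y : A} (h : x ^ r = y ^ r) : orbz ζ (x, 1) = orbz ζ (y, 1) := by
  obtain ⟨k, rfl⟩ := hT.exists_mul_pow h1 h
  exact (orbz_mul ζ (x, 1) k).symm

theorem XR.eq_of_fix (h : XR Q r n J) (hf : Cls.tw ζ J = J) {x : A × ℕ} (hx : x ∈ J) :
    ∃ k, n = k * r ∧ J = k • orbz ζ (x.1, 1) := by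
  obtain ⟨R, hR⟩ := exists_bind_orbz (hT.pos ζ) hf
  have h3 : J = R.card • orbz ζ (x.1, 1) := by
    rw [← Multiset.sum_replicate, ← Multiset.map_const', hR]
    refine congrArg Multiset.sum (Multiset.map_congr rfl fun y hy => ?_)
    have h4 : y ∈ J := hR ▸ Multiset.mem_bind.2 ⟨y, hy, Multiset.mem_map.2
      ⟨0, Multiset.mem_range.2 (hT.pos ζ), by simp⟩⟩
    rw [← hT.orbz_congr h1 (h.pow_eq h4 hx), ← h.one y h4]
  exact ⟨_, by rw [← h.adm.dim, h3]; simp [dm, orbz, h1, Multiset.map_nsmul, Multiset.sum_nsmul], h3⟩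

include hr h2

theorem TA.xr_orbz {x : A} (hx : (x ^ r) ^ Q = x ^ r) {k : ℕ} (hk : 0 < k) :
    XR Q r (k * r) (k • orbz ζ (x, 1)) := by
  have h3 : ∀ y ∈ k • orbz ζ (x, 1), ∃ j : ℕ, (x * ζ ^ j, 1) = y := fun y hy => by
    obtain ⟨j, -, rfl⟩ := Multiset.mem_map.1 (Multiset.mem_of_mem_nsmul hy)
    exact ⟨j, rfl⟩
  have h4 : ∀ j < r, (x * ζ ^ j, 1) ∈ k • orbz ζ (x, 1) := fun j hj =>
    (Multiset.mem_nsmul_of_ne_zero hk.ne').2 (Multiset.mem_map.2 ⟨j, by simpa [h1], rfl⟩)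
  refine ⟨⟨fun y hy => (h3 y hy).elim fun j hj => hj ▸ one_pos, by
    simp [dm, orbz, h1, Multiset.map_nsmul, Multiset.sum_nsmul], ?_⟩,
    fun y hy => (h3 y hy).elim fun j hj => hj ▸ rfl, ⟨x ^ r, fun y hy => ?_⟩, fun y => ?_⟩
  · rw [St, Multiset.map_nsmul]
    conv_rhs => rw [hT.orbz_congr h1 (x := x) (y := x ^ Q) (by
      rw [← hx, ← zpow_natCast (x ^ Q), ← zpow_natCast x, ← zpow_mul, ← zpow_mul, mul_comm])]
    have h5 : ∀ j : ℕ, (ζ ^ j) ^ Q = ζ ^ j := fun j => by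
      rw [← zpow_natCast, ← zpow_mul, mul_comm, zpow_mul, h2]
    simp [orbz, mul_zpow, h5]
  · obtain ⟨j, rfl⟩ := h3 y hy
    rw [mul_pow, pow_right_comm, ← h1, pow_orderOf_eq_one, one_pow, mul_one]
  · by_contra h
    push Not at h
    have := (h _ (h4 1 hr.one_lt)).trans (h _ (h4 0 hr.pos)).symm
    simp only [pow_one, pow_zero, mul_one, mul_eq_left] at this
    exact hr.one_lt.ne (by rw [← h1, this, orderOf_one])

theorem TA.card_fix (hd : ∀ c : A, ∃ x, x ^ r = c) (hn : 0 < n) (P : A → Prop) :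
    Nat.card {J : {J : Multiset (A × ℕ) // XR Q r n J} // tw ζ J.1 = J.1 ∧ ∀ x ∈ J.1, P (x.1 ^ r)} =
      if r ∣ n then Nat.card {c : Tq A Q // P c} else 0 := by
  split_ifs with h
  · obtain ⟨k, rfl⟩ := exists_eq_mul_left_of_dvd h
    have hk := Nat.pos_of_mul_pos_right hn
    choose s hs using hd
    have h3 : ∀ (c : A), ∀ y ∈ k • orbz ζ (s c, 1), y.1 ^ r = c := fun c y hy => by
      obtain ⟨j, -, rfl⟩ := Multiset.mem_map.1 (Multiset.mem_of_mem_nsmul hy)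
      rw [mul_pow, pow_right_comm, hs, ← h1, pow_orderOf_eq_one, one_pow, mul_one]
    refine (Nat.card_eq_of_bijective (fun c : {c : Tq A Q // P c} => ⟨⟨_, hT.xr_orbz hr h1 h2
      (x := s c) (by rw [hs]; exact c.1.2) hk⟩, by
        rw [tw, Multiset.map_nsmul, ← tw, tw_orbz], fun y hy => (h3 _ y hy).symm ▸ c.2⟩)
      ⟨fun a b e => ?_, fun J => ?_⟩).symm
    · obtain ⟨y, hy, -⟩ := (hT.xr_orbz hr h1 h2 (x := s a) (by rw [hs]; exact a.1.2) hk).ns 1
      have e' : k • orbz ζ (s a, 1) = k • orbz ζ (s b, 1) := congrArg (·.1.1) e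
      exact Subtype.ext (Subtype.ext ((h3 _ y hy).symm.trans (h3 _ y (e' ▸ hy))))
    · obtain ⟨y, hy, -⟩ := J.1.2.ns 1
      obtain ⟨k', h4, h5⟩ := J.1.2.eq_of_fix hT h1 J.2.1 hy
      refine ⟨⟨⟨_, J.1.2.fixed hy⟩, J.2.2 y hy⟩, Subtype.ext (Subtype.ext ?_)⟩
      obtain rfl := Nat.eq_of_mul_eq_mul_right hr.pos h4
      exact (congrArg _ (hT.orbz_congr h1 (hs _))).trans h5.symm
  · refine Nat.card_eq_zero.2 (.inl ⟨fun J => ?_⟩)
    obtain ⟨y, hy, -⟩ := J.1.2.ns 1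
    obtain ⟨k', h4, -⟩ := J.1.2.eq_of_fix hT h1 J.2.1 hy
    exact h ⟨k', h4.trans (mul_comm _ _)⟩

omit hr in
theorem TA.zpow_eq_of_pow (h : z ^ r = 1) : z ^ Q = z := by
  obtain ⟨k, rfl⟩ := hT.cyc ζ z (h1 ▸ orderOf_dvd_of_pow_eq_one h)
  rw [← zpow_natCast, ← zpow_mul, mul_comm, zpow_mul, h2]

theorem XR.fix_of_not (h : XR Q r n J) (h3 : ¬ ∀ x ∈ J, x.1 ^ Q = x.1) : Cls.tw ζ J = J := by
  push Not at h3
  obtain ⟨x, hx, h3⟩ := h3
  have h4 : (x.1⁻¹ * x.1 ^ Q) ^ r = 1 := by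
    rw [mul_pow, ← zpow_natCast (x.1 ^ Q), ← zpow_mul, mul_comm Q, zpow_mul, zpow_natCast,
      h.fixed hx, inv_pow, inv_mul_cancel]
  have := Fact.mk hr
  obtain ⟨k, hk⟩ := hT.cyc (x.1⁻¹ * x.1 ^ Q) ζ (by
    rw [h1, orderOf_eq_prime h4 fun e => h3 (inv_mul_eq_one.1 e).symm])
  rw [hk]
  refine tw_pow (Eq.trans (Multiset.map_congr rfl fun y hy => ?_) h.adm.st) k
  obtain ⟨j, hj⟩ := hT.exists_mul_pow h1 (h.pow_eq hx hy)
  rw [hj, mul_zpow, hT.zpow_eq_of_pow h1 h2 (z := ζ ^ j) (by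
    rw [pow_right_comm, ← h1, pow_orderOf_eq_one, one_pow]), mul_right_comm, mul_inv_cancel_left]

omit h2 in
theorem TA.card_pow_eq_one : Nat.card {u : A // u ^ r = 1} = r := by
  rw [← h1, ← Nat.card_zpowers]
  refine Nat.card_congr (Equiv.subtypeEquivRight fun u => ⟨fun h => ?_, ?_⟩)
  · obtain ⟨k, rfl⟩ := hT.cyc ζ u (by rw [Nat.card_zpowers] at h; exact orderOf_dvd_of_pow_eq_one h)
    exact Subgroup.npow_mem_zpowers _ _
  · rintro ⟨k, rfl⟩
    rw [Nat.card_zpowers, ← zpow_natCast, ← zpow_mul, mul_comm, zpow_mul, zpow_natCast,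
      pow_orderOf_eq_one, one_zpow]

theorem TA.card_split [Finite (Tq A Q)] [Finite {J : Multiset (A × ℕ) // XR Q r n J}]
    (P : Multiset (A × ℕ) → Prop) (hP : ∀ z J, P J → P (tw z J)) :
    r * Nat.card {J : {J : Multiset (A × ℕ) // XR Q r n J} // P J.1 ∧ ∀ x ∈ J.1, x.1 ^ Q = x.1} =
      Nat.card (Tq A Q) *
        Nat.card {J : {J : Multiset (A × ℕ) // XR Q r n J} // P J.1 ∧ ∀ x ∈ J.1, x.1 ^ r = 1} := by
  have := Fintype.ofFinite
    {J : {J : Multiset (A × ℕ) // XR Q r n J} // P J.1 ∧ ∀ x ∈ J.1, x.1 ^ Q = x.1}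
  rw [← Nat.card_prod, Nat.card_eq_fintype_card, mul_comm, ← smul_eq_mul, ← card_univ, ← sum_const,
    sum_congr rfl (g := fun J => Nat.card {b : Tq A Q // ∀ x ∈ J.1.1, x.1 ^ r = b.1 ^ r}),
    ← Nat.card_sigma]
  · exact Nat.card_congr
      { toFun := fun x => (x.2.1, ⟨x.2.1⁻¹ • x.1.1, hP _ _ x.1.2.1,
          Multiset.forall_mem_map_iff.2 fun y hy => by simp [mul_pow, x.2.2 y hy]⟩)
        invFun := fun x => ⟨⟨x.1 • x.2.1, hP _ _ x.2.2.1, Multiset.forall_mem_map_iff.2 fun y hy => by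
            rw [mul_zpow, hT.zpow_eq_of_pow h1 h2 (x.2.2.2 y hy), mem_Tq.1 x.1.2]⟩,
          x.1, Multiset.forall_mem_map_iff.2 fun y hy => by simp [mul_pow, x.2.2.2 y hy]⟩
        left_inv := fun x => Sigma.subtype_ext (Subtype.ext (smul_inv_smul _ _)) rfl
        right_inv := fun x => Prod.ext rfl (Subtype.ext (inv_smul_smul _ _)) }
  · intro J _
    obtain ⟨y, hy, -⟩ := J.1.2.ns 1
    exact (hT.card_pow_eq_one hr h1).symm.trans (Nat.card_congr
      { toFun := fun u => ⟨⟨y.1 * u, mul_mem (J.2.2 y hy) (hT.zpow_eq_of_pow h1 h2 u.2)⟩,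
          fun x hx => by simp [mul_pow, u.2, J.1.2.pow_eq hx hy]⟩
        invFun := fun b => ⟨y.1⁻¹ * b.1.1, by simp [mul_pow, b.2 y hy]⟩
        left_inv := fun u => by simp
        right_inv := fun b => by simp })

theorem TA.card_one (hn : 0 < n) :
    Nat.card {J : {J : Multiset (A × ℕ) // XR Q r n J} // True ∧ ∀ x ∈ J.1, x.1 ^ r = 1} + r =
      (n + r - 1).choose (r - 1) := by
  classical
  have h3 := hT.card_pow_eq_one hr h1
  have : Finite {u : A // u ^ r = 1} := Nat.finite_of_card_ne_zero (h3.trans_ne hr.ne_zero)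
  let Φ := Set.Finite.toFinset (s := {u : A | u ^ r = 1}) this
  have h0 : ∀ u, u ∈ Φ ↔ u ^ r = 1 := fun u => Set.Finite.mem_toFinset _
  have h4 : Φ.card = r := by
    rw [← h3, ← Nat.card_eq_finsetCard]; exact Nat.card_congr (Equiv.subtypeEquivRight h0)
  have := finite_ms_eq Φ n
  have h5 := card_ms_eq Φ n
  rw [← card_add_card_not fun S => ∀ y, ∃ x ∈ S.1, x ≠ y, h4] at h5
  rw [Nat.choose_symm_of_eq_add (show n + r - 1 = r - 1 + n by have := hr.pos; omega), add_comm n,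
    ← h5]
  congr 1
  · symm
    refine Nat.card_eq_of_bijective (fun S => ⟨⟨S.1.1.map (·, 1), ⟨by simp, by
      simp [dm_map, S.1.2.2], St1.st (Eq.trans (Multiset.map_congr rfl fun x hx =>
        hT.zpow_eq_of_pow h1 h2 ((h0 x).1 (S.1.2.1 x hx))) (Multiset.map_id' _)) 1⟩,
      by simp, ⟨1, by simpa [h0] using S.1.2.1⟩, by simpa using S.2⟩, trivial,
      by simpa [h0] using S.1.2.1⟩) ⟨fun a b e => Subtype.ext (Subtype.ext
        (Multiset.map_injective (Prod.mk_left_injective 1) (congrArg (·.1.1) e))), fun J => ?_⟩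
    have h5 : (J.1.1.map Prod.fst).map (·, 1) = J.1.1 := by
      rw [Multiset.map_map]
      exact (Multiset.map_congr (g := id) rfl fun x hx => by simp [← J.1.2.one x hx]).trans
        (Multiset.map_id _)
    refine ⟨⟨⟨J.1.1.map Prod.fst, Multiset.forall_mem_map_iff.2 fun x hx =>
      (h0 _).2 (J.2.2 x hx), ?_⟩, fun y => ?_⟩, Subtype.ext (Subtype.ext h5)⟩
    · exact ((dm_map _ 1).trans (one_mul _)).symm.trans ((congrArg dm h5).trans J.1.2.adm.dim)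
    · obtain ⟨x, hx, h6⟩ := J.1.2.ns y
      exact ⟨_, Multiset.mem_map_of_mem _ hx, h6⟩
  · rw [← h4, ← Nat.card_eq_finsetCard]
    refine Nat.card_eq_of_bijective (fun y => ⟨⟨Multiset.replicate n y.1, fun x hx =>
      Multiset.eq_of_mem_replicate hx ▸ y.2, by simp⟩, fun h => (h y.1).elim fun x hx =>
        hx.2 (Multiset.eq_of_mem_replicate hx.1)⟩) ⟨fun a b e => Subtype.ext
          (Multiset.replicate_right_injective hn.ne' (congrArg (·.1.1) e)), fun S => ?_⟩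
    obtain ⟨y, hy⟩ : ∃ y, ∀ x ∈ S.1.1, x = y := by simpa using S.2
    obtain ⟨x, hx⟩ := Multiset.card_pos_iff_exists_mem.1 (S.1.2.2.symm ▸ hn)
    exact ⟨⟨y, hy x hx ▸ S.1.2.1 x hx⟩, Subtype.ext (Subtype.ext
      (Multiset.eq_replicate.2 ⟨S.1.2.2, hy⟩).symm)⟩

theorem TA.card_orbits [Finite (Tq A Q)] [Finite {J : Multiset (A × ℕ) // XR Q r n J}]
    (hd : ∀ c : A, ∃ x, x ^ r = c) (hn : 0 < n) :
    Nat.card (MulAction.orbitRel.Quotient (Tq A Q) {J : Multiset (A × ℕ) // XR Q r n J}) =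
      ((n + r - 1).choose (r - 1) - r - (if r ∣ n then 1 else 0)) / r +
        r * (if r ∣ n then 1 else 0) := by
  classical
  have := Fintype.ofFinite (Tq A Q)
  have := Fintype.ofFinite {J : Multiset (A × ℕ) // XR Q r n J}
  have := Fintype.ofFinite
    (MulAction.orbitRel.Quotient (Tq A Q) {J : Multiset (A × ℕ) // XR Q r n J})
  have a1 := MulAction.sum_card_fixedBy_eq_card_orbits_mul_card_group (Tq A Q)
    {J : Multiset (A × ℕ) // XR Q r n J}
  have a2 := hT.card_fix hr h1 h2 hd hn (fun _ => True)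
  have a3 := hT.card_fix hr h1 h2 hd hn (· = 1)
  have a4 := hT.card_split hr h1 h2 (n := n) (fun _ => True) fun _ _ _ => trivial
  have a5 := hT.card_split hr h1 h2 (n := n) (fun J => tw ζ J = J) fun z J h => by
    rw [tw_tw, mul_comm, ← tw_tw, h]
  have a6 := hT.card_one hr h1 h2 hn
  have a7 := card_and_add (fun _ : {J : Multiset (A × ℕ) // XR Q r n J} => True)
    fun J => ∀ x ∈ J.1, x.1 ^ Q = x.1
  have a8 := card_and_add (fun J : {J : Multiset (A × ℕ) // XR Q r n J} => tw ζ J.1 = J.1)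
    fun J => ∀ x ∈ J.1, x.1 ^ Q = x.1
  simp only [implies_true, and_true] at a2
  rw [a2, Nat.card_congr (Equiv.subtypeEquivRight (p := fun J : {J : Multiset (A × ℕ) // XR Q r n J} =>
    tw ζ J.1 = J.1 ∧ ¬ ∀ x ∈ J.1, x.1 ^ Q = x.1)
    (q := fun J => True ∧ ¬ ∀ x ∈ J.1, x.1 ^ Q = x.1)
    fun J => ⟨fun h => ⟨trivial, h.2⟩, fun h => ⟨J.2.fix_of_not hT hr h1 h2 h.2, h.2⟩⟩)] at a8
  rw [Nat.card_congr (Equiv.subtypeUnivEquiv fun _ => trivial)] at a7
  rw [show Nat.card {c : Tq A Q // (c : A) = 1} = 1 from Nat.card_eq_one_iff_exists.2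
    ⟨⟨1, rfl⟩, fun y => Subtype.ext (Subtype.ext y.2)⟩] at a3
  rw [a3] at a5
  obtain ⟨c, hc⟩ := Nat.exists_eq_add_of_le (a3.symm.trans_le (Nat.card_le_card_of_injective
    (Subtype.map (q := fun J => True ∧ ∀ x ∈ J.1, x.1 ^ r = 1) id fun _ h => ⟨trivial, h.2⟩)
    (Subtype.map_injective _ Function.injective_id)))
  have a9 : #(univ.filter fun z : Tq A Q => z ≠ 1 ∧ z.1 ^ r = 1) + 1 = r := by
    rw [← card_insert_of_notMem (a := 1) (by simp), ← Nat.card_eq_finsetCard]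
    exact Eq.trans (Nat.card_congr
      { toFun u := ⟨u.1.1, (mem_insert.1 u.2).elim (fun h => by simp [h])
          fun h => (mem_filter.1 h).2.2⟩
        invFun u := ⟨⟨u.1, hT.zpow_eq_of_pow h1 h2 u.2⟩, by simpa [u.2] using em _⟩
        left_inv _ := rfl
        right_inv _ := rfl }) (hT.card_pow_eq_one hr h1)
  simp only [← Nat.card_eq_fintype_card] at a1
  rw [← add_sum_erase _ _ (mem_univ 1), MulAction.fixedBy_one_eq_univ, Nat.card_univ,
    sum_congr rfl (g := fun z => if z.1 ^ r = 1 then if r ∣ n then Nat.card {c : Tq A Q // True}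
      else 0 else 0), ← sum_filter, sum_const, filter_erase, ← filter_ne', filter_filter,
    filter_congr (fun _ _ => and_comm), ← a7] at a1
  · rw [Nat.card_congr (Equiv.subtypeUnivEquiv fun _ => trivial)] at a1 a8
    have ht : 0 < Nat.card (Tq A Q) := Nat.card_pos
    generalize Nat.card (Tq A Q) = t at *
    generalize #(univ.filter fun z : Tq A Q => z ≠ 1 ∧ z.1 ^ r = 1) = s at *
    subst a9
    rw [← a6, Nat.add_sub_cancel, ← Nat.add_mul_div_left _ _ s.succ_pos]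
    refine (Nat.div_eq_of_eq_mul_right s.succ_pos (Nat.eq_of_mul_eq_mul_left ht ?_)).symm
    rw [hc] at a4 ⊢
    rw [Nat.add_sub_cancel_left]
    clear a2 a3 a6 a7 hc
    simp only [smul_eq_mul, Nat.succ_eq_add_one, MulAction.orbitRel.Quotient] at a1 ⊢
    zify at a1 a4 a5 a8 ⊢
    split_ifs at a1 a4 a5 a8 ⊢ <;> linear_combination (s + 1) * a1 - a4 - (s + 1) * a8 + a5
  · intro z hz
    have h3 : (z : A) ≠ 1 := fun h => (mem_erase.1 hz).1 (Subtype.ext h)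
    rw [← a2]
    split_ifs with h
    · have := Fact.mk hr
      obtain ⟨k, hk⟩ := hT.cyc z ζ (by rw [h1, orderOf_eq_prime h h3])
      obtain ⟨l, hl⟩ := hT.cyc ζ z (by rw [h1, orderOf_eq_prime h h3])
      exact Nat.card_congr (Equiv.subtypeEquivRight fun J => ⟨fun h => hk ▸ tw_pow
        (congrArg Subtype.val h) k, fun h => Subtype.ext ((congrArg (tw · _) hl).trans (tw_pow h l))⟩)
    · refine Nat.card_eq_zero.2 (.inl ⟨fun J => h ?_⟩)
      obtain ⟨y, hy, -⟩ := J.1.2.ns 1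
      have h4 : (y.1 * z, y.2) ∈ J.1.1 :=
        (congrArg Subtype.val J.2 : tw z.1 J.1.1 = _) ▸ mem_tw.2 ⟨y, hy, rfl⟩
      simpa [mul_pow] using J.1.2.pow_eq h4 hy

end

theorem xr_iff (hT : TA A p) (hr : r.Prime) (hp : r ≠ p) (hn : 0 < n) (h : Adm Q n J) :
    XR Q r n J ↔ PO p J r ∧ ¬ PO p J 1 := by
  have h1 : ∀ x ∈ J, p ^ Nat.clog p x.2 ∣ r ↔ x.2 = 1 := fun x hx => ⟨fun h1 => by
    have h2 := h.pos x hx
    by_contra h3
    exact hp ((Nat.prime_dvd_prime_iff_eq hT.prime hr).1 ((dvd_pow_self p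
      (Nat.clog_pos hT.prime.one_lt (by omega)).ne').trans h1)).symm, fun h => by simp [h]⟩
  refine ⟨fun h2 => ⟨⟨h2.pw, fun x hx => (h1 x hx).2 (h2.one x hx)⟩, fun ⟨⟨c, hc⟩, _⟩ =>
    (h2.ns c).elim fun x hx => hx.2 (by simpa using hc x hx.1)⟩, fun ⟨h2, h3⟩ =>
      ⟨h, fun x hx => (h1 x hx).1 (h2.2 x hx), h2.1, fun y => by_contra fun h4 => h3 ⟨⟨y, ?_⟩,
        fun x hx => by simp [(h1 x hx).1 (h2.2 x hx)]⟩⟩⟩
  simpa using h4

theorem card_ord_quot {G H K : Type*} [Finite G] [Group H] [Field K] [IsAlgClosed K]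
    (hT : TA Kˣ p) (hQ : PQ p Q) (hr : r.Prime) (hd : (r : ℤ) ∣ Q - 1) (hn : 0 < n) (π : G → H)
    (hπ : Function.Surjective π) (inv : G → Multiset (Kˣ × ℕ)) (h1 : ∀ J, Adm Q n J ↔ ∃ g, inv g = J)
    (h2 : ∀ g g', IsConj (π g) (π g') ↔ ∃ c, c ^ Q = c ∧ tw c (inv g') = inv g)
    (h3 : ∀ g m, orderOf (π g) ∣ m ↔ PO p (inv g) m) :
    Nat.card {C : ConjClasses H // ∃ g, ConjClasses.mk g = C ∧ orderOf g = r} =
      ((n + r - 1).choose (r - 1) - r - (if r ∣ n then 1 else 0)) / r +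
        r * (if r ∣ n then 1 else 0) := by
  obtain ⟨ζ, a1, a2⟩ := hT.exists_dvd hQ one_pos (m := r) (by rwa [pow_one])
  have := (tq_spec hT hQ).1
  have a3 : r ≠ p := by
    rintro rfl
    exact hr.one_lt.ne' (by simpa [a1] using hT.cop ζ)
  have a4 : ∀ g, XR Q r n (inv g) ↔ orderOf (π g) = r := fun g => by
    rw [xr_iff hT hr a3 hn ((h1 _).2 ⟨g, rfl⟩), ← h3, ← h3, Nat.dvd_prime hr, Nat.dvd_one]
    exact ⟨fun h => h.1.resolve_left h.2, fun h => ⟨.inr h, h ▸ hr.ne_one⟩⟩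
  choose s hs using fun J : {J // XR Q r n J} => (h1 J.1).1 J.2.adm
  have : Finite {J // XR Q r n J} := Finite.of_injective s fun a b e =>
    Subtype.ext (by rw [← hs, e, hs])
  rw [← hT.card_orbits hr a1 (by simpa using a2) (fun c => ?_) hn]
  · symm
    refine Nat.card_eq_of_bijective (Quotient.lift (fun J => ⟨ConjClasses.mk (π (s J)), _, rfl,
      (a4 _).1 ((hs J).symm ▸ J.2)⟩) ?_) ⟨?_, ?_⟩
    · rintro _ J ⟨z, rfl⟩
      exact Subtype.ext (ConjClasses.mk_eq_mk_iff_isConj.2 ((h2 _ _).2 ⟨z, z.2, by rw [hs, hs]; rfl⟩))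
    · rintro ⟨J⟩ ⟨J'⟩ h
      obtain ⟨c, h4, h5⟩ := (h2 _ _).1 (ConjClasses.mk_eq_mk_iff_isConj.1 (congrArg Subtype.val h))
      exact Quotient.sound ⟨⟨c, h4⟩, Subtype.ext (by rwa [hs, hs] at h5)⟩
    · rintro ⟨_, g, rfl, hg⟩
      obtain ⟨g, rfl⟩ := hπ g
      exact ⟨Quotient.mk _ ⟨_, (a4 g).2 hg⟩, Subtype.ext (ConjClasses.mk_eq_mk_iff_isConj.2
        ((h2 _ _).2 ⟨1, one_zpow _, by rw [hs, tw_one]⟩))⟩
  · obtain ⟨x, hx⟩ := IsAlgClosed.exists_pow_nat_eq (c : K) hr.pos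
    exact ⟨Units.mk0 x (by rintro rfl; simp [hr.ne_zero] at hx; exact c.ne_zero hx.symm),
      Units.ext hx⟩

end

variable {F : Type*} [Field F] [Finite F] {K : Type*} [Field K] [Algebra F K] [IsAlgClosed K]
  [Algebra.IsAlgebraic F K] (p : ℕ) [hp : Fact p.Prime] [CharP F p]
  {V : Type*} [AddCommGroup V] [Module F V] [FiniteDimensional F V]

include p in
theorem isConj_quot_iff {G : Type*} [Group G] {Q : ℤ} {ρ : G →* End F V}
    (hρ : Function.Injective ρ) (h1 : ∀ g g', IsConj g g' ↔ Sim (ρ g) (ρ g'))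
    (h2 : ∀ z ∈ Subgroup.center G, ∃ c : F, ρ z = algebraMap F _ c)
    (h3 : ∀ a : Fˣ, (∃ z, ρ z = algebraMap F _ a) ↔
      Units.map (algebraMap F K : F →* K) a ^ Q = Units.map (algebraMap F K : F →* K) a)
    (h4 : ∀ c : Kˣ, c ^ Q = c → (c : K) ^ Nat.card F = c) [Nontrivial V] (g g' : G) :
    IsConj (g : G ⧸ Subgroup.center G) g' ↔ ∃ c, c ^ Q = c ∧ tw c (ev K (ρ g')) = ev K (ρ g) := by
  have h0 := fun g : G => (Group.isUnit g).map ρ
  constructor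
  · intro h
    obtain ⟨c, hc⟩ := isConj_iff.1 h.symm
    obtain ⟨c, rfl⟩ := QuotientGroup.mk_surjective c
    obtain ⟨z, hz⟩ : ∃ z : Subgroup.center G, c * g' * c⁻¹ * z = g :=
      ⟨⟨_, QuotientGroup.eq.1 hc⟩, mul_inv_cancel_left _ _⟩
    obtain ⟨a, h5⟩ := h2 _ z.2
    lift a to Fˣ using (Ne.isUnit (by rintro rfl; simpa [h5] using h0 z))
    refine ⟨_, (h3 a).1 ⟨_, h5⟩, ?_⟩
    rw [← ev_smul p (h0 g'), Algebra.smul_def, ← h5, ← map_mul, ← sim_iff_ev (h0 _) (h0 g), ← h1,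
      isConj_iff]
    exact ⟨c, by rw [← hz, ← Subgroup.mem_center_iff.1 z.2, mul_assoc _ c⁻¹,
      Subgroup.mem_center_iff.1 z.2 c⁻¹]; group⟩
  · rintro ⟨c, h5, h6⟩
    obtain ⟨a, ha⟩ := exists_algebraMap_eq (h4 c h5)
    lift a to Fˣ using (Ne.isUnit (by rintro rfl; exact c.ne_zero (by simpa using ha.symm)))
    obtain rfl : Units.map (algebraMap F K : F →* K) a = c := Units.ext ha
    obtain ⟨z, h7⟩ := (h3 a).2 h5
    rw [← ev_smul p (h0 g'), Algebra.smul_def, ← h7, ← map_mul, ← sim_iff_ev (h0 _) (h0 g)] at h6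
    have h8 := (QuotientGroup.mk' (Subgroup.center G)).map_isConj ((h1 _ _).2 h6)
    rw [map_mul, QuotientGroup.mk'_apply, (QuotientGroup.eq_one_iff z).2 (Subgroup.mem_center_iff.2
      fun x => hρ (by rw [map_mul, map_mul, h7, Algebra.commutes])), one_mul] at h8
    exact h8.symm

end CF.Cls
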