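import Mathlib

/-! Abstract Shintani descent and a fibre counting lemma. -/

set_option autoImplicit false

namespace CF.Cls

/-- A map all of whose fibres are in bijection with `C`. -/
theorem card_eq_mul_of_fibers {P A C : Type*} (f : P → A)
    (h : ∀ a : A, Nonempty ({p // f p = a} ≃ C)) : Nat.card P = Nat.card A * Nat.card C := by
  rw [← Nat.card_prod]
  refine Nat.card_congr ((Equiv.sigmaFiberEquiv f).symm.trans ?_)
  exact Equiv.sigmaEquivProdOfEquiv (fun a => (h a).some)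

variable {X : Type*} [Group X]

theorem pow_apply_comm (σ : MulAut X) (e : ℕ) (a : X) : (σ ^ e) (σ a) = σ ((σ ^ e) a) := by
  have : σ ^ e * σ = σ * σ ^ e := (pow_mul_comm' σ e)
  have h := congrArg (fun f : MulAut X => f a) this
  simpa using h

theorem pow_apply_of_fixed (σ : MulAut X) (e : ℕ) {a : X} (h : σ a = a) : (σ ^ e) a = a := by
  induction e with
  | zero => simp
  | succ n ih => rw [pow_succ, MulAut.mul_apply, h, ih]

theorem norm_prod (σ : MulAut X) (d : ℕ) (a : X) :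
    ((List.range d).map (fun i => (σ ^ i) (a * (σ a)⁻¹))).prod = a * ((σ ^ d) a)⁻¹ := by
  induction d with
  | zero => simp
  | succ n ih =>
    rw [List.range_succ, List.map_append, List.prod_append, ih]
    simp only [List.map_cons, List.map_nil, List.prod_cons, List.prod_nil, mul_one, map_mul,
      map_inv]
    rw [pow_succ, MulAut.mul_apply]; group

theorem shin_fixed_iff (σ : MulAut X) (e : ℕ) (a : X) :
    (σ ^ e) (a * (σ a)⁻¹) = a * (σ a)⁻¹ ↔ σ (((σ ^ e) a)⁻¹ * a) = ((σ ^ e) a)⁻¹ * a := by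
  simp only [map_mul, map_inv, pow_apply_comm]
  constructor
  · intro h
    calc (σ ((σ ^ e) a))⁻¹ * σ a = ((σ ^ e) a)⁻¹ * ((σ ^ e) a * (σ ((σ ^ e) a))⁻¹) * σ a := by group
      _ = ((σ ^ e) a)⁻¹ * a := by rw [h]; group
  · intro h
    calc (σ ^ e) a * (σ ((σ ^ e) a))⁻¹
        = (σ ^ e) a * ((σ ((σ ^ e) a))⁻¹ * σ a) * (σ a)⁻¹ := by group
      _ = a * (σ a)⁻¹ := by rw [h]; group

theorem mem_eqLocus_iff (τ : MulAut X) (a : X) :
    a ∈ (MulEquiv.toMonoidHom τ).eqLocus (MonoidHom.id X) ↔ τ a = a := Iff.rfl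

theorem shintani_twisted (σ : MulAut X) (e : ℕ) (a b : X) :
    (∃ k, (σ ^ e) k = k ∧ b * (σ b)⁻¹ = k * (a * (σ a)⁻¹) * (σ k)⁻¹) ↔
      (∃ h, σ h = h ∧ ((σ ^ e) b)⁻¹ * b = h * (((σ ^ e) a)⁻¹ * a) * h⁻¹) := by
  constructor
  · rintro ⟨k, hk, h⟩
    have hh : σ (b⁻¹ * k * a) = b⁻¹ * k * a := by
      simp only [map_mul, map_inv]
      calc (σ b)⁻¹ * σ k * σ a = b⁻¹ * (b * (σ b)⁻¹) * σ k * σ a := by group
        _ = _ := by rw [h]; group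
    refine ⟨b⁻¹ * k * a, hh, ?_⟩
    have h2 := pow_apply_of_fixed σ e hh
    simp only [map_mul, map_inv, hk] at h2
    calc ((σ ^ e) b)⁻¹ * b = (((σ ^ e) b)⁻¹ * k * (σ ^ e) a) * (((σ ^ e) a)⁻¹ * a) *
        (b⁻¹ * k * a)⁻¹ := by group
      _ = _ := by rw [h2]
  · rintro ⟨h, hh, H⟩
    refine ⟨b * h * a⁻¹, ?_, ?_⟩
    · simp only [map_mul, map_inv, pow_apply_of_fixed σ e hh]
      calc (σ ^ e) b * h * ((σ ^ e) a)⁻¹
          = (σ ^ e) b * (h * (((σ ^ e) a)⁻¹ * a) * h⁻¹) * h * a⁻¹ := by group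
        _ = _ := by rw [← H]; group
    · simp only [map_mul, map_inv, hh]; group

theorem shintani_pow (σ : MulAut X) (e d : ℕ) (a : X)
    (h : σ (((σ ^ e) a)⁻¹ * a) = ((σ ^ e) a)⁻¹ * a) :
    ((σ ^ (e * d)) a)⁻¹ * a = (((σ ^ e) a)⁻¹ * a) ^ d := by
  induction d with
  | zero => simp
  | succ n ih =>
    have h2 := pow_apply_of_fixed σ (e * n) h
    simp only [map_mul, map_inv] at h2
    rw [pow_succ', ← ih, mul_add, mul_one, pow_add, MulAut.mul_apply]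
    calc ((σ ^ (e * n)) ((σ ^ e) a))⁻¹ * a
        = (((σ ^ (e * n)) ((σ ^ e) a))⁻¹ * (σ ^ (e * n)) a) * (((σ ^ (e * n)) a)⁻¹ * a) := by
          group
      _ = _ := by rw [h2]

theorem shintani_count (σ : MulAut X) (e : ℕ) (Y : Subgroup X) (hY : ∀ y : X, y ∈ Y ↔ σ y ∈ Y)
    (hYL : ∀ y ∈ Y, ∃ a ∈ Y, y = a * (σ a)⁻¹) (hYLe : ∀ y ∈ Y, ∃ a ∈ Y, y = a * ((σ ^ e) a)⁻¹)
    (a : X) :
    Nat.card {k : ↥((MulEquiv.toMonoidHom (σ ^ e)).eqLocus (MonoidHom.id X)) //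
        (k : X)⁻¹ * (a * (σ a)⁻¹) * σ k ∈ Y} *
        Nat.card ↥(Y ⊓ (MulEquiv.toMonoidHom σ).eqLocus (MonoidHom.id X)) =
      Nat.card {h : ↥((MulEquiv.toMonoidHom σ).eqLocus (MonoidHom.id X)) //
        (h : X)⁻¹ * (((σ ^ e) a)⁻¹ * a) * h ∈ Y} *
        Nat.card ↥(Y ⊓ (MulEquiv.toMonoidHom (σ ^ e)).eqLocus (MonoidHom.id X)) := by
  have hYe : ∀ n : ℕ, ∀ y ∈ Y, (σ ^ n) y ∈ Y := by
    intro n
    induction n with
    | zero => simp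
    | succ n ih => intro y hy; rw [pow_succ, MulAut.mul_apply]; exact ih _ ((hY y).1 hy)
  let P := {p : X × X // (σ ^ e) p.1 = p.1 ∧ p.2 ∈ Y ∧ σ (a⁻¹ * p.1 * p.2) = a⁻¹ * p.1 * p.2}
  have key1 : ∀ k y : X, σ (a⁻¹ * k * y) = a⁻¹ * k * y ↔
      k⁻¹ * (a * (σ a)⁻¹) * σ k = y * (σ y)⁻¹ := by
    intro k y
    simp only [map_mul, map_inv]
    constructor
    · intro h
      calc k⁻¹ * (a * (σ a)⁻¹) * σ k = k⁻¹ * a * ((σ a)⁻¹ * σ k * σ y) * (σ y)⁻¹ := by group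
        _ = _ := by rw [h]; group
    · intro h
      calc (σ a)⁻¹ * σ k * σ y = a⁻¹ * k * (k⁻¹ * (a * (σ a)⁻¹) * σ k) * σ y := by group
        _ = _ := by rw [h]; group
  have key2 : ∀ h y : X, σ h = h → ((σ ^ e) (a * h * y⁻¹) = a * h * y⁻¹ ↔
      h⁻¹ * (((σ ^ e) a)⁻¹ * a) * h = ((σ ^ e) y)⁻¹ * y) := by
    intro h y hh
    simp only [map_mul, map_inv, pow_apply_of_fixed σ e hh]
    constructor
    · intro H
      calc h⁻¹ * (((σ ^ e) a)⁻¹ * a) * h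
          = h⁻¹ * ((σ ^ e) a)⁻¹ * (a * h * y⁻¹) * y := by group
        _ = _ := by rw [← H]; group
    · intro H
      calc (σ ^ e) a * h * ((σ ^ e) y)⁻¹ = (σ ^ e) a * h * (((σ ^ e) y)⁻¹ * y) * y⁻¹ := by group
        _ = _ := by rw [← H]; group
  have e1 := card_eq_mul_of_fibers (P := P)
    (A := {k : ↥((MulEquiv.toMonoidHom (σ ^ e)).eqLocus (MonoidHom.id X)) //
        (k : X)⁻¹ * (a * (σ a)⁻¹) * σ k ∈ Y})
    (C := ↥(Y ⊓ (MulEquiv.toMonoidHom σ).eqLocus (MonoidHom.id X)))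
    (fun p => ⟨⟨p.1.1, p.2.1⟩, by
      have := (key1 _ _).1 p.2.2.2
      show p.1.1⁻¹ * _ * σ p.1.1 ∈ Y
      rw [this]; exact Y.mul_mem p.2.2.1 (Y.inv_mem ((hY _).1 p.2.2.1))⟩) (by
      rintro ⟨⟨k, hk⟩, hkY⟩
      obtain ⟨y₀, hy₀, h₀⟩ := hYL _ hkY
      have h₀' := (key1 k y₀).2 h₀
      refine ⟨⟨fun p => ⟨y₀⁻¹ * p.1.1.2, Y.mul_mem (Y.inv_mem hy₀) p.1.2.2.1, ?_⟩,
        fun c => ⟨⟨(k, y₀ * c.1), hk, Y.mul_mem hy₀ c.2.1, ?_⟩, rfl⟩, ?_, ?_⟩⟩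
      · obtain ⟨⟨⟨k', y⟩, h1, h2, h3⟩, h4⟩ := p
        have h5 : k' = k := congrArg (fun z => z.1.1) h4
        subst h5
        show σ (y₀⁻¹ * y) = y₀⁻¹ * y
        have : y₀⁻¹ * y = (a⁻¹ * k' * y₀)⁻¹ * (a⁻¹ * k' * y) := by group
        rw [this, map_mul, map_inv, h₀']
        exact congrArg _ h3
      · have hc : σ c.1 = c.1 := c.2.2
        show σ (a⁻¹ * k * (y₀ * c.1)) = _
        rw [← mul_assoc, map_mul, h₀', hc]
      · rintro ⟨⟨⟨k', y⟩, h1, h2, h3⟩, h4⟩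
        have h5 : k' = k := congrArg (fun z => z.1.1) h4
        subst h5
        simp
      · intro c; apply Subtype.ext; simp)
  have e2 := card_eq_mul_of_fibers (P := P)
    (A := {h : ↥((MulEquiv.toMonoidHom σ).eqLocus (MonoidHom.id X)) //
        (h : X)⁻¹ * (((σ ^ e) a)⁻¹ * a) * h ∈ Y})
    (C := ↥(Y ⊓ (MulEquiv.toMonoidHom (σ ^ e)).eqLocus (MonoidHom.id X)))
    (fun p => ⟨⟨a⁻¹ * p.1.1 * p.1.2, p.2.2.2⟩, by
      have h1 : (σ ^ e) (a * (a⁻¹ * p.1.1 * p.1.2) * p.1.2⁻¹) =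
          a * (a⁻¹ * p.1.1 * p.1.2) * p.1.2⁻¹ := by
        have : a * (a⁻¹ * p.1.1 * p.1.2) * p.1.2⁻¹ = p.1.1 := by group
        rw [this]; exact p.2.1
      have := (key2 _ _ p.2.2.2).1 h1
      show (a⁻¹ * p.1.1 * p.1.2)⁻¹ * _ * (a⁻¹ * p.1.1 * p.1.2) ∈ Y
      rw [this]; exact Y.mul_mem (Y.inv_mem (hYe _ _ p.2.2.1)) p.2.2.1⟩) (by
      rintro ⟨⟨h, hh⟩, hhY⟩
      have hh' : σ h = h := hh
      obtain ⟨c, hc, h₀⟩ := hYLe _ (Y.inv_mem hhY)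
      have h₀' : h⁻¹ * (((σ ^ e) a)⁻¹ * a) * h = ((σ ^ e) c⁻¹)⁻¹ * c⁻¹ := by
        rw [← inv_inj, h₀]; simp
      have h₁ := (key2 h c⁻¹ hh').2 h₀'
      rw [inv_inv] at h₁
      refine ⟨⟨fun p => ⟨p.1.1.2 * c, Y.mul_mem p.1.2.2.1 hc, ?_⟩,
        fun d => ⟨⟨(a * h * c * d.1⁻¹, d.1 * c⁻¹), ?_, Y.mul_mem d.2.1 (Y.inv_mem hc), ?_⟩, ?_⟩,
          ?_, ?_⟩⟩
      · obtain ⟨⟨⟨k', y⟩, h1, h2, h3⟩, h4⟩ := p
        have h5 : a⁻¹ * k' * y = h := congrArg (fun z => z.1.1) h4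
        show (σ ^ e) (y * c) = y * c
        have : y * c = k'⁻¹ * (a * h * c) := by rw [← h5]; group
        have h1' : (σ ^ e) k' = k' := h1
        rw [this, map_mul, map_inv, h₁, h1']
      · have hd : (σ ^ e) d.1 = d.1 := d.2.2
        show (σ ^ e) (a * h * c * d.1⁻¹) = _
        rw [map_mul, map_inv, h₁, hd]
      · have : a⁻¹ * (a * h * c * d.1⁻¹) * (d.1 * c⁻¹) = h := by group
        show σ (a⁻¹ * (a * h * c * d.1⁻¹) * (d.1 * c⁻¹)) = a⁻¹ * (a * h * c * d.1⁻¹) * (d.1 * c⁻¹)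
        rw [this, hh']
      · apply Subtype.ext; apply Subtype.ext
        show a⁻¹ * (a * h * c * d.1⁻¹) * (d.1 * c⁻¹) = h
        group
      · rintro ⟨⟨⟨k', y⟩, h1, h2, h3⟩, h4⟩
        have h5 : a⁻¹ * k' * y = h := congrArg (fun z => z.1.1) h4
        apply Subtype.ext; apply Subtype.ext
        show (a * h * c * (y * c)⁻¹, y * c * c⁻¹) = (k', y)
        rw [← h5]; ext <;> simp only <;> group
      · intro d; apply Subtype.ext
        show d.1 * c⁻¹ * c = d.1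
        group)
  rw [← e1, ← e2]

end CF.Cls
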